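import Cfsg.Agent.MaxSub.OrthTensor.Main

/-!
The tensor product of a three-dimensional orthogonal space and a four-dimensional one of minus type:
pure tensors, tensor isometries, and the standing hypotheses.
-/

set_option autoImplicit false
set_option linter.unusedSectionVars false

namespace Cfsg.Agent.MaxSub.OrthTwelve

open Module Matrix QuadraticMap Cfsg.Agent.MaxSub.TensorMax Cfsg.Agent.MaxSub.OrthTensor
open Cfsg.Agent.Classical

variable {F : Type*} [Field F]

/-- `u ⊗ w ↦ u ⊗ B w`. -/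
def rightMap {a b : ℕ} (B : Module.End F (Fin b → F)) :
    Module.End F (Matrix (Fin a) (Fin b) F) where
  toFun X := X * (LinearMap.toMatrix' B)ᵀ
  map_add' X Y := Matrix.add_mul X Y _
  map_smul' c X := Matrix.smul_mul c X _

lemma rightMap_colMap {a b : ℕ} (B : Module.End F (Fin b → F)) (w : Fin b → F) (u : Fin a → F) :
    rightMap B (colMap w u) = colMap (B w) u := by
  show vecMulVec u w * (LinearMap.toMatrix' B)ᵀ = vecMulVec u (B w)
  rw [vecMulVec_mul, vecMul_transpose, LinearMap.toMatrix'_mulVec]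

lemma col_ne_zero {a b : ℕ} {w : Fin b → F} {u : Fin a → F} (hw : w ≠ 0) (hu : u ≠ 0) :
    colMap w u ≠ 0 := fun h => hu (colMap_injective hw (by rw [h, map_zero]))

/-- A linear map that is `A ⊗ B`. -/
def Acts {a b : ℕ} (g : Matrix (Fin a) (Fin b) F ≃ₗ[F] Matrix (Fin a) (Fin b) F)
    (A : Module.End F (Fin a → F)) (B : Module.End F (Fin b → F)) : Prop :=
  ∀ w u, g (colMap w u) = colMap (B w) (A u)

lemma Acts.apply {a b : ℕ} {g : Matrix (Fin a) (Fin b) F ≃ₗ[F] Matrix (Fin a) (Fin b) F}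
    {A : Module.End F (Fin a → F)} {B : Module.End F (Fin b → F)} (h : Acts g A B)
    (X : Matrix (Fin a) (Fin b) F) : g X = leftMap A (rightMap B X) :=
  ext_colMap (φ := g.toLinearMap) (ψ := leftMap A ∘ₗ rightMap B) (fun w u => by
    rw [LinearEquiv.coe_coe, h, LinearMap.comp_apply, rightMap_colMap, leftMap_colMap]) X

lemma tens_iff {a b : ℕ} {g : Matrix (Fin a) (Fin b) F ≃ₗ[F] Matrix (Fin a) (Fin b) F} :
    Tens g ↔ ∃ A B, Acts g A B := by
  constructor
  · rintro ⟨A, B, h⟩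
    refine ⟨Matrix.toLin' A, Matrix.toLin' Bᵀ, fun w u => ?_⟩
    rw [h, Matrix.toLin'_apply, Matrix.toLin'_apply, mulVec_transpose]
    show A * vecMulVec u w * B = vecMulVec (A *ᵥ u) (w ᵥ* B)
    rw [mul_vecMulVec, vecMulVec_mul]
  · rintro ⟨A, B, h⟩
    refine ⟨LinearMap.toMatrix' A, (LinearMap.toMatrix' B)ᵀ, fun X => ?_⟩
    rw [h.apply, Matrix.mul_assoc]
    rfl

/-- A three- and a four-dimensional space, the second of minus type, and a group between the
tensor elements of `Ω` and `Ω`. -/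
structure Ctx (D : TD F 3 4) (M : Subgroup (OQ D.Q)) : Prop where
  card : 5 ≤ Nat.card F
  nopair : ∀ v c, ¬ Pair₂ D.g v c
  le : M ≤ commutator (OQ D.Q)
  tens : ∀ k ∈ commutator (OQ D.Q), Tens k.1 → k ∈ M

variable {D : TD F 3 4} {M : Subgroup (OQ D.Q)}

lemma finite_F (h : Ctx D M) : Finite F :=
  Nat.finite_of_card_ne_zero (by have := h.card; omega)

variable [Finite F]

instance finite_OQ : Finite (OQ D.Q) := by
  haveI : Finite (Matrix (Fin 3) (Fin 4) F) := Module.finite_of_finite F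
  haveI : Finite (Matrix (Fin 3) (Fin 4) F ≃ₗ[F] Matrix (Fin 3) (Fin 4) F) :=
    Finite.of_injective _ DFunLike.coe_injective
  exact Subtype.finite

/-- The isometry `A ⊗ B`. -/
lemma exists_acts {A : Module.End F (Fin 3 → F)} {B : Module.End F (Fin 4 → F)}
    (hA : ∀ p q, D.f (A p) (A q) = D.f p q) (hB : ∀ p q, D.g (B p) (B q) = D.g p q) :
    ∃ k : OQ D.Q, Acts k.1 A B := by
  have hAi : Function.Injective A := fun p q e => sub_eq_zero.1 (D.hf.nd _ fun r => by
    rw [← hA, map_sub, e, sub_self, map_zero, LinearMap.zero_apply])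
  have hBi : Function.Injective B := fun p q e => sub_eq_zero.1 (D.hg.nd _ fun r => by
    rw [← hB, map_sub, e, sub_self, map_zero, LinearMap.zero_apply])
  let A' := (LinearEquiv.ofInjectiveEndo A hAi).symm.toLinearMap
  let B' := (LinearEquiv.ofInjectiveEndo B hBi).symm.toLinearMap
  have a1 : ∀ u, A (A' u) = u := fun u => (LinearEquiv.ofInjectiveEndo A hAi).apply_symm_apply u
  have a2 : ∀ u, A' (A u) = u := fun u => (LinearEquiv.ofInjectiveEndo A hAi).symm_apply_apply u
  have b1 : ∀ u, B (B' u) = u := fun u => (LinearEquiv.ofInjectiveEndo B hBi).apply_symm_apply u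
  have b2 : ∀ u, B' (B u) = u := fun u => (LinearEquiv.ofInjectiveEndo B hBi).symm_apply_apply u
  obtain ⟨k, hk⟩ := TD.exists_isom (D := D) (L := leftMap A ∘ₗ rightMap B)
    (K := leftMap A' ∘ₗ rightMap B')
    (LinearMap.ext fun X => ext_colMap (ψ := 1) (fun w u => by
      simp [rightMap_colMap, leftMap_colMap, a1, b1]) X)
    (LinearMap.ext fun X => ext_colMap (ψ := 1) (fun w u => by
      simp [rightMap_colMap, leftMap_colMap, a2, b2]) X)
    fun w u z q => by
      simp [rightMap_colMap, leftMap_colMap, TD.polar_col_col, hA, hB]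
  exact ⟨k, fun w u => by rw [hk]; simp [rightMap_colMap, leftMap_colMap]⟩

lemma acts_one : Acts (1 : OQ D.Q).1 1 1 := fun w u => rfl

lemma Acts.mul {g g' : OQ D.Q} {A A' : Module.End F (Fin 3 → F)} {B B' : Module.End F (Fin 4 → F)}
    (h : Acts g.1 A B) (h' : Acts g'.1 A' B') : Acts (g * g').1 (A * A') (B * B') := fun w u => by
  rw [Subgroup.coe_mul, LinearEquiv.mul_apply, h', h]; rfl

lemma Acts.ext {g g' : OQ D.Q} {A : Module.End F (Fin 3 → F)} {B : Module.End F (Fin 4 → F)}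
    (h : Acts g.1 A B) (h' : Acts g'.1 A B) : g = g' :=
  Subtype.ext (LinearEquiv.ext fun X => by rw [h.apply, h'.apply])

lemma Acts.congr {g : OQ D.Q} {A A' : Module.End F (Fin 3 → F)} {B B' : Module.End F (Fin 4 → F)}
    (h : Acts g.1 A B) (hA : A = A') (hB : B = B') : Acts g.1 A' B' := hA ▸ hB ▸ h

/-- The tensor isometries. -/
lemma tens_mul {g g' : OQ D.Q} (h : Tens g.1) (h' : Tens g'.1) : Tens (g * g').1 := by
  obtain ⟨A, B, hg⟩ := tens_iff.1 h
  obtain ⟨A', B', hg'⟩ := tens_iff.1 h'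
  exact tens_iff.2 ⟨_, _, hg.mul hg'⟩

lemma tens_one : Tens (1 : OQ D.Q).1 := tens_iff.2 ⟨1, 1, acts_one⟩

/-- The tensor isometries form a subgroup. -/
def tensGroup (D : TD F 3 4) : Subgroup (OQ D.Q) where
  carrier := {g | Tens g.1}
  one_mem' := tens_one
  mul_mem' := tens_mul
  inv_mem' := fun {g} hg => by
    have hp : ∀ k : ℕ, Tens (g ^ k).1 := fun k => by
      induction k with
      | zero => rw [pow_zero]; exact tens_one
      | succ k ih => rw [pow_succ]; exact tens_mul ih hg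
    obtain ⟨k, hk⟩ := (IsOfFinOrder.mem_powers_iff_mem_zpowers (isOfFinOrder_of_finite g)).2
      ((Subgroup.zpowers g).inv_mem (Subgroup.mem_zpowers g))
    exact Eq.subst (motive := fun x : OQ D.Q => Tens x.1) hk (hp k)

@[simp] lemma mem_tensGroup {g : OQ D.Q} : g ∈ tensGroup D ↔ Tens g.1 := Iff.rfl

lemma Ctx.mem_of_acts (h : Ctx D M) {k : OQ D.Q} {A : Module.End F (Fin 3 → F)}
    {B : Module.End F (Fin 4 → F)} (hk : Acts k.1 A B) (hc : k ∈ commutator (OQ D.Q)) : k ∈ M :=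
  h.tens k hc (tens_iff.2 ⟨A, B, hk⟩)

lemma notExc (D : TD F 3 4) : OrthGen.NotExceptional D.Q :=
  OrthGen.notExceptional_of_two_ne_zero D.hf.two

lemma sq_mem_commutator (k : OQ D.Q) : k * k ∈ commutator (OQ D.Q) :=
  Forms.mul_self_mem_commutator D.bNondeg (notExc D) k

/-- Elements of odd order lie in the commutator subgroup. -/
lemma mem_commutator_of_pow {k : OQ D.Q} {p : ℕ} (hp : Odd p) (h : k ^ p = 1) :
    k ∈ commutator (OQ D.Q) := by
  obtain ⟨m, rfl⟩ := hp
  have e : k = k ^ (m + 1) * k ^ (m + 1) := by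
    rw [← pow_add, show m + 1 + (m + 1) = 2 * m + 1 + 1 by ring, pow_succ, h, one_mul]
  rw [e]
  exact sq_mem_commutator _

/-- The square of a tensor isometry. -/
lemma Ctx.sq_acts_mem (h : Ctx D M) {k : OQ D.Q} {A : Module.End F (Fin 3 → F)}
    {B : Module.End F (Fin 4 → F)} (hk : Acts k.1 A B) : k * k ∈ M :=
  h.mem_of_acts (hk.mul hk) (sq_mem_commutator k)

lemma one_add_sie_skew {W : Type*} [AddCommGroup W] [Module F W] {g : W →ₗ[F] W →ₗ[F] F}
    (hg : Sym g) {u y : W} (hu : g u u = 0) (huy : g u y = 0) (p q : W) :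
    g ((1 + sie g u y) p) ((1 + sie g u y) q) = g p q := by
  simpa using hg.sie_skew hu huy p q

/-- The Eichler transformations of the second factor. -/
lemma Ctx.right_mem (h : Ctx D M) {u y : Fin 4 → F} (hu : D.g u u = 0) (huy : D.g u y = 0) :
    ∃ m ∈ M, Acts m.1 1 (1 + sie D.g u y) ∧ ∀ X, m.1 X = X + D.sieW u y X := by
  have hh : D.g u ((2 : F)⁻¹ • y) = 0 := by simp [huy]
  obtain ⟨k, hk⟩ := exists_acts (D := D) (A := 1) (B := 1 + sie D.g u ((2 : F)⁻¹ • y))
    (fun _ _ => rfl) (one_add_sie_skew D.hg hu hh)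
  have h22 : (2 : F)⁻¹ • y + (2 : F)⁻¹ • y = y := by
    rw [← add_smul, ← two_mul, mul_inv_cancel₀ D.hf.two, one_smul]
  have hkk : Acts (k * k).1 1 (1 + sie D.g u y) :=
    (hk.mul hk).congr (one_mul 1) (by rw [D.hg.sie_comp hu hh hh, h22])
  refine ⟨k * k, h.sq_acts_mem hk, hkk, fun X => ?_⟩
  exact ext_colMap (φ := (k * k).1.toLinearMap) (ψ := 1 + D.sieW u y) (fun w p => by
    rw [LinearEquiv.coe_coe, hkk, TD.sieW_col]; simp) X

/-- The Eichler transformations of the first factor. -/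
lemma Ctx.left_mem (h : Ctx D M) {x y : Fin 3 → F} (hx : D.f x x = 0) (hxy : D.f x y = 0) :
    ∃ m ∈ M, Acts m.1 (1 + sie D.f x y) 1 ∧ ∀ X, m.1 X = X + leftMap (sie D.f x y) X := by
  have hh : D.f x ((2 : F)⁻¹ • y) = 0 := by simp [hxy]
  obtain ⟨k, hk⟩ := exists_acts (D := D) (A := 1 + sie D.f x ((2 : F)⁻¹ • y)) (B := 1)
    (one_add_sie_skew D.hf hx hh) (fun _ _ => rfl)
  have h22 : (2 : F)⁻¹ • y + (2 : F)⁻¹ • y = y := by
    rw [← add_smul, ← two_mul, mul_inv_cancel₀ D.hf.two, one_smul]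
  have hkk : Acts (k * k).1 (1 + sie D.f x y) 1 :=
    (hk.mul hk).congr (by rw [D.hf.sie_comp hx hh hh, h22]) (one_mul 1)
  refine ⟨k * k, h.sq_acts_mem hk, hkk, fun X => ?_⟩
  exact ext_colMap (φ := (k * k).1.toLinearMap) (ψ := 1 + leftMap (sie D.f x y)) (fun w p => by
    rw [LinearEquiv.coe_coe, hkk]; simp [leftMap_colMap]) X

lemma Ctx.good (h : Ctx D M) : D.Good M := by
  refine ⟨fun x y hx hxy => ?_, fun u y hu huy => ?_⟩
  · obtain ⟨m, hm, -, hX⟩ := h.left_mem hx hxy
    exact ⟨m, hm, hX⟩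
  · obtain ⟨m, hm, -, hX⟩ := h.right_mem hu huy
    exact ⟨m, hm, hX⟩

omit [Finite F] in
/-- Proportional pure tensors. -/
lemma col_eq_col {w w' : Fin 4 → F} {u u' : Fin 3 → F} (h : colMap w u = colMap w' u') (hu : u ≠ 0) :
    ∃ t : F, w = t • w' := by
  obtain ⟨i, hi⟩ := Function.ne_iff.1 hu
  refine ⟨u' i / u i, funext fun j => ?_⟩
  have := congrFun (congrFun h i) j
  simp only [colMap_apply, vecMulVec_apply] at this
  rw [Pi.smul_apply, smul_eq_mul, div_mul_eq_mul_div, eq_div_iff hi, ← this, mul_comm]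

omit [Finite F] in
lemma col_eq_col' {w w' : Fin 4 → F} {u u' : Fin 3 → F} (h : colMap w u = colMap w' u') (hw : w ≠ 0) :
    ∃ t : F, u = t • u' := by
  obtain ⟨j, hj⟩ := Function.ne_iff.1 hw
  refine ⟨w' j / w j, funext fun i => ?_⟩
  have := congrFun (congrFun h i) j
  simp only [colMap_apply, vecMulVec_apply] at this
  rw [Pi.smul_apply, smul_eq_mul, div_mul_eq_mul_div, eq_div_iff hj, this, mul_comm]

end Cfsg.Agent.MaxSub.OrthTwelve
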