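import Cfsg.Agent.MaxSub.OrthTwelve.Invol
import Cfsg.Agent.Invol.RankOneQuot

/-!
Centralisers of the involutions `(-r_u) ⊗ B` and `1 ⊗ B`, for `B` with two eigen-planes, preserve
the decomposition.
-/

set_option autoImplicit false
set_option linter.unusedSectionVars false

namespace Cfsg.Agent.MaxSub.OrthTwelve

open Module Matrix QuadraticMap Cfsg.Agent.MaxSub.TensorMax Cfsg.Agent.MaxSub.OrthTensor
open Cfsg.Agent.Classical

variable {F : Type*} [Field F] [Finite F] {D : TD F 3 4} {M : Subgroup (OQ D.Q)}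

/-- No two independent orthogonal singular vectors in three dimensions. -/
lemma no_pair_three {a b : Fin 3 → F} (hp : Pair₂ D.f a b) : False := by
  obtain ⟨a', b', hha, hhb, e1, e2, e3⟩ := D.hf.exists_companions hp
  have hli : LinearIndependent F ![a, a', b, b'] := by
    refine Fintype.linearIndependent_iff.2 fun k hk => ?_
    simp [Fin.sum_univ_four] at hk
    have f0 := congrArg (D.f a') hk
    have f1 := congrArg (D.f a) hk
    have f2 := congrArg (D.f b') hk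
    have f3 := congrArg (D.f b) hk
    simp [D.hf.symm a' a, hha.2.2, hha.2.1, e1, e3] at f0
    simp [hha.1, hha.2.2, hp.2.2.2.2, e2] at f1
    simp [D.hf.symm b' a, e2, D.hf.symm b' a', e3, D.hf.symm b' b, hhb.2.2, hhb.2.1] at f2
    simp [D.hf.symm b a, hp.2.2.2.2, D.hf.symm b a', e1, hhb.1, hhb.2.2] at f3
    intro i
    fin_cases i
    · exact f0
    · exact f1
    · exact f2
    · exact f3
  have := hli.fintype_card_le_finrank
  simp at this

/-- The planes of an involution: one anisotropic, the other with a singular vector. -/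
structure Planes (D : TD F 3 4) (B : Module.End F (Fin 4 → F)) (e : F) (a₁ a₂ b₁ b₂ : Fin 4 → F) :
    Prop where
  e1 : e = 1 ∨ e = -1
  Ba₁ : B a₁ = e • a₁
  Ba₂ : B a₂ = e • a₂
  Bb₁ : B b₁ = -e • b₁
  Bb₂ : B b₂ = -e • b₂
  na₁ : D.g a₁ a₁ ≠ 0
  na₂ : D.g a₂ a₂ ≠ 0
  nb₁ : D.g b₁ b₁ ≠ 0
  nb₂ : D.g b₂ b₂ ≠ 0
  oa : D.g a₁ a₂ = 0
  ob : D.g b₁ b₂ = 0
  o11 : D.g a₁ b₁ = 0
  o12 : D.g a₁ b₂ = 0
  o21 : D.g a₂ b₁ = 0
  o22 : D.g a₂ b₂ = 0
  aniso : ∀ s t : F, s * s * D.g a₁ a₁ + t * t * D.g a₂ a₂ = 0 → s = 0 ∧ t = 0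
  sing : ∃ p, p ≠ 0 ∧ D.g p p = 0 ∧ B p = -e • p

lemma nonsquare_mul {a b : F} (h2 : (2 : F) ≠ 0) (ha : ¬ IsSquare a) (hb : ¬ IsSquare b) :
    IsSquare (a * b) := by
  haveI := Fintype.ofFinite F
  classical
  have ha0 : a ≠ 0 := fun e => ha (e ▸ IsSquare.zero)
  have hb0 : b ≠ 0 := fun e => hb (e ▸ IsSquare.zero)
  have e1 := quadraticChar_neg_one_iff_not_isSquare.2 ha
  have e2 := quadraticChar_neg_one_iff_not_isSquare.2 hb
  refine (quadraticChar_one_iff_isSquare (mul_ne_zero ha0 hb0)).1 ?_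
  rw [map_mul, e1, e2]
  norm_num

lemma exists_planes (h : Ctx D M) {B : Module.End F (Fin 4 → F)} (hB : PlaneInvol D B) :
    ∃ e a₁ a₂ b₁ b₂, Planes D B e a₁ a₂ b₁ b₂ := by
  obtain ⟨p₁, p₂, n₁, n₂, B1, B2, B3, B4, q1, q2, r1, r2, op, on⟩ := hB.planes
  have h2 := D.hg.two
  have hcross : ∀ x y, B x = x → B y = -y → D.g x y = 0 := fun x y hx hy => by
    have h1 := hB.isom x y
    rw [hx, hy, map_neg] at h1
    have : (2 : F) * D.g x y = 0 := by linear_combination -h1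
    exact (mul_eq_zero.1 this).resolve_left h2
  have hsingP : (∃ s t : F, (s ≠ 0 ∨ t ≠ 0) ∧ s * s * D.g p₁ p₁ + t * t * D.g p₂ p₂ = 0) →
      ∃ p, p ≠ 0 ∧ D.g p p = 0 ∧ B p = p := by
    rintro ⟨s, t, hst, he⟩
    refine ⟨s • p₁ + t • p₂, fun h0 => ?_, ?_, by rw [map_add, map_smul, map_smul, B1, B2]⟩
    · have f1 := congrArg (D.g p₁) h0
      have f2 := congrArg (D.g p₂) h0
      simp [op, q1] at f1
      simp [D.hg.symm p₂ p₁, op, q2] at f2
      rcases hst with hs | hs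
      · exact hs f1
      · exact hs f2
    · simp [op, D.hg.symm p₂ p₁]
      linear_combination he
  have hsingN : (∃ s t : F, (s ≠ 0 ∨ t ≠ 0) ∧ s * s * D.g n₁ n₁ + t * t * D.g n₂ n₂ = 0) →
      ∃ p, p ≠ 0 ∧ D.g p p = 0 ∧ B p = -p := by
    rintro ⟨s, t, hst, he⟩
    refine ⟨s • n₁ + t • n₂, fun h0 => ?_, ?_, by
      rw [map_add, map_smul, map_smul, B3, B4]; simp only [smul_neg]; abel⟩
    · have f1 := congrArg (D.g n₁) h0
      have f2 := congrArg (D.g n₂) h0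
      simp [on, r1] at f1
      simp [D.hg.symm n₂ n₁, on, r2] at f2
      rcases hst with hs | hs
      · exact hs f1
      · exact hs f2
    · simp [on, D.hg.symm n₂ n₁]
      linear_combination he
  by_cases hP : ∃ s t : F, (s ≠ 0 ∨ t ≠ 0) ∧ s * s * D.g p₁ p₁ + t * t * D.g p₂ p₂ = 0
  · -- the negated plane is anisotropic
    obtain ⟨p, hp0, hp, hBp⟩ := hsingP hP
    refine ⟨-1, n₁, n₂, p₁, p₂, Or.inr rfl, by rw [B3, neg_one_smul], by rw [B4, neg_one_smul],
      by rw [B1, neg_neg, one_smul], by rw [B2, neg_neg, one_smul], r1, r2, q1, q2, on, op,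
      ?_, ?_, ?_, ?_, ?_, p, hp0, hp, by rw [hBp, neg_neg, one_smul]⟩
    · rw [D.hg.symm]; exact hcross _ _ B1 B3
    · rw [D.hg.symm]; exact hcross _ _ B2 B3
    · rw [D.hg.symm]; exact hcross _ _ B1 B4
    · rw [D.hg.symm]; exact hcross _ _ B2 B4
    · intro s t hst
      by_contra hne
      obtain ⟨q, hq0, hq, hBq⟩ := hsingN ⟨s, t, not_and_or.1 hne, hst⟩
      refine h.nopair p q ⟨hp0, fun hm => ?_, hp, hq, hcross p q hBp hBq⟩
      obtain ⟨c, hc⟩ := Submodule.mem_span_singleton.1 hm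
      have : q = -q := by
        conv_lhs => rw [← hc]
        rw [← hBq, ← hc, map_smul, hBp]
      have h0 : (2 : F) • q = 0 := by rw [two_smul]; nth_rw 1 [this]; exact neg_add_cancel q
      exact hq0 ((smul_eq_zero.1 h0).resolve_left h2)
  · push Not at hP
    refine ⟨1, p₁, p₂, n₁, n₂, Or.inl rfl, by rw [B1, one_smul], by rw [B2, one_smul],
      by rw [B3, neg_one_smul], by rw [B4, neg_one_smul], q1, q2, r1, r2, op, on,
      hcross _ _ B1 B3, hcross _ _ B1 B4, hcross _ _ B2 B3, hcross _ _ B2 B4, ?_, ?_⟩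
    · intro s t hst
      by_contra hne
      exact hP s t (not_and_or.1 hne) hst
    obtain ⟨q, hq0, hq, hBq⟩ : ∃ p, p ≠ 0 ∧ D.g p p = 0 ∧ B p = -p := by
      refine hsingN ?_
      by_contra hN
      push Not at hN
      -- both planes anisotropic: two orthogonal singular vectors
      obtain ⟨s, t, hst⟩ := OrthExt.exists_two_squares h2 r1 r2 (-D.g p₁ p₁)
      set x := s • n₁ + t • n₂ with hx
      set y := (-(t * D.g n₂ n₂)) • n₁ + (s * D.g n₁ n₁) • n₂ with hy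
      have hxx : D.g x x = -D.g p₁ p₁ := by
        simp [hx, on, D.hg.symm n₂ n₁]; linear_combination hst
      have hxy : D.g x y = 0 := by simp [hx, hy, on, D.hg.symm n₂ n₁]; ring
      have hyy : D.g y y = D.g n₁ n₁ * D.g n₂ n₂ * -D.g p₁ p₁ := by
        simp [hy, on, D.hg.symm n₂ n₁]
        linear_combination (D.g n₁ n₁ * D.g n₂ n₂) * hst
      have hP' : ¬ IsSquare (-(D.g p₁ p₁ * D.g p₂ p₂)) := fun ⟨r, hr⟩ =>
        hP r (D.g p₁ p₁) (Or.inr q1) (by linear_combination (-D.g p₁ p₁) * hr)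
      have hN' : ¬ IsSquare (-(D.g n₁ n₁ * D.g n₂ n₂)) := fun ⟨r, hr⟩ =>
        hN r (D.g n₁ n₁) (Or.inr r1) (by linear_combination (-D.g n₁ n₁) * hr)
      obtain ⟨r, hr⟩ := nonsquare_mul h2 hP' hN'
      set c := r / (D.g p₁ p₁ * (D.g n₁ n₁ * D.g n₂ n₂)) with hc
      have hcy : D.g p₂ p₂ + c * c * D.g y y = 0 := by
        rw [hc, hyy]
        field_simp
        linear_combination hr
      have Bx : B x = -x := by
        rw [hx, map_add, map_smul, map_smul, B3, B4]; simp only [smul_neg]; abel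
      have By : B y = -y := by
        rw [hy, map_add, map_smul, map_smul, B3, B4]; simp only [smul_neg]; abel
      have c11 : D.g p₁ x = 0 := hcross _ _ B1 Bx
      have c12 : D.g p₁ y = 0 := hcross _ _ B1 By
      have c21 : D.g p₂ x = 0 := hcross _ _ B2 Bx
      have c22 : D.g p₂ y = 0 := hcross _ _ B2 By
      refine h.nopair (p₁ + x) (p₂ + c • y) ⟨fun h0 => ?_, fun hm => ?_, ?_, ?_, ?_⟩
      · have := congrArg (D.g p₁) h0
        simp [c11, q1] at this
      · obtain ⟨k, hk⟩ := Submodule.mem_span_singleton.1 hm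
        have := congrArg (D.g p₂) hk
        rw [map_smul, map_add (D.g p₂) p₁ x, map_add (D.g p₂) p₂, map_smul, c21, c22, D.hg.symm p₂ p₁, op] at this
        simp at this
        exact q2 this.symm
      · simp [c11, D.hg.symm x p₁, hxx]
      · simp [c22, D.hg.symm y p₂]
        linear_combination hcy
      · simp [op, c12, D.hg.symm x p₂, c21, hxy]
    exact ⟨q, hq0, hq, by rw [hBq, neg_one_smul]⟩

namespace Planes

variable {B : Module.End F (Fin 4 → F)} {e : F} {a₁ a₂ b₁ b₂ : Fin 4 → F}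
  (hP : Planes D B e a₁ a₂ b₁ b₂)
include hP

lemma orth_family : (∀ i j : Fin 4, i ≠ j → D.g (![a₁, a₂, b₁, b₂] i) (![a₁, a₂, b₁, b₂] j) = 0) ∧
    ∀ i : Fin 4, D.g (![a₁, a₂, b₁, b₂] i) (![a₁, a₂, b₁, b₂] i) ≠ 0 := by
  refine ⟨fun i j hij => ?_, fun i => by fin_cases i <;> simp [hP.na₁, hP.na₂, hP.nb₁, hP.nb₂]⟩
  fin_cases i <;> fin_cases j <;> first
    | exact absurd rfl hij
    | simp [hP.oa, hP.ob, hP.o11, hP.o12, hP.o21, hP.o22, D.hg.symm a₂ a₁, D.hg.symm b₁ a₁,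
        D.hg.symm b₂ a₁, D.hg.symm b₁ a₂, D.hg.symm b₂ a₂, D.hg.symm b₂ b₁]

lemma e_ne : e ≠ -e := by
  intro h
  rcases hP.e1 with rfl | rfl <;> exact D.hg.two (by first | linear_combination h | linear_combination -h)

lemma ext_map {G : Type*} [AddCommGroup G] [Module F G] {A A' : (Fin 4 → F) →ₗ[F] G}
    (h1 : A a₁ = A' a₁) (h2 : A a₂ = A' a₂) (h3 : A b₁ = A' b₁) (h4 : A b₂ = A' b₂) : A = A' :=
  ext_orth (g := D.g) hP.orth_family.1 hP.orth_family.2 fun i => by fin_cases i <;> assumption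

lemma decomp (w : Fin 4 → F) : w = (D.g a₁ w / D.g a₁ a₁) • a₁ + (D.g a₂ w / D.g a₂ a₂) • a₂ +
    (D.g b₁ w / D.g b₁ b₁) • b₁ + (D.g b₂ w / D.g b₂ b₂) • b₂ := by
  refine (LinearMap.congr_fun (hP.ext_map (A := LinearMap.id)
    (A' := ((D.g a₁ a₁)⁻¹ • D.g a₁).smulRight a₁ + ((D.g a₂ a₂)⁻¹ • D.g a₂).smulRight a₂ +
      ((D.g b₁ b₁)⁻¹ • D.g b₁).smulRight b₁ + ((D.g b₂ b₂)⁻¹ • D.g b₂).smulRight b₂) ?_ ?_ ?_ ?_) w).trans ?_
  iterate 4
    simp [hP.oa, hP.ob, hP.o11, hP.o12, hP.o21, hP.o22, D.hg.symm a₂ a₁, D.hg.symm b₁ a₁,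
      D.hg.symm b₂ a₁, D.hg.symm b₁ a₂, D.hg.symm b₂ a₂, D.hg.symm b₂ b₁, hP.na₁, hP.na₂, hP.nb₁,
      hP.nb₂]
  simp [div_eq_inv_mul]

/-- Eigenvectors for `e` lie in the anisotropic plane. -/
lemma eigen_plane {w : Fin 4 → F} (hw : B w = e • w) :
    w = (D.g a₁ w / D.g a₁ a₁) • a₁ + (D.g a₂ w / D.g a₂ a₂) • a₂ := by
  have h := hP.decomp w
  have h' := congrArg B h
  rw [hw] at h'
  simp only [map_add, map_smul, hP.Ba₁, hP.Ba₂, hP.Bb₁, hP.Bb₂] at h'
  have e0 : e ≠ 0 := by rcases hP.e1 with r | r <;> simp [r]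
  have nA₁ := hP.na₁
  have nA₂ := hP.na₂
  have nB₁ := hP.nb₁
  have nB₂ := hP.nb₂
  have g1 := congrArg (D.g b₁) h'
  have g2 := congrArg (D.g b₂) h'
  simp [D.hg.symm b₁ a₁, hP.o11, D.hg.symm b₁ a₂, hP.o21, hP.ob, hP.nb₁] at g1
  simp [D.hg.symm b₂ a₁, hP.o12, D.hg.symm b₂ a₂, hP.o22, D.hg.symm b₂ b₁, hP.ob, hP.nb₂] at g2
  have z1 : D.g b₁ w = 0 := by
    have : (2 * e) * D.g b₁ w = 0 := by
      linear_combination (norm := (field_simp; ring)) g1
    exact (mul_eq_zero.1 this).resolve_left (mul_ne_zero D.hg.two e0)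
  have z2 : D.g b₂ w = 0 := by
    have : (2 * e) * D.g b₂ w = 0 := by
      linear_combination (norm := (field_simp; ring)) g2
    exact (mul_eq_zero.1 this).resolve_left (mul_ne_zero D.hg.two e0)
  conv_lhs => rw [h, z1, z2]
  simp

lemma eigen_singular {w : Fin 4 → F} (hw : B w = e • w) (h0 : D.g w w = 0) : w = 0 := by
  have hd := hP.eigen_plane hw
  rw [hd] at h0
  obtain ⟨s0, t0⟩ := hP.aniso (D.g a₁ w / D.g a₁ a₁) (D.g a₂ w / D.g a₂ a₂) (by
    simp [hP.oa, D.hg.symm a₂ a₁] at h0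
    linear_combination h0)
  rw [hd, s0, t0]; simp

lemma eigen_other {w : Fin 4 → F} (hw : B w = -e • w) :
    w = (D.g b₁ w / D.g b₁ b₁) • b₁ + (D.g b₂ w / D.g b₂ b₂) • b₂ := by
  have h := hP.decomp w
  have h' := congrArg B h
  rw [hw] at h'
  simp only [map_add, map_smul, hP.Ba₁, hP.Ba₂, hP.Bb₁, hP.Bb₂] at h'
  have e0 : e ≠ 0 := by rcases hP.e1 with r | r <;> simp [r]
  have nA₁ := hP.na₁
  have nA₂ := hP.na₂
  have nB₁ := hP.nb₁
  have nB₂ := hP.nb₂
  have g1 := congrArg (D.g a₁) h'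
  have g2 := congrArg (D.g a₂) h'
  simp [hP.oa, hP.o11, hP.o12, hP.na₁] at g1
  simp [D.hg.symm a₂ a₁, hP.oa, hP.o21, hP.o22, hP.na₂] at g2
  have z1 : D.g a₁ w = 0 := by
    have : (2 * e) * D.g a₁ w = 0 := by
      linear_combination (norm := (field_simp; ring)) -g1
    exact (mul_eq_zero.1 this).resolve_left (mul_ne_zero D.hg.two e0)
  have z2 : D.g a₂ w = 0 := by
    have : (2 * e) * D.g a₂ w = 0 := by
      linear_combination (norm := (field_simp; ring)) -g2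
    exact (mul_eq_zero.1 this).resolve_left (mul_ne_zero D.hg.two e0)
  conv_lhs => rw [h, z1, z2]
  simp

end Planes

/-- Fixed vectors of `(-r_u) ⊗ 1`. -/
lemma fixed_sig {u : Fin 3 → F} {s : OQ D.Q} (hs : Acts s.1 (sigA D u) 1)
    {X : Matrix (Fin 3) (Fin 4) F} (hX : s.1 X = X) : ∃ w, X = colMap w u := by
  refine ⟨fun j => D.f u (fun i => X i j) / D.f u u, Matrix.ext fun i j => ?_⟩
  have h1 : leftMap (sigA D u) X = X := by
    conv_rhs => rw [← hX, hs.apply]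
    congr 1
    exact (ext_colMap (φ := rightMap (1 : Module.End F (Fin 4 → F))) (ψ := LinearMap.id)
      (fun w p => by rw [rightMap_colMap]; rfl) X).symm
  have h2 : sigA D u (fun i => X i j) = fun i => X i j := by
    funext k
    have := congrFun (congrFun h1 k) j
    rw [← this, ← LinearMap.toMatrix'_mulVec]
    rfl
  rw [sigA_apply] at h2
  have := congrFun h2 i
  simp at this
  rw [colMap_apply, vecMulVec_apply]
  refine mul_left_cancel₀ D.hg.two ?_
  rw [show (2 : F) * (u i * (D.f u (fun i => X i j) / D.f u u)) =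
    2 * D.f u (fun i => X i j) / D.f u u * u i by ring]
  linear_combination -this

lemma sig_col {u : Fin 3 → F} (hu : D.f u u ≠ 0) {s : OQ D.Q} (hs : Acts s.1 (sigA D u) 1)
    (w : Fin 4 → F) : s.1 (colMap w u) = colMap w u := by
  rw [hs, sigA_self hu]; rfl

section Main

variable (h : Ctx D M) (hno : NoRoot M)
include h hno

/-- Members conjugating one `(-r_u) ⊗ 1` to another preserve the decomposition. -/
theorem tens_of_conj {u t : Fin 3 → F} (hu : D.f u u ≠ 0) (ht : D.f t t ≠ 0) {s x g : OQ D.Q}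
    (hs : Acts s.1 (sigA D u) 1) (hx : Acts x.1 (sigA D t) 1) (hg : g ∈ M)
    (he : g * s * g⁻¹ = x) : Tens g.1 := by
  refine tens_of_map h hno hu ht hg fun w => fixed_sig hx ?_
  rw [← he]
  show g.1 (s.1 (g⁻¹.1 (g.1 (colMap w u)))) = _
  rw [show g⁻¹.1 (g.1 (colMap w u)) = colMap w u from g.1.symm_apply_apply _, sig_col hu hs]

/-- Members commuting with one `(-r_u) ⊗ 1` preserve the decomposition. -/
theorem tens_of_comm {u : Fin 3 → F} (hu : D.f u u ≠ 0) {s g : OQ D.Q}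
    (hs : Acts s.1 (sigA D u) 1) (hg : g ∈ M) (he : Commute g s) : Tens g.1 :=
  tens_of_conj h hno hu hu hs hs hg (by rw [he.eq, mul_inv_cancel_right])

/-- An odd group normalised by the four-group of a frame preserves the decomposition. -/
theorem odd_tens {u u' u'' : Fin 3 → F} (hU : UFrame D u u' u'') {s₀ s₁ s₂ : OQ D.Q}
    (h₀ : Acts s₀.1 (sigA D u) 1) (h₁ : Acts s₁.1 (sigA D u') 1) (h₂ : Acts s₂.1 (sigA D u'') 1)
    {O : Subgroup (OQ D.Q)} (hO : O ≤ M) (hodd : ¬ 2 ∣ Nat.card O)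
    (n₀ : ∀ x ∈ O, s₀ * x * s₀⁻¹ ∈ O) (n₁ : ∀ x ∈ O, s₁ * x * s₁⁻¹ ∈ O) : O ≤ tensGroup D := by
  classical
  have prod : sigA D u * sigA D u' = sigA D u'' := hU.ext_map
    (by simp [Module.End.mul_apply, sigA_perp hU.h10, map_neg, sigA_self hU.n0, sigA_perp hU.h20])
    (by simp [Module.End.mul_apply, sigA_self hU.n1, sigA_perp hU.h01, sigA_perp hU.h21])
    (by simp [Module.End.mul_apply, sigA_perp hU.h02, sigA_perp hU.h12, sigA_self hU.n2])
  have e01 : s₀ * s₁ = s₂ := Acts.ext ((h₀.mul h₁).congr prod (one_mul 1)) h₂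
  have e00 : s₀ * s₀ = 1 := Acts.ext ((h₀.mul h₀).congr (sigA_sq hU.n0) (one_mul 1)) acts_one
  have e11 : s₁ * s₁ = 1 := Acts.ext ((h₁.mul h₁).congr (sigA_sq hU.n1) (one_mul 1)) acts_one
  have e22 : s₂ * s₂ = 1 := Acts.ext ((h₂.mul h₂).congr (sigA_sq hU.n2) (one_mul 1)) acts_one
  have i0 : s₀⁻¹ = s₀ := inv_eq_of_mul_eq_one_left e00
  have i1 : s₁⁻¹ = s₁ := inv_eq_of_mul_eq_one_left e11
  have i2 : s₂⁻¹ = s₂ := inv_eq_of_mul_eq_one_left e22
  have e10 : s₁ * s₀ = s₂ := by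
    have : (s₀ * s₁)⁻¹ = s₁ * s₀ := by rw [_root_.mul_inv_rev, i0, i1]
    rw [← this, e01, i2]
  have e02 : s₀ * s₂ = s₁ := by rw [← e01, ← mul_assoc, e00, one_mul]
  have e20 : s₂ * s₀ = s₁ := by rw [← e10, mul_assoc, e00, mul_one]
  have e12 : s₁ * s₂ = s₀ := by rw [← e10, ← mul_assoc, e11, one_mul]
  have e21 : s₂ * s₁ = s₀ := by rw [← e01, mul_assoc, e11, mul_one]
  let A : Subgroup (OQ D.Q) :=
    { carrier := {1, s₀, s₁, s₂}
      one_mem' := Or.inl rfl
      mul_mem' := by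
        intro x y hx hy
        simp only [Set.mem_insert_iff, Set.mem_singleton_iff] at hx hy ⊢
        rcases hx with rfl | rfl | rfl | rfl <;> rcases hy with rfl | rfl | rfl | rfl <;>
          simp [e00, e11, e22, e01, e10, e02, e20, e12, e21]
      inv_mem' := by
        intro x hx
        rcases hx with rfl | rfl | rfl | rfl <;> simp [i0, i1, i2] }
  have hmem : ∀ a ∈ A, a = 1 ∨ a = s₀ ∨ a = s₁ ∨ a = s₂ := fun a ha => by
    exact (Set.mem_insert_iff.1 ha).imp id fun h => (Set.mem_insert_iff.1 h).imp id fun h => Set.mem_insert_iff.1 h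
  haveI : IsMulCommutative A := ⟨⟨fun a b => Subtype.ext (by
    rcases hmem a a.2 with e | e | e | e <;> rcases hmem b b.2 with e' | e' | e' | e' <;>
      simp [e, e', e01, e10, e02, e20, e12, e21])⟩⟩
  have hsq : ∀ a ∈ A, a * a = 1 := fun a ha => by
    rcases hmem a ha with e | e | e | e <;> simp [e, e00, e11, e22]
  have hz : (Fin 4 → F) := 0
  obtain ⟨w, hw⟩ : ∃ w : Fin 4 → F, w ≠ 0 := exists_ne 0
  have hne : ∀ {t : Fin 3 → F} {p : Fin 3 → F} {s : OQ D.Q}, Acts s.1 (sigA D t) 1 →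
      D.f t p = 0 → p ≠ 0 → s ≠ 1 := fun {t p s} hs hp hp0 e => by
    subst e
    have := (hs w p).symm.trans (acts_one w p)
    rw [sigA_perp hp, map_neg, Module.End.one_apply, Module.End.one_apply, neg_eq_iff_add_eq_zero,
      ← two_smul F, smul_eq_zero] at this
    exact col_ne_zero hw hp0 (this.resolve_left D.hg.two)
  have hu'0 : u' ≠ 0 := fun e => hU.n1 (by simp [e])
  have hu0 : u ≠ 0 := fun e => hU.n0 (by simp [e])
  have hu''0 : u'' ≠ 0 := fun e => hU.n2 (by simp [e])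
  have s0ne : s₀ ≠ 1 := hne h₀ hU.h01 hu'0
  have s1ne : s₁ ≠ 1 := hne h₁ hU.h10 hu0
  have s2ne : s₂ ≠ 1 := hne h₂ hU.h20 hu0
  have s01 : s₀ ≠ s₁ := fun e => s2ne (by rw [← e01, e, e11])
  have hnc : ¬ IsCyclic A := by
    intro hc
    obtain ⟨g, hg⟩ := IsCyclic.exists_generator (α := A)
    have hg2 : g * g = 1 := Subtype.ext (hsq g g.2)
    have key : ∀ a : A, a = 1 ∨ a = g := fun a => by
      obtain ⟨n, hn⟩ := hg a
      simp only at hn
      rw [← hn, ← Int.emod_add_mul_ediv n 2, _root_.zpow_add, _root_.zpow_mul, zpow_two, hg2, _root_.one_zpow, mul_one]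
      rcases Int.emod_two_eq_zero_or_one n with e | e <;> simp [e]
    have m0 : s₀ ∈ A := Or.inr (Or.inl rfl)
    have m1 : s₁ ∈ A := Or.inr (Or.inr (Or.inl rfl))
    rcases key ⟨s₀, m0⟩ with e | e
    · exact s0ne (congrArg Subtype.val e)
    rcases key ⟨s₁, m1⟩ with e' | e'
    · exact s1ne (congrArg Subtype.val e')
    · exact s01 (congrArg Subtype.val (e.trans e'.symm))
  have hn2 : ∀ x ∈ O, s₂ * x * s₂⁻¹ ∈ O := fun x hx => by
    rw [← e01, show s₀ * s₁ * x * (s₀ * s₁)⁻¹ = s₀ * (s₁ * x * s₁⁻¹) * s₀⁻¹ by group]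
    exact n₀ _ (n₁ x hx)
  have hnorm : A ≤ Subgroup.normalizer (O : Set (OQ D.Q)) := by
    intro a ha
    have key : ∀ x ∈ O, a * x * a⁻¹ ∈ O := fun x hx => by
      rcases hmem a ha with e | e | e | e <;> subst e
      · simpa using hx
      · exact n₀ x hx
      · exact n₁ x hx
      · exact hn2 x hx
    refine Subgroup.mem_normalizer_iff.2 fun x => ⟨key x, fun hx => ?_⟩
    have h3 := key _ hx
    rwa [show a * (a * x * a⁻¹) * a⁻¹ = (a * a) * x * (a * a)⁻¹ by group, hsq a ha, inv_one, one_mul,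
      mul_one] at h3
  have hcop : (Nat.card A).Coprime (Nat.card O) := by
    haveI : Fact (Nat.Prime 2) := ⟨Nat.prime_two⟩
    have hA : IsPGroup 2 A := fun a => ⟨1, Subtype.ext (by
      rw [pow_one, Subgroup.coe_pow, pow_two, hsq a a.2, Subgroup.coe_one])⟩
    obtain ⟨n, hn⟩ := IsPGroup.iff_card.1 hA
    rw [hn]
    exact Nat.Coprime.pow_left _ (Nat.prime_two.coprime_iff_not_dvd.2 hodd)
  rw [← Coprime.iSup_centralizer_eq hnc hnorm hcop]
  refine iSup₂_le fun a ha x hx => ?_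
  have hxc : Commute x a := (Subgroup.mem_centralizer_iff.1 hx.2 a rfl).symm
  rw [mem_tensGroup]
  rcases hmem a ha.1 with e | e | e | e
  · exact absurd e ha.2
  · exact tens_of_comm h hno hU.n0 h₀ (hO hx.1) (e ▸ hxc)
  · exact tens_of_comm h hno hU.n1 h₁ (hO hx.1) (e ▸ hxc)
  · exact tens_of_comm h hno hU.n2 h₂ (hO hx.1) (e ▸ hxc)

/-- The odd core of a subgroup of `M` normalised by the four-group of a frame. -/
theorem core_tens {u u' u'' : Fin 3 → F} (hU : UFrame D u u' u'') {s₀ s₁ s₂ : OQ D.Q}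
    (h₀ : Acts s₀.1 (sigA D u) 1) (h₁ : Acts s₁.1 (sigA D u') 1) (h₂ : Acts s₂.1 (sigA D u'') 1)
    {J : Subgroup (OQ D.Q)} (hJ : J ≤ M) (n₀ : s₀ ∈ Subgroup.normalizer (J : Set (OQ D.Q)))
    (n₁ : s₁ ∈ Subgroup.normalizer (J : Set (OQ D.Q))) :
    (pPrimeCore 2 J).map J.subtype ≤ tensGroup D ∧
      ¬ 2 ∣ Nat.card ((pPrimeCore 2 J).map J.subtype) := by
  haveI : Fact (Nat.Prime 2) := ⟨Nat.prime_two⟩
  have hodd : ¬ 2 ∣ Nat.card ((pPrimeCore 2 J).map J.subtype) := by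
    rw [Subgroup.card_map_of_injective (Subgroup.subtype_injective _)]
    exact Cores.not_dvd_card_pPrimeCore
  have hn := Coprime.normalizer_le_normalizer_map_characteristic J (pPrimeCore 2 J)
  refine ⟨odd_tens h hno hU h₀ h₁ h₂ ((Subgroup.map_subtype_le _).trans hJ) hodd
    (fun x hx => (Subgroup.mem_normalizer_iff.1 (hn n₀) x).1 hx)
    (fun x hx => (Subgroup.mem_normalizer_iff.1 (hn n₁) x).1 hx), hodd⟩

/-- The centraliser of `(-r_u) ⊗ B`. -/
theorem tens_of_comm_splane {u : Fin 3 → F} (hu : D.f u u ≠ 0) {B : Module.End F (Fin 4 → F)}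
    (hB : PlaneInvol D B) {v g : OQ D.Q} (hv : Acts v.1 (sigA D u) B) (hg : g ∈ M)
    (hgv : Commute g v) : Tens g.1 := by
  classical
  obtain ⟨e, a₁, a₂, b₁, b₂, hP⟩ := exists_planes h hB
  obtain ⟨u', u'', hU⟩ := exists_uframe hu
  obtain ⟨s₀, hs₀M, hs₀⟩ := sig_mem h hU.n0
  obtain ⟨s₁, hs₁M, hs₁⟩ := sig_mem h hU.n1
  obtain ⟨s₂, hs₂M, hs₂⟩ := sig_mem h hU.n2
  let C : Subgroup (OQ D.Q) := M ⊓ Subgroup.centralizer {v}
  have hC : ∀ {x}, x ∈ C ↔ x ∈ M ∧ Commute x v := fun {x} => by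
    simp only [C, Subgroup.mem_inf, Subgroup.mem_centralizer_iff, Set.mem_singleton_iff, forall_eq]
    exact and_congr_right fun _ => ⟨fun h => h.symm, fun h => h.symm⟩
  have hvA : Commute (sigA D u') (sigA D u) := hU.ext_map
    (by simp [Module.End.mul_apply, sigA_perp hU.h10, sigA_self hU.n0, map_neg])
    (by simp [Module.End.mul_apply, sigA_self hU.n1, sigA_perp hU.h01, map_neg])
    (by simp [Module.End.mul_apply, sigA_perp hU.h02, sigA_perp hU.h12, map_neg])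
  have hs₀C : s₀ ∈ C := hC.2 ⟨hs₀M, Acts.ext ((hs₀.mul hv).congr rfl (one_mul B))
    ((hv.mul hs₀).congr rfl (mul_one B))⟩
  have hs₁C : s₁ ∈ C := hC.2 ⟨hs₁M, Acts.ext ((hs₁.mul hv).congr hvA.eq (one_mul B))
    ((hv.mul hs₁).congr rfl (mul_one B))⟩
  have hs00 : s₀ * s₀ = 1 := Acts.ext ((hs₀.mul hs₀).congr (sigA_sq hU.n0) (one_mul 1)) acts_one
  have hs0ne : s₀ ≠ 1 := fun e => by
    have h1 := hs₀ a₁ u'
    rw [e, sigA_perp hU.h01, map_neg] at h1
    have h2 : (2 : F) • colMap a₁ u' = (0 : Matrix (Fin 3) (Fin 4) F) := by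
      rw [two_smul]; nth_rw 1 [show colMap a₁ u' = -colMap a₁ u' from h1]; exact neg_add_cancel _
    exact col_ne_zero (fun e => hP.na₁ (by simp [e])) (fun e => hU.n1 (by simp [e]))
      ((smul_eq_zero.1 h2).resolve_left D.hg.two)
  -- `(-r_u) ⊗ 1` is isolated in the centraliser
  have hiso : Invol.IsIsolatedInv (⟨s₀, hs₀C⟩ : C) := by
    refine ⟨orderOf_eq_prime (by ext1; rw [Subgroup.coe_pow, pow_two, hs00, Subgroup.coe_one])
      (fun e => hs0ne (congrArg Subtype.val e)), fun k hk => ?_⟩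
    obtain ⟨x, hxC⟩ : ∃ x, x = (k : OQ D.Q) * s₀ * (k : OQ D.Q)⁻¹ := ⟨_, rfl⟩
    have hxs : Commute x s₀ := by
      rw [hxC]; exact congrArg Subtype.val hk.eq
    have hkM : (k : OQ D.Q) ∈ M := (hC.1 k.2).1
    have hkv : Commute (k : OQ D.Q) v := (hC.1 k.2).2
    have hxM : x ∈ M := hxC ▸ mul_mem (mul_mem hkM hs₀M) (inv_mem hkM)
    obtain ⟨t, ht, hxt⟩ := sig_of_conj h hu hs₀ hxC hxM (tens_of_comm h hno hu hs₀ hxM hxs)
    have hfix : s₀.1 (x.1 (colMap a₁ u)) = x.1 (colMap a₁ u) := by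
      have := congrArg (fun g : OQ D.Q => g.1 (colMap a₁ u)) hxs.eq
      simp only [Subgroup.coe_mul, LinearEquiv.mul_apply, sig_col hu hs₀] at this
      exact this.symm
    obtain ⟨w, hw⟩ := fixed_sig hs₀ hfix
    rw [hxt, Module.End.one_apply] at hw
    obtain ⟨c, hc⟩ := col_eq_col' hw (fun e => hP.na₁ (by simp [e]))
    rw [sigA_apply] at hc
    by_cases htu : D.f t u = 0
    · exfalso
      obtain ⟨p, hp0, hpp, hBp⟩ := hP.sing
      have hfix2 : x.1 ((k : OQ D.Q).1 (colMap p u)) = (k : OQ D.Q).1 (colMap p u) := by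
        rw [hxC]
        show (k : OQ D.Q).1 (s₀.1 ((k : OQ D.Q)⁻¹.1 ((k : OQ D.Q).1 (colMap p u)))) = _
        rw [show (k : OQ D.Q)⁻¹.1 ((k : OQ D.Q).1 (colMap p u)) = colMap p u from
          (k : OQ D.Q).1.symm_apply_apply _, sig_col hu hs₀]
      obtain ⟨p', hp'⟩ := fixed_sig hxt hfix2
      have hBp' : B p' = e • p' := by
        have h1 := congrArg (fun g : OQ D.Q => g.1 (colMap p u)) hkv.eq
        simp only [Subgroup.coe_mul, LinearEquiv.mul_apply] at h1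
        rw [hv p u, sigA_self hu, hBp, colMap_smul_right, map_smul, hp', hv p' t,
          sigA_perp (by rw [D.hf.symm]; exact htu), map_neg] at h1
        have h2 : colMap (B p') t = colMap (e • p') t := by
          rw [colMap_smul_right, ← neg_inj, ← h1, neg_smul]
        obtain ⟨i, hi⟩ := Function.ne_iff.1 (show t ≠ 0 from fun e => ht (by simp [e]))
        funext j
        exact mul_left_cancel₀ hi (congrFun (congrFun h2 i) j)
      have hp'0 : D.g p' p' = 0 := by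
        have := OQ_polar (k : OQ D.Q) (colMap p u) (colMap p u)
        rw [hp', TD.polar_col_col, TD.polar_col_col, hpp, mul_zero] at this
        exact (mul_eq_zero.1 this).resolve_left ht
      have := hP.eigen_singular hBp' hp'0
      rw [this, col_zero, LinearEquiv.map_eq_zero_iff] at hp'
      exact col_ne_zero hp0 (fun e => hu (by simp [e])) hp'
    · have hs' : ∃ r : F, r ≠ 0 ∧ t = r • u := by
        set α := 2 * D.f t u / D.f t t with hα
        have hα0 : α ≠ 0 := div_ne_zero (mul_ne_zero D.hg.two htu) ht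
        refine ⟨α⁻¹ * (c + 1), fun e => ?_, ?_⟩
        · refine ht ?_
          have : t = (α⁻¹ * (c + 1)) • u := by
            rw [mul_smul, add_smul, one_smul, ← hc, sub_add_cancel, inv_smul_smul₀ hα0]
          rw [this, e]; simp
        · rw [mul_smul, add_smul, one_smul, ← hc, sub_add_cancel, inv_smul_smul₀ hα0]
      obtain ⟨r, hr, rfl⟩ := hs'
      refine Subtype.ext ?_
      show (k : OQ D.Q) * s₀ * (k : OQ D.Q)⁻¹ = s₀
      rw [← hxC]
      exact Acts.ext (hxt.congr (sigA_smul hr) rfl) hs₀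
  haveI : Finite C := Subtype.finite
  have hgC : g ∈ C := hC.2 ⟨hg, hgv⟩
  have hcomm := Invol.zStar_theorem C ⟨s₀, hs₀C⟩ hiso ⟨g, hgC⟩
  obtain ⟨hO, -⟩ := core_tens h hno hU hs₀ hs₁ hs₂ (J := C) inf_le_left
    (Subgroup.le_normalizer hs₀C) (Subgroup.le_normalizer hs₁C)
  have ho := hO (Subgroup.mem_map_of_mem C.subtype hcomm)
  simp only [Subgroup.coe_subtype, commutatorElement_def, Subgroup.coe_mul, Subgroup.coe_inv] at ho
  have hi0 : s₀⁻¹ = s₀ := inv_eq_of_mul_eq_one_left hs00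
  have hT : Tens (g * s₀ * g⁻¹).1 := by
    have e1 : g * s₀ * g⁻¹ = s₀ * (s₀ * g * s₀⁻¹ * g⁻¹) := by
      rw [hi0, ← mul_assoc, ← mul_assoc, ← mul_assoc, hs00, one_mul]
    rw [e1]
    exact tens_mul (tens_iff.2 ⟨_, _, hs₀⟩) ho
  obtain ⟨t, ht, hxt⟩ := sig_of_conj h hu hs₀ rfl (mul_mem (mul_mem hg hs₀M) (inv_mem hg)) hT
  exact tens_of_conj h hno hu ht hs₀ hxt hg rfl

end Main

end Cfsg.Agent.MaxSub.OrthTwelve
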