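import Cfsg.Agent.MaxSub.OrthTwelve.Basic

/-!
Orthogonal frames of the two factors and the involutions `(-r_t) ⊗ 1`.
-/

set_option autoImplicit false
set_option linter.unusedSectionVars false

namespace Cfsg.Agent.MaxSub.OrthTwelve

open Module Matrix QuadraticMap Cfsg.Agent.MaxSub.TensorMax Cfsg.Agent.MaxSub.OrthTensor
open Cfsg.Agent.Classical

variable {F : Type*} [Field F]

/-- An orthogonal frame of the three-dimensional factor. -/
structure UFrame (D : TD F 3 4) (u u' u'' : Fin 3 → F) : Prop where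
  n0 : D.f u u ≠ 0
  n1 : D.f u' u' ≠ 0
  n2 : D.f u'' u'' ≠ 0
  h01 : D.f u u' = 0
  h02 : D.f u u'' = 0
  h12 : D.f u' u'' = 0

/-- A frame of the four-dimensional factor: a hyperbolic pair and an anisotropic plane. -/
structure WFrame (D : TD F 3 4) (v v' z₁ z₂ : Fin 4 → F) : Prop where
  hyp : Hyp D.g v v'
  v1 : D.g v z₁ = 0
  v2 : D.g v z₂ = 0
  w1 : D.g v' z₁ = 0
  w2 : D.g v' z₂ = 0
  z12 : D.g z₁ z₂ = 0
  a1 : D.g z₁ z₁ ≠ 0
  a2 : D.g z₂ z₂ ≠ 0
  aniso : ∀ s t : F, s * s * D.g z₁ z₁ + t * t * D.g z₂ z₂ = 0 → s = 0 ∧ t = 0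

variable {D : TD F 3 4}

/-- `2 P_t - 1`. -/
def sigA (D : TD F 3 4) (t : Fin 3 → F) : Module.End F (Fin 3 → F) :=
  (2 / D.f t t) • (D.f t).smulRight t - 1

lemma sigA_apply (t p : Fin 3 → F) : sigA D t p = (2 * D.f t p / D.f t t) • t - p := by
  rw [sigA, LinearMap.sub_apply, LinearMap.smul_apply, LinearMap.smulRight_apply, smul_smul,
    Module.End.one_apply, div_mul_eq_mul_div]

lemma sigA_self {t : Fin 3 → F} (ht : D.f t t ≠ 0) : sigA D t t = t := by
  rw [sigA_apply, mul_div_assoc, div_self ht, mul_one, two_smul, add_sub_cancel_right]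

lemma sigA_perp {t p : Fin 3 → F} (h : D.f t p = 0) : sigA D t p = -p := by
  rw [sigA_apply, h, mul_zero, zero_div, zero_smul, zero_sub]

lemma sigA_isom {t : Fin 3 → F} (ht : D.f t t ≠ 0) (p q : Fin 3 → F) :
    D.f (sigA D t p) (sigA D t q) = D.f p q := by
  simp only [sigA_apply, map_sub, map_smul, LinearMap.sub_apply, LinearMap.smul_apply, smul_eq_mul,
    D.hf.symm p t]
  field_simp
  ring

lemma sigA_sq {t : Fin 3 → F} (ht : D.f t t ≠ 0) : sigA D t * sigA D t = 1 :=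
  LinearMap.ext fun p => by
    simp only [Module.End.mul_apply, Module.End.one_apply, sigA_apply, map_sub, map_smul,
      smul_eq_mul]
    match_scalars <;> field_simp <;> ring

lemma sigA_smul {t : Fin 3 → F} {k : F} (hk : k ≠ 0) : sigA D (k • t) = sigA D t :=
  LinearMap.ext fun p => by
    simp only [sigA_apply, map_smul, LinearMap.smul_apply, smul_eq_mul, smul_smul]
    congr 2
    rcases eq_or_ne (D.f t t) 0 with h0 | h0
    · simp [h0]
    · field_simp

namespace UFrame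

variable {u u' u'' : Fin 3 → F} (h : UFrame D u u' u'')
include h

lemma h10 : D.f u' u = 0 := D.hf.perp_symm h.h01
lemma h20 : D.f u'' u = 0 := D.hf.perp_symm h.h02
lemma h21 : D.f u'' u' = 0 := D.hf.perp_symm h.h12

lemma swap : UFrame D u' u'' u :=
  ⟨h.n1, h.n2, h.n0, h.h12, h.h10, h.h20⟩

lemma span_eq_top : Submodule.span F (Set.range ![u, u', u'']) = ⊤ := by
  refine Submodule.eq_top_of_finrank_eq ?_
  rw [finrank_span_eq_card, Fintype.card_fin, finrank_fin_fun]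
  refine Fintype.linearIndependent_iff.2 fun c hc => ?_
  simp [Fin.sum_univ_three] at hc
  have e0 := congrArg (D.f u) hc
  have e1 := congrArg (D.f u') hc
  have e2 := congrArg (D.f u'') hc
  simp [h.h01, h.h02, h.n0] at e0
  simp [h.h10, h.h12, h.n1] at e1
  simp [h.h20, h.h21, h.n2] at e2
  intro i
  fin_cases i
  · exact e0
  · exact e1
  · exact e2

lemma decomp (p : Fin 3 → F) : p = (D.f u p / D.f u u) • u + (D.f u' p / D.f u' u') • u' +
    (D.f u'' p / D.f u'' u'') • u'' := by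
  obtain ⟨c, rfl⟩ := (Submodule.mem_span_range_iff_exists_fun F).1
    (show p ∈ Submodule.span F (Set.range ![u, u', u'']) from h.span_eq_top ▸ Submodule.mem_top)
  simp [Fin.sum_univ_three, h.h01, h.h02, h.h10, h.h12, h.h20, h.h21, h.n0, h.n1, h.n2]

lemma ext_map {G : Type*} [AddCommGroup G] [Module F G] {A B : (Fin 3 → F) →ₗ[F] G}
    (e0 : A u = B u) (e1 : A u' = B u') (e2 : A u'' = B u'') : A = B :=
  LinearMap.ext fun p => by rw [h.decomp p]; simp [e0, e1, e2]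

end UFrame

namespace WFrame

variable {v v' z₁ z₂ : Fin 4 → F} (h : WFrame D v v' z₁ z₂)
include h

lemma v'v : D.g v' v = 1 := by rw [D.hg.symm, h.hyp.2.2]
lemma u1 : D.g z₁ v = 0 := D.hg.perp_symm h.v1
lemma u2 : D.g z₂ v = 0 := D.hg.perp_symm h.v2
lemma x1 : D.g z₁ v' = 0 := D.hg.perp_symm h.w1
lemma x2 : D.g z₂ v' = 0 := D.hg.perp_symm h.w2
lemma z21 : D.g z₂ z₁ = 0 := D.hg.perp_symm h.z12

lemma swap : WFrame D v' v z₁ z₂ :=
  ⟨D.hg.hyp_symm h.hyp, h.w1, h.w2, h.v1, h.v2, h.z12, h.a1, h.a2, h.aniso⟩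

lemma v_ne : v ≠ 0 := fun h0 => by have := h.hyp.2.2; simp [h0] at this
lemma v'_ne : v' ≠ 0 := h.swap.v_ne

lemma span_eq_top : Submodule.span F (Set.range ![v, v', z₁, z₂]) = ⊤ := by
  refine Submodule.eq_top_of_finrank_eq ?_
  rw [finrank_span_eq_card, Fintype.card_fin, finrank_fin_fun]
  refine Fintype.linearIndependent_iff.2 fun c hc => ?_
  simp [Fin.sum_univ_four] at hc
  have e0 := congrArg (D.g v') hc
  have e1 := congrArg (D.g v) hc
  have e2 := congrArg (D.g z₁) hc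
  have e3 := congrArg (D.g z₂) hc
  simp [h.v'v, h.hyp.2.1, h.w1, h.w2] at e0
  simp [h.hyp.1, h.hyp.2.2, h.v1, h.v2] at e1
  simp [h.u1, h.x1, h.z12, h.a1] at e2
  simp [h.u2, h.x2, h.z21, h.a2] at e3
  intro i
  fin_cases i
  · exact e0
  · exact e1
  · exact e2
  · exact e3

lemma decomp (p : Fin 4 → F) : p = D.g v' p • v + D.g v p • v' +
    (D.g z₁ p / D.g z₁ z₁) • z₁ + (D.g z₂ p / D.g z₂ z₂) • z₂ := by
  obtain ⟨c, rfl⟩ := (Submodule.mem_span_range_iff_exists_fun F).1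
    (show p ∈ Submodule.span F (Set.range ![v, v', z₁, z₂]) from h.span_eq_top ▸ Submodule.mem_top)
  simp [Fin.sum_univ_four, h.v'v, h.hyp.1, h.hyp.2.1, h.hyp.2.2, h.w1, h.w2, h.v1, h.v2, h.u1, h.u2,
    h.x1, h.x2, h.z12, h.z21, h.a1, h.a2]

lemma ext_map {G : Type*} [AddCommGroup G] [Module F G] {A B : (Fin 4 → F) →ₗ[F] G}
    (e0 : A v = B v) (e1 : A v' = B v') (e2 : A z₁ = B z₁) (e3 : A z₂ = B z₂) : A = B :=
  LinearMap.ext fun p => by rw [h.decomp p]; simp [e0, e1, e2, e3]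

lemma decompX (X : Matrix (Fin 3) (Fin 4) F) : X = colMap v (D.row v' X) + colMap v' (D.row v X) +
    colMap z₁ ((D.g z₁ z₁)⁻¹ • D.row z₁ X) + colMap z₂ ((D.g z₂ z₂)⁻¹ • D.row z₂ X) :=
  ext_colMap (φ := LinearMap.id)
    (ψ := colMap v ∘ₗ D.row v' + colMap v' ∘ₗ D.row v +
      colMap z₁ ∘ₗ ((D.g z₁ z₁)⁻¹ • D.row z₁) + colMap z₂ ∘ₗ ((D.g z₂ z₂)⁻¹ • D.row z₂)) (fun w p => by
    conv_lhs => rw [LinearMap.id_apply, h.decomp w]
    simp only [TD.col_add, LinearMap.add_apply, LinearMap.comp_apply, LinearMap.smul_apply,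
      TD.row_col, map_smul, smul_smul, colMap_smul_right, D.hg.symm w]
    simp only [div_eq_inv_mul]) X

end WFrame

variable {M : Subgroup (OQ D.Q)} [Finite F]

/-- An anisotropic vector orthogonal to a given anisotropic vector. -/
lemma exists_uframe {u : Fin 3 → F} (hu : D.f u u ≠ 0) : ∃ u' u'', UFrame D u u' u'' := by
  obtain ⟨y₀, hy₀, hy₀p⟩ := Sym.exists_perp_avoid (g := D.f) ![u] (F ∙ u) (by
    rw [finrank_span_singleton (fun h => hu (by simp [h])), finrank_fin_fun]; omega)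
  obtain ⟨y, hy, hyS⟩ := D.hf.exists_pair_sub hy₀
  obtain ⟨u', hu', h1⟩ := D.hf.aniso_of_pair (S := LinearMap.ker (D.f u)) (x := y₀) (y := y)
    (LinearMap.mem_ker.2 (hy₀p 0)) (LinearMap.mem_ker.2 (hyS u (Submodule.mem_span_singleton_self u)))
    (by rw [hy]; exact one_ne_zero)
  have h01 : D.f u u' = 0 := LinearMap.mem_ker.1 hu'
  obtain ⟨u'', hu'', hp⟩ := Sym.exists_perp_avoid (g := D.f) ![u, u'] ⊥ (by
    rw [finrank_bot, finrank_fin_fun]; omega)
  have h02 : D.f u u'' = 0 := hp 0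
  have h12 : D.f u' u'' = 0 := hp 1
  refine ⟨u', u'', hu, h1, fun h2 => ?_, h01, h02, h12⟩
  have hspan : Submodule.span F (Set.range ![u, u', u'']) = ⊤ := by
    refine Submodule.eq_top_of_finrank_eq ?_
    rw [finrank_span_eq_card, Fintype.card_fin, finrank_fin_fun]
    refine Fintype.linearIndependent_iff.2 fun c hc => ?_
    simp [Fin.sum_univ_three] at hc
    have e0 := congrArg (D.f u) hc
    have e1 := congrArg (D.f u') hc
    simp [h01, h02, hu] at e0
    simp [D.hf.symm u' u, h01, h12, h1] at e1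
    rw [e0, e1, zero_smul, zero_smul, zero_add, zero_add, smul_eq_zero] at hc
    intro i
    fin_cases i
    · exact e0
    · exact e1
    · exact hc.resolve_right (fun hh => hu'' (by simp [hh]))
  refine hu'' ((Submodule.mem_bot F).2 (D.hf.nd _ fun p => ?_))
  obtain ⟨c, rfl⟩ := (Submodule.mem_span_range_iff_exists_fun F).1
    (show p ∈ Submodule.span F (Set.range ![u, u', u'']) from hspan ▸ Submodule.mem_top)
  simp [Fin.sum_univ_three, D.hf.symm u'' u, D.hf.symm u'' u', h02, h12, h2]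

lemma exists_wframe (h : Ctx D M) : ∃ v v' z₁ z₂, WFrame D v v' z₁ z₂ := by
  obtain ⟨v, -, hv0, hv⟩ := D.hg.exists_iso (S := (⊤ : Submodule F (Fin 4 → F)))
    (by rw [finrank_top, finrank_fin_fun]; omega)
  obtain ⟨v', hv'⟩ := D.hg.exists_hyp hv hv0
  have hv'v : D.g v' v = 1 := by rw [D.hg.symm, hv'.2.2]
  obtain ⟨z₁, hz1, hz1', ha1⟩ := D.hg.exists_aniso_hyp (by rw [finrank_fin_fun]; omega) hv'
  obtain ⟨z₂, hz2, hp⟩ := Sym.exists_perp_avoid (g := D.g) ![v, v', z₁] ⊥ (by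
    rw [finrank_bot, finrank_fin_fun]; omega)
  have e1 : D.g v z₂ = 0 := hp 0
  have e2 : D.g v' z₂ = 0 := hp 1
  have e3 : D.g z₁ z₂ = 0 := hp 2
  have hz20 : z₂ ≠ 0 := fun hh => hz2 (by simp [hh])
  have hnot : ∀ s t : F, (s • z₁ + t • z₂ ≠ 0) → D.g (s • z₁ + t • z₂) (s • z₁ + t • z₂) ≠ 0 := by
    intro s t hst h0
    refine h.nopair v (s • z₁ + t • z₂) ⟨hv0, fun hm => ?_, hv, h0, by simp [hz1, e1]⟩
    obtain ⟨k, hk⟩ := Submodule.mem_span_singleton.1 hm
    have := congrArg (D.g v') hk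
    simp [hv'v, hz1', e2] at this
    rw [this, zero_smul] at hk
    exact hst hk.symm
  have ha2 : D.g z₂ z₂ ≠ 0 := by simpa using hnot 0 1 (by simpa using hz20)
  refine ⟨v, v', z₁, z₂, hv', hz1, e1, hz1', e2, e3, ha1, ha2, fun s t hst => ?_⟩
  by_contra hne
  have hv0' : s • z₁ + t • z₂ ≠ 0 := fun h0 => by
    have f1 := congrArg (D.g z₁) h0
    have f2 := congrArg (D.g z₂) h0
    simp [e3, ha1] at f1
    simp [D.hg.symm z₂ z₁, e3, ha2] at f2
    exact hne ⟨f1, f2⟩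
  exact hnot s t hv0' (by
    simp only [map_add, map_smul, LinearMap.add_apply, LinearMap.smul_apply, smul_eq_mul,
      D.hg.symm z₂ z₁, e3]
    linear_combination hst)

/-- The involutions `(-r_t) ⊗ 1` lie in the group. -/
lemma sig_mem (h : Ctx D M) {t : Fin 3 → F} (ht : D.f t t ≠ 0) :
    ∃ k ∈ M, Acts k.1 (sigA D t) 1 := by
  classical
  obtain ⟨t', t'', hU⟩ := exists_uframe ht
  obtain ⟨v, v', z₁, z₂, hW⟩ := exists_wframe h
  have h2 := D.hg.two
  let tt : Fin 2 → Fin 3 → F := ![t', t'']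
  let ww : Fin 4 → Fin 4 → F := ![z₁, z₂, v + v', v - v']
  have hff : ∀ i, D.f (tt i) (tt i) ≠ 0 := fun i => by
    fin_cases i <;> simp [tt, hU.n1, hU.n2]
  have hfo : ∀ i j, i ≠ j → D.f (tt i) (tt j) = 0 := fun i j hij => by
    fin_cases i <;> fin_cases j <;> first | exact absurd rfl hij | simp [tt, hU.h12, hU.h21]
  have hgg : ∀ i, D.g (ww i) (ww i) ≠ 0 := fun i => by
    fin_cases i <;> simp [ww, hW.a1, hW.a2, hW.v'v, hW.hyp.1, hW.hyp.2.1, hW.hyp.2.2, ← two_mul,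
      h2] <;> exact fun hh => h2 (by linear_combination -hh)
  have hgo : ∀ i j, i ≠ j → D.g (ww i) (ww j) = 0 := fun i j hij => by
    fin_cases i <;> fin_cases j <;> first
      | exact absurd rfl hij
      | simp [ww, hW.z12, hW.z21, hW.u1, hW.u2, hW.x1, hW.x2, hW.v1, hW.v2, hW.w1, hW.w2, hW.v'v,
          hW.hyp.1, hW.hyp.2.1, hW.hyp.2.2]
  let c : Fin 2 × Fin 4 → Matrix (Fin 3) (Fin 4) F := fun k => colMap (ww k.2) (tt k.1)
  have hQc : ∀ k, D.Q (c k) = D.f (tt k.1) (tt k.1) * (D.g (ww k.2) (ww k.2) / 2) := fun k => by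
    rw [TD.Q_col, mul_div_assoc]
  obtain ⟨g, hg, hiff⟩ := Forms.exists_orthProd D.bNondeg (notExc D) c
    (fun k => by rw [hQc]; exact mul_ne_zero (hff _) (div_ne_zero (hgg _) h2)) fun i j hij => by
    rw [TD.polar_col_col]
    rcases ne_or_eq i.1 j.1 with h' | h'
    · rw [hfo _ _ h', zero_mul]
    · rw [hgo _ _ (fun h'' => hij (Prod.ext h' h'')), mul_zero]
  have hc : g ∈ commutator (OQ D.Q) := hiff.2 ⟨⟨4, rfl⟩, by
    simp only [hQc, Fintype.prod_prod_type, Fin.prod_univ_two, Fin.prod_univ_four]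
    refine ⟨(D.f (tt 0) (tt 0) * D.f (tt 1) (tt 1)) ^ 2 * (D.g (ww 0) (ww 0) / 2 *
      (D.g (ww 1) (ww 1) / 2) * (D.g (ww 2) (ww 2) / 2) * (D.g (ww 3) (ww 3) / 2)), by ring⟩⟩
  have hact : Acts g.1 (sigA D t) 1 := by
    intro w p
    rw [hg]
    have hw := hW.decomp w
    have hp := hU.decomp p
    simp only [TD.Q_col, c, TD.polar_col_col, Fintype.sum_prod_type, Fin.sum_univ_two,
      Fin.sum_univ_four, tt, ww, Matrix.cons_val_zero, Matrix.cons_val_one, Matrix.cons_val_two,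
      Matrix.cons_val_three, Matrix.head_cons, Matrix.tail_cons, Module.End.one_apply]
    have s1 : D.g (v + v') (v + v') = 2 := by
      simp [hW.v'v, hW.hyp.1, hW.hyp.2.1, hW.hyp.2.2]; norm_num
    have s2 : D.g (v - v') (v - v') = -2 := by
      simp [hW.v'v, hW.hyp.1, hW.hyp.2.1, hW.hyp.2.2]; norm_num
    simp only [s1, s2]
    rw [sigA_apply]
    simp only [map_add, map_sub, LinearMap.add_apply, LinearMap.sub_apply, map_smul,
      TD.col_add, TD.col_sub]
    have n1 := hU.n1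
    have n2 := hU.n2
    have n0 := hU.n0
    have a1 := hW.a1
    have a2 := hW.a2
    conv_lhs => arg 1; rw [hw, hp]
    conv_rhs => rw [hw, hp]
    simp only [map_add, map_smul, TD.col_add, colMap_smul_right, smul_add, smul_smul,
      LinearMap.add_apply, LinearMap.smul_apply, map_sub, smul_sub, smul_eq_mul, hU.h01, hU.h02,
      hU.h10, hU.h20, hU.h12, hU.h21]
    match_scalars <;> field_simp <;> ring
  exact ⟨g, h.mem_of_acts hact hc, hact⟩

end Cfsg.Agent.MaxSub.OrthTwelve
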