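import Cfsg.Agent.MaxSub.OrthTwelve.Kernel

/-!
Involutions preserving the decomposition, and the conjugates of the involutions `(-r_t) ⊗ 1` among
them.
-/

set_option autoImplicit false
set_option linter.unusedSectionVars false

namespace Cfsg.Agent.MaxSub.OrthTwelve

open Module Matrix QuadraticMap Cfsg.Agent.MaxSub.TensorMax Cfsg.Agent.MaxSub.OrthTensor
open Cfsg.Agent.Classical

variable {F : Type*} [Field F]

section Eigen

variable {n : ℕ} {g : (Fin n → F) →ₗ[F] (Fin n → F) →ₗ[F] F}

lemma li_of_orth {k : ℕ} {v : Fin k → Fin n → F} (ho : ∀ i j, i ≠ j → g (v i) (v j) = 0)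
    (hne : ∀ i, g (v i) (v i) ≠ 0) : LinearIndependent F v := by
  classical
  rw [Fintype.linearIndependent_iff]
  intro c hc i
  have h1 := congrArg (g (v i)) hc
  simp only [map_sum, map_smul, map_zero, smul_eq_mul] at h1
  rw [Finset.sum_eq_single i (fun j _ hj => by rw [ho i j (Ne.symm hj), mul_zero]) (by simp)] at h1
  exact (mul_eq_zero.1 h1).resolve_right (hne i)

/-- An isometric involution has an orthogonal basis of anisotropic eigenvectors. -/
lemma exists_eigen (hg : Sym g) {A : Module.End F (Fin n → F)}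
    (hA : ∀ p q, g (A p) (A q) = g p q) (hA2 : A * A = 1) :
    ∃ (v : Fin n → Fin n → F) (ε : Fin n → F), (∀ i j, i ≠ j → g (v i) (v j) = 0) ∧
      (∀ i, g (v i) (v i) ≠ 0) ∧ (∀ i, ε i = 1 ∨ ε i = -1) ∧ ∀ i, A (v i) = ε i • v i := by
  suffices ∀ k, k ≤ n → ∃ (v : Fin k → Fin n → F) (ε : Fin k → F),
      (∀ i j, i ≠ j → g (v i) (v j) = 0) ∧ (∀ i, g (v i) (v i) ≠ 0) ∧
      (∀ i, ε i = 1 ∨ ε i = -1) ∧ ∀ i, A (v i) = ε i • v i from this n le_rfl
  intro k
  induction k with
  | zero => exact fun _ => ⟨Fin.elim0, Fin.elim0, fun i => i.elim0, fun i => i.elim0, fun i => i.elim0,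
      fun i => i.elim0⟩
  | succ k ih =>
    intro hk
    obtain ⟨v, ε, ho, hne, hε, hv⟩ := ih (by omega)
    have hspan : finrank F (Submodule.span F (Set.range v)) = k := by
      rw [finrank_span_eq_card (li_of_orth ho hne), Fintype.card_fin]
    obtain ⟨y₀, hy₀, hy₀p⟩ : ∃ y, y ∉ Submodule.span F (Set.range v) ∧ ∀ i, g (v i) y = 0 := by
      obtain ⟨y, hy, hyS⟩ : ∃ y : Fin n → F, y ∉ Submodule.span F (Set.range v) ∧ True := by
        by_contra hc
        push Not at hc
        have htop : Submodule.span F (Set.range v) = ⊤ := eq_top_iff.2 fun y _ => by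
          by_contra hy; exact hc y hy
        rw [htop, finrank_top, finrank_fin_fun] at hspan
        omega
      classical
      refine ⟨y - ∑ i, (g (v i) y / g (v i) (v i)) • v i, fun hm => hy ?_, fun i => ?_⟩
      · have := add_mem hm (Submodule.sum_mem _ (t := Finset.univ)
          (f := fun i => (g (v i) y / g (v i) (v i)) • v i) fun i _ =>
            Submodule.smul_mem _ _ (Submodule.subset_span ⟨i, rfl⟩))
        rwa [sub_add_cancel] at this
      · rw [map_sub, map_sum, Finset.sum_eq_single i (fun j _ hj => by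
          rw [map_smul, ho i j (Ne.symm hj), smul_zero]) (by simp), map_smul, smul_eq_mul,
          div_mul_cancel₀ _ (hne i), sub_self]
    obtain ⟨y₁, hy₁, hy₁S⟩ := hg.exists_pair_sub hy₀
    obtain ⟨y, hy, hyy⟩ := hg.aniso_of_pair
      (S := LinearMap.ker (LinearMap.pi fun i => g (v i))) (x := y₀) (y := y₁)
      (LinearMap.mem_ker.2 (funext hy₀p))
      (LinearMap.mem_ker.2 (funext fun i => hy₁S _ (Submodule.subset_span ⟨i, rfl⟩)))
      (by rw [hy₁]; exact one_ne_zero)
    have hyp : ∀ i, g (v i) y = 0 := fun i => congrFun (LinearMap.mem_ker.1 hy) i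
    have hAA : ∀ p, A (A p) = p := fun p => LinearMap.congr_fun hA2 p
    have hAy : ∀ i, g (v i) (A y) = 0 := fun i => by
      have h1 := hA (v i) y
      rw [hv, map_smul, LinearMap.smul_apply, hyp, smul_eq_zero] at h1
      rcases h1 with h1 | h1
      · rcases hε i with e | e <;> simp [e] at h1
      · exact h1
    obtain ⟨s, hs, hnew⟩ : ∃ s : F, (s = 1 ∨ s = -1) ∧ g (y + s • A y) (y + s • A y) ≠ 0 := by
      by_cases h1 : g (y + A y) (y + A y) = 0
      · refine ⟨-1, Or.inr rfl, fun h2 => ?_⟩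
        simp only [map_add, map_smul, LinearMap.add_apply, LinearMap.smul_apply, smul_eq_mul, hA,
          hg.symm (A y) y] at h1 h2
        have : (2 : F) * (2 * g y y) = 0 := by linear_combination h1 + h2
        exact hyy ((mul_eq_zero.1 ((mul_eq_zero.1 this).resolve_left hg.two)).resolve_left hg.two)
      · exact ⟨1, Or.inl rfl, by rwa [one_smul]⟩
    have hperp : ∀ i, g (v i) (y + s • A y) = 0 := fun i => by
      rw [map_add, map_smul, hyp, hAy, smul_zero, add_zero]
    refine ⟨Fin.snoc v (y + s • A y), Fin.snoc ε s, fun i j hij => ?_, fun i => ?_, fun i => ?_,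
      fun i => ?_⟩
    · induction i using Fin.lastCases with
      | last =>
        induction j using Fin.lastCases with
        | last => exact absurd rfl hij
        | cast j => simp only [Fin.snoc_last, Fin.snoc_castSucc]; rw [hg.symm]; exact hperp j
      | cast i =>
        induction j using Fin.lastCases with
        | last => simp only [Fin.snoc_last, Fin.snoc_castSucc]; exact hperp i
        | cast j => simp only [Fin.snoc_castSucc]; exact ho i j (fun e => hij (by rw [e]))
    · induction i using Fin.lastCases with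
      | last => simpa using hnew
      | cast i => simpa using hne i
    · induction i using Fin.lastCases with
      | last => simpa using hs
      | cast i => simpa using hε i
    · induction i using Fin.lastCases with
      | last =>
        simp only [Fin.snoc_last, map_add, map_smul, hAA, smul_add, smul_smul]
        rw [show s * s = 1 by rcases hs with e | e <;> simp [e], one_smul, add_comm]
      | cast i => simpa using hv i

/-- A map is determined on an orthogonal basis. -/
lemma ext_orth {G : Type*} [AddCommGroup G] [Module F G] {v : Fin n → Fin n → F}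
    (ho : ∀ i j, i ≠ j → g (v i) (v j) = 0) (hne : ∀ i, g (v i) (v i) ≠ 0)
    {A B : (Fin n → F) →ₗ[F] G} (h : ∀ i, A (v i) = B (v i)) : A = B := by
  have htop : Submodule.span F (Set.range v) = ⊤ := Submodule.eq_top_of_finrank_eq (by
    rw [finrank_span_eq_card (li_of_orth ho hne), Fintype.card_fin, finrank_fin_fun])
  exact LinearMap.ext_on_range htop h

end Eigen

variable [Finite F] {D : TD F 3 4} {M : Subgroup (OQ D.Q)}

/-- The number of negated tensors of frames is even in `Ω`. -/
lemma diag_even (h : Ctx D M) {g : OQ D.Q} (hg : g ∈ M) {A : Module.End F (Fin 3 → F)}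
    {B : Module.End F (Fin 4 → F)} (hact : Acts g.1 A B)
    {t : Fin 3 → Fin 3 → F} {ε : Fin 3 → F} (hto : ∀ i j, i ≠ j → D.f (t i) (t j) = 0)
    (htn : ∀ i, D.f (t i) (t i) ≠ 0) (htA : ∀ i, A (t i) = ε i • t i)
    {w : Fin 4 → Fin 4 → F} {η : Fin 4 → F} (hwo : ∀ i j, i ≠ j → D.g (w i) (w j) = 0)
    (hwn : ∀ i, D.g (w i) (w i) ≠ 0) (hwB : ∀ i, B (w i) = η i • w i)
    (hε : ∀ i, ε i = 1 ∨ ε i = -1) (hη : ∀ i, η i = 1 ∨ η i = -1) [DecidableEq F] :
    Even (Finset.univ.filter fun p : Fin 3 × Fin 4 => ε p.1 * η p.2 = -1).card := by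
  set N := Finset.univ.filter fun p : Fin 3 × Fin 4 => ε p.1 * η p.2 = -1 with hN
  have h2 := D.hg.two
  have hQ : ∀ p : Fin 3 × Fin 4, D.Q (colMap (w p.2) (t p.1)) ≠ 0 := fun p => by
    rw [TD.Q_col]; exact div_ne_zero (mul_ne_zero (htn _) (hwn _)) h2
  have horth : ∀ p q : Fin 3 × Fin 4, p ≠ q →
      polar D.Q (colMap (w p.2) (t p.1)) (colMap (w q.2) (t q.1)) = 0 := fun p q hpq => by
    rw [TD.polar_col_col]
    rcases ne_or_eq p.1 q.1 with h' | h'
    · rw [hto _ _ h', zero_mul]
    · rw [hwo _ _ (fun h'' => hpq (Prod.ext h' h'')), mul_zero]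
  obtain ⟨k, hk, hiff⟩ := Forms.exists_orthProd D.bNondeg (notExc D) (κ := N)
    (fun p => colMap (w p.1.2) (t p.1.1)) (fun p => hQ p.1)
    fun i j hij => horth _ _ (fun e => hij (Subtype.ext e))
  have hval : ∀ p : Fin 3 × Fin 4,
      k.1 (colMap (w p.2) (t p.1)) = g.1 (colMap (w p.2) (t p.1)) := fun p => by
    have hrhs : g.1 (colMap (w p.2) (t p.1)) = (ε p.1 * η p.2) • colMap (w p.2) (t p.1) := by
      rw [hact, htA, hwB, map_smul, colMap_smul_right, smul_smul]
    rw [hrhs, hk]
    by_cases hp : p ∈ N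
    · rw [Finset.sum_eq_single ⟨p, hp⟩ (fun q _ hq => by
          rw [horth _ _ (fun e => hq (Subtype.ext e)), mul_zero, zero_smul]) (by simp),
        OrthGen.polar_self_two, (Finset.mem_filter.1 hp).2]
      have := hQ p
      match_scalars
      field_simp
      ring
    · have h1 : ε p.1 * η p.2 = 1 := by
        have hne : ε p.1 * η p.2 ≠ -1 := fun e => hp (Finset.mem_filter.2 ⟨Finset.mem_univ _, e⟩)
        rcases hε p.1 with e | e <;> rcases hη p.2 with e' | e' <;> simp [e, e'] at hne ⊢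
      rw [h1, one_smul, Finset.sum_eq_zero (fun q _ => by
        rw [horth q.1 p (fun e => hp (by rw [← e]; exact q.2)), mul_zero, zero_smul]), sub_zero]
  have hkg : k = g := Subtype.ext (LinearEquiv.ext fun X =>
    ext_colMap (φ := k.1.toLinearMap) (ψ := g.1.toLinearMap) (fun x u => by
      refine LinearMap.congr_fun (ext_orth (g := D.g) hwo hwn
        (A := { toFun := fun x => k.1 (colMap x u)
                map_add' := fun a b => by rw [TD.col_add, map_add]
                map_smul' := fun c a => by rw [colMap_smul_right, map_smul]; rfl })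
        (B := { toFun := fun x => g.1 (colMap x u)
                map_add' := fun a b => by rw [TD.col_add, map_add]
                map_smul' := fun c a => by rw [colMap_smul_right, map_smul]; rfl }) fun j => ?_) x
      exact LinearMap.congr_fun (ext_orth (g := D.f) hto htn (A := k.1.toLinearMap ∘ₗ colMap (w j))
        (B := g.1.toLinearMap ∘ₗ colMap (w j)) fun i => hval (i, j)) u) X)
  have := (hiff.1 (hkg ▸ h.le hg)).1
  rwa [Fintype.card_coe] at this

/-- An involution with two eigen-planes. -/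
structure PlaneInvol (D : TD F 3 4) (B : Module.End F (Fin 4 → F)) : Prop where
  isom : ∀ p q, D.g (B p) (B q) = D.g p q
  sq : B * B = 1
  planes : ∃ p₁ p₂ n₁ n₂ : Fin 4 → F, B p₁ = p₁ ∧ B p₂ = p₂ ∧ B n₁ = -n₁ ∧ B n₂ = -n₂ ∧
    D.g p₁ p₁ ≠ 0 ∧ D.g p₂ p₂ ≠ 0 ∧ D.g n₁ n₁ ≠ 0 ∧ D.g n₂ n₂ ≠ 0 ∧
    D.g p₁ p₂ = 0 ∧ D.g n₁ n₂ = 0

/-- Involutions preserving the decomposition. -/
inductive Kind (D : TD F 3 4) (g : OQ D.Q) : Prop
  | one : Acts g.1 1 1 → Kind D g
  | neg : Acts g.1 1 (-1) → Kind D g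
  | sig (t : Fin 3 → F) : D.f t t ≠ 0 → Acts g.1 (sigA D t) 1 → Kind D g
  | nsig (t : Fin 3 → F) : D.f t t ≠ 0 → Acts g.1 (sigA D t) (-1) → Kind D g
  | plane (B : Module.End F (Fin 4 → F)) : PlaneInvol D B → Acts g.1 1 B → Kind D g
  | splane (t : Fin 3 → F) (B : Module.End F (Fin 4 → F)) : D.f t t ≠ 0 → PlaneInvol D B →
      Acts g.1 (sigA D t) B → Kind D g

/-- The involutions of the group preserving the decomposition. -/
theorem kind_of_invol (h : Ctx D M) {g : OQ D.Q} (hgM : g ∈ M) (hg : Tens g.1) (hg2 : g * g = 1) :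
    Kind D g := by
  classical
  obtain ⟨A, B, hact⟩ := tens_iff.1 hg
  obtain ⟨v, v', z₁, z₂, hW⟩ := exists_wframe h
  have h2 := D.hg.two
  obtain ⟨u₀, hu₀⟩ : ∃ u : Fin 3 → F, D.f u u ≠ 0 := by
    obtain ⟨x, -, hx0, hx⟩ := D.hf.exists_iso (S := (⊤ : Submodule F (Fin 3 → F)))
      (by rw [finrank_top, finrank_fin_fun])
    obtain ⟨x', hxx'⟩ := D.hf.exists_hyp hx hx0
    obtain ⟨e, -, -, he⟩ := D.hf.exists_aniso_hyp (by rw [finrank_fin_fun]) hxx'
    exact ⟨e, he⟩
  have hu₀0 : u₀ ≠ 0 := fun e => hu₀ (by simp [e])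
  have hAA : ∀ w u, colMap (B (B w)) (A (A u)) = colMap w u := fun w u => by
    have := (hact.mul hact) w u
    rw [hg2] at this
    exact this.symm
  have hpure : ∀ u u' w w', D.f (A u) (A u') * D.g (B w) (B w') = D.f u u' * D.g w w' :=
    fun u u' w w' => by
      have := OQ_polar g (colMap w u) (colMap w' u')
      rwa [hact, hact, TD.polar_col_col, TD.polar_col_col] at this
  have hB0 : ∀ w, B (B w) ≠ 0 → w ≠ 0 := fun w e h0 => e (by simp [h0])
  obtain ⟨c, hc⟩ := col_eq_col' (hAA z₁ u₀) (fun e => hW.a1 (by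
    have := hAA z₁ u₀
    rw [e, col_zero] at this
    have h0 : z₁ = 0 := by
      by_contra hz
      exact col_ne_zero hz hu₀0 this.symm
    simp [h0]))
  have hA2 : ∀ u, ∃ c : F, A (A u) = c • u := fun u => col_eq_col' (hAA z₁ u) (fun e => by
    have := hAA z₁ u₀
    rw [e, col_zero] at this
    exact col_ne_zero (fun h0 => hW.a1 (by simp [h0])) hu₀0 this.symm)
  obtain ⟨d, hd⟩ : ∃ d : F, ∀ w, B (B w) = d • w := by
    have hc0 : A (A u₀) ≠ 0 := fun e => by
      have := hAA z₁ u₀
      rw [e, map_zero] at this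
      exact col_ne_zero (fun h0 => hW.a1 (by simp [h0])) hu₀0 this.symm
    have key : ∀ w, c • B (B w) = w := fun w => colMap_injective (a := 4) (b := 3) (v := u₀) hu₀0 (by
      have := hAA w u₀
      rw [hc, map_smul] at this
      funext j i
      have h3 := congrFun (congrFun this i) j
      simp only [colMap_apply, vecMulVec_apply, Matrix.smul_apply, smul_eq_mul, Pi.smul_apply] at h3 ⊢
      linear_combination h3)
    have hcne : c ≠ 0 := fun e => hc0 (by rw [hc, e, zero_smul])
    exact ⟨c⁻¹, fun w => by conv_rhs => rw [← key w]; rw [inv_smul_smul₀ hcne]⟩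
  have hAc : ∀ u, d • A (A u) = u := fun u => by
    refine colMap_injective (v := z₁) (fun h0 => hW.a1 (by simp [h0])) ?_
    have := hAA z₁ u
    rw [hd, colMap_smul_right] at this
    rw [map_smul]; exact this
  have hd0 : d ≠ 0 := fun e => hu₀0 (by rw [← hAc u₀, e, zero_smul])
  have hA2' : A * A = d⁻¹ • (1 : Module.End F (Fin 3 → F)) := LinearMap.ext fun u => by
    conv_rhs => rw [LinearMap.smul_apply, Module.End.one_apply, ← hAc u, inv_smul_smul₀ hd0]
    rfl
  set r := d * LinearMap.det A with hr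
  have hr2 : r * r = d⁻¹ := by
    have := congrArg LinearMap.det hA2'
    rw [map_mul, LinearMap.det_smul, map_one, mul_one, finrank_fin_fun] at this
    rw [hr]
    field_simp at this ⊢
    linear_combination this
  have hr0 : r ≠ 0 := fun e => inv_ne_zero hd0 (by rw [← hr2, e, zero_mul])
  set A' := r⁻¹ • A with hA'
  set B' := r • B with hB'
  have hact' : Acts g.1 A' B' := fun w u => by
    rw [hact, hA', hB', LinearMap.smul_apply, LinearMap.smul_apply, map_smul, colMap_smul_right,
      smul_smul, inv_mul_cancel₀ hr0, one_smul]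
  have hA'2 : A' * A' = 1 := LinearMap.ext fun u => by
    simp only [hA', Module.End.mul_apply, LinearMap.smul_apply, map_smul, smul_smul,
      Module.End.one_apply]
    rw [← mul_inv, hr2, inv_inv, hAc]
  have hB'2 : B' * B' = 1 := LinearMap.ext fun w => by
    simp only [hB', Module.End.mul_apply, LinearMap.smul_apply, map_smul, smul_smul, hd,
      Module.End.one_apply]
    rw [← mul_assoc, hr2, inv_mul_cancel₀ hd0, one_smul]
  -- the multiplier is one
  have hpure' : ∀ u u' w w', D.f (A' u) (A' u') * D.g (B' w) (B' w') = D.f u u' * D.g w w' :=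
    fun u u' w w' => by
      have := OQ_polar g (colMap w u) (colMap w' u')
      rwa [hact', hact', TD.polar_col_col, TD.polar_col_col] at this
  obtain ⟨lam, hlam0, hA'f⟩ : ∃ lam : F, lam ≠ 0 ∧ ∀ u u', D.f (A' u) (A' u') = lam * D.f u u' := by
    have hB0 : D.g (B' z₁) (B' z₁) ≠ 0 := fun e => mul_ne_zero hu₀ hW.a1 (by
      rw [← hpure' u₀ u₀ z₁ z₁, e, mul_zero])
    refine ⟨D.g z₁ z₁ / D.g (B' z₁) (B' z₁), div_ne_zero hW.a1 hB0, fun u u' => ?_⟩
    field_simp
    linear_combination hpure' u u' z₁ z₁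
  have hlam : lam = 1 := by
    by_contra hne
    have hAA' : ∀ p, A' (A' p) = p := fun p => LinearMap.congr_fun hA'2 p
    have hsing : ∀ a b, ∀ s : F, s * s = 1 → A' a = s • a → A' b = s • b → D.f a b = 0 := by
      intro a b s hs ha hb
      have := hA'f a b
      rw [ha, hb, map_smul, map_smul, LinearMap.smul_apply, smul_eq_mul, smul_eq_mul, ← mul_assoc, hs,
        one_mul] at this
      by_contra hab
      exact hne ((mul_eq_right₀ hab).1 this.symm)
    have hsmall : ∀ s : F, s * s = 1 →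
        finrank F (LinearMap.ker (A' - s • (1 : Module.End F (Fin 3 → F)))) ≤ 1 := by
      intro s hs
      set T := LinearMap.ker (A' - s • (1 : Module.End F (Fin 3 → F))) with hT
      have hTm : ∀ {x}, x ∈ T → A' x = s • x := fun hx => by
        simpa [hT, sub_eq_zero] using hx
      rw [finrank_le_one_iff]
      by_cases hT0 : ∀ x : T, x = 0
      · exact ⟨0, fun x => ⟨0, by rw [hT0 x, smul_zero]⟩⟩
      push Not at hT0
      obtain ⟨⟨a, ha⟩, ha0⟩ := hT0
      refine ⟨⟨a, ha⟩, fun ⟨b, hb⟩ => ?_⟩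
      by_contra hnone
      push Not at hnone
      have hp : Pair₂ D.f a b := ⟨fun e => ha0 (Subtype.ext e), fun hm => by
        obtain ⟨k, hk⟩ := Submodule.mem_span_singleton.1 hm
        exact hnone k (Subtype.ext hk), hsing a a s hs (hTm ha) (hTm ha),
        hsing b b s hs (hTm hb) (hTm hb), hsing a b s hs (hTm ha) (hTm hb)⟩
      obtain ⟨a', b', hha, hhb, e1, e2, e3⟩ := D.hf.exists_companions hp
      have hli : LinearIndependent F ![a, a', b, b'] := by
        refine Fintype.linearIndependent_iff.2 fun k hk => ?_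
        simp [Fin.sum_univ_four] at hk
        have f0 := congrArg (D.f a') hk
        have f1 := congrArg (D.f a) hk
        have f2 := congrArg (D.f b') hk
        have f3 := congrArg (D.f b) hk
        simp [D.hf.symm a' a, hha.2.2, hha.2.1, e1, e3] at f0
        simp [hha.1, hha.2.2, hp.2.2.2.2, e2] at f1
        simp [D.hf.symm b' a, e2, D.hf.symm b' a', e3, D.hf.symm b' b, hhb.2.2, hhb.2.1] at f2
        simp [D.hf.symm b a, hp.2.2.2.2, D.hf.symm b a', e1, hhb.1, hhb.2.2] at f3
        intro i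
        fin_cases i
        · exact f0
        · exact f1
        · exact f2
        · exact f3
      have := hli.fintype_card_le_finrank
      simp at this
    have hsup : LinearMap.ker (A' - (1 : F) • (1 : Module.End F (Fin 3 → F))) ⊔
        LinearMap.ker (A' - (-1 : F) • (1 : Module.End F (Fin 3 → F))) = ⊤ := by
      refine eq_top_iff.2 fun x _ => ?_
      rw [show x = (2 : F)⁻¹ • (x + A' x) + (2 : F)⁻¹ • (x - A' x) by
        match_scalars <;> field_simp <;> ring]
      refine add_mem (Submodule.mem_sup_left ?_) (Submodule.mem_sup_right ?_)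
      · rw [LinearMap.mem_ker]
        simp only [LinearMap.sub_apply, LinearMap.smul_apply, Module.End.one_apply, map_smul, map_add, hAA']
        module
      · rw [LinearMap.mem_ker]
        simp only [LinearMap.sub_apply, LinearMap.smul_apply, Module.End.one_apply, map_smul, map_sub, hAA']
        module
    have h1 := Submodule.finrank_sup_add_finrank_inf_eq
      (LinearMap.ker (A' - (1 : F) • (1 : Module.End F (Fin 3 → F))))
      (LinearMap.ker (A' - (-1 : F) • (1 : Module.End F (Fin 3 → F))))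
    rw [hsup, finrank_top, finrank_fin_fun] at h1
    have := hsmall 1 (one_mul 1)
    have := hsmall (-1) (by ring)
    omega
  subst hlam
  have hAi : ∀ u u', D.f (A' u) (A' u') = D.f u u' := fun u u' => by rw [hA'f, one_mul]
  have hBi : ∀ w w', D.g (B' w) (B' w') = D.g w w' := fun w w' => by
    have := hpure' u₀ u₀ w w'
    rw [hAi] at this
    exact mul_left_cancel₀ hu₀ this
  obtain ⟨t, ε, hto, htn, hε, htA⟩ := exists_eigen D.hf hAi hA'2
  obtain ⟨w, η, hwo, hwn, hη, hwB⟩ := exists_eigen D.hg hBi hB'2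
  have hev := diag_even h hgM hact' hto htn htA hwo hwn hwB hε hη
  -- normalise the first factor
  obtain ⟨s, hs, hform⟩ : ∃ s : F, (s = 1 ∨ s = -1) ∧
      ((∀ i, ε i = s) ∨ ∃ i₀, ∀ i, ε i = if i = i₀ then s else -s) := by
    rcases hε 0 with e0 | e0 <;> rcases hε 1 with e1 | e1 <;> rcases hε 2 with e2 | e2 <;>
      first
        | (refine ⟨ε 0, hε 0, Or.inl fun i => ?_⟩; fin_cases i <;> simp [e0, e1, e2] <;> done)
        | (refine ⟨ε 0, hε 0, Or.inr ⟨0, fun i => ?_⟩⟩; fin_cases i <;> simp [e0, e1, e2] <;> done)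
        | (refine ⟨ε 1, hε 1, Or.inr ⟨1, fun i => ?_⟩⟩; fin_cases i <;> simp [e0, e1, e2] <;> done)
        | (refine ⟨ε 2, hε 2, Or.inr ⟨2, fun i => ?_⟩⟩; fin_cases i <;> simp [e0, e1, e2] <;> done)
  have hss : s * s = 1 := by rcases hs with e | e <;> simp [e]
  set C := s • B' with hC
  have hCi : ∀ p q, D.g (C p) (C q) = D.g p q := fun p q => by
    simp only [hC, LinearMap.smul_apply, map_smul, smul_eq_mul, hBi]
    linear_combination (D.g p q) * hss
  have hC2 : C * C = 1 := LinearMap.ext fun p => by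
    simp only [hC, Module.End.mul_apply, LinearMap.smul_apply, map_smul, smul_smul, hss, one_smul]
    exact LinearMap.congr_fun hB'2 p
  have hwC : ∀ i, C (w i) = (s * η i) • w i := fun i => by
    rw [hC, LinearMap.smul_apply, hwB, smul_smul]
  have hθ : ∀ i, s * η i = 1 ∨ s * η i = -1 := fun i => by
    rcases hs with e | e <;> rcases hη i with e' | e' <;> simp [e, e']
  -- the first factor
  obtain ⟨A'', hA'', hact''⟩ : ∃ A'' : Module.End F (Fin 3 → F),
      (A'' = 1 ∨ ∃ i₀, A'' = sigA D (t i₀)) ∧ Acts g.1 A'' C := by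
    have hgen : ∀ A'' : Module.End F (Fin 3 → F), (∀ i, A' (t i) = s • A'' (t i)) →
        Acts g.1 A'' C := fun A'' hh w u => by
      have e : A' = s • A'' := ext_orth (g := D.f) hto htn fun i => hh i
      rw [hact', e, hC]
      show colMap (B' w) (s • A'' u) = colMap (s • B' w) (A'' u)
      rw [map_smul, colMap_smul_right]
    rcases hform with hall | ⟨i₀, hi₀⟩
    · exact ⟨1, Or.inl rfl, hgen 1 fun i => by rw [htA, hall, Module.End.one_apply]⟩
    · refine ⟨_, Or.inr ⟨i₀, rfl⟩, hgen _ fun i => ?_⟩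
      rw [htA, hi₀]
      by_cases hi : i = i₀
      · rw [if_pos hi, hi, sigA_self (htn i₀)]
      · rw [if_neg hi, sigA_perp (hto _ _ (Ne.symm hi)), smul_neg, neg_smul]
  have hall1 : ∀ c : F, (∀ i, s * η i = c) → C = c • 1 := fun c hh =>
    ext_orth (g := D.g) hwo hwn fun i => by rw [hwC, hh]; rfl
  have hplane : ∀ p₁ p₂ n₁ n₂ : Fin 4, p₁ ≠ p₂ → n₁ ≠ n₂ → s * η p₁ = 1 → s * η p₂ = 1 →
      s * η n₁ = -1 → s * η n₂ = -1 → PlaneInvol D C := fun p₁ p₂ n₁ n₂ hp hn a b c d =>
    ⟨hCi, hC2, w p₁, w p₂, w n₁, w n₂, by rw [hwC, a, one_smul], by rw [hwC, b, one_smul],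
      by rw [hwC, c, neg_one_smul], by rw [hwC, d, neg_one_smul], hwn _, hwn _, hwn _, hwn _,
      hwo _ _ hp, hwo _ _ hn⟩
  have hmk : PlaneInvol D C → Kind D g := fun hp => by
    rcases hA'' with rfl | ⟨i₀, rfl⟩
    · exact .plane C hp hact''
    · exact .splane _ C (htn i₀) hp hact''
  have hparity : Even (Finset.univ.filter fun i : Fin 4 => s * η i = -1).card := by
    have hcongr : (Finset.univ.filter fun p : Fin 3 × Fin 4 => ε p.1 * η p.2 = -1).card =
        ∑ i, (Finset.univ.filter fun j : Fin 4 => ε i * η j = -1).card := by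
      rw [Finset.card_filter, Fintype.sum_prod_type]
      exact Finset.sum_congr rfl fun i _ => by rw [Finset.card_filter]
    rw [hcongr, Fin.sum_univ_three] at hev
    have hneg : ∀ c : F, (c = 1 ∨ c = -1) → (Finset.univ.filter fun j : Fin 4 => -c * η j = -1).card +
        (Finset.univ.filter fun j : Fin 4 => c * η j = -1).card = 4 := fun c hc => by
      have hn1 : (-1 : F) ≠ 1 := fun e => D.hg.two (by linear_combination -e)
      rw [Finset.card_filter, Finset.card_filter, ← Finset.sum_add_distrib]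
      refine (Finset.sum_congr rfl (g := fun _ => (1 : ℕ)) fun j _ => ?_).trans (by simp)
      rcases hc with e | e <;> rcases hη j with e' | e' <;> simp [e, e', hn1, hn1.symm]
    rcases hform with hall | ⟨i₀, hi₀⟩
    · simp only [hall] at hev
      rw [Nat.even_iff] at hev ⊢; omega
    · have e := hneg s hs
      fin_cases i₀ <;> simp [hi₀] at hev <;> rw [Nat.even_iff] at hev ⊢ <;>
        simp only [neg_mul] at e <;> omega
  have hn1 : (-1 : F) ≠ 1 := fun e => D.hg.two (by linear_combination -e)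
  rcases hθ 0 with e0 | e0 <;> rcases hθ 1 with e1 | e1 <;> rcases hθ 2 with e2 | e2 <;>
    rcases hθ 3 with e3 | e3 <;>
    first
      | (rw [Finset.card_filter, Fin.sum_univ_four, e0, e1, e2, e3] at hparity
         simp [hn1.symm, Nat.even_iff] at hparity
         done)
      | (have hall4 : ∀ i, s * η i = s * η 0 := by
           intro i; fin_cases i <;> simp [e0, e1, e2, e3] <;> done
         have hC1 := hall1 (s * η 0) hall4
         rcases hA'' with rfl | ⟨i₀, rfl⟩
         · first
            | exact .one (hact''.congr rfl (by rw [hC1, e0, one_smul]))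
            | (refine .neg (hact''.congr rfl ?_); rw [hC1, e0]; exact LinearMap.ext fun x => by simp)
         · first
            | exact .sig _ (htn i₀) (hact''.congr rfl (by rw [hC1, e0, one_smul]))
            | (refine .nsig _ (htn i₀) (hact''.congr rfl ?_); rw [hC1, e0]; exact LinearMap.ext fun x => by simp))
      | exact hmk (hplane 0 1 2 3 (by decide) (by decide) e0 e1 e2 e3)
      | exact hmk (hplane 0 2 1 3 (by decide) (by decide) e0 e2 e1 e3)
      | exact hmk (hplane 0 3 1 2 (by decide) (by decide) e0 e3 e1 e2)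
      | exact hmk (hplane 1 2 0 3 (by decide) (by decide) e1 e2 e0 e3)
      | exact hmk (hplane 1 3 0 2 (by decide) (by decide) e1 e3 e0 e2)
      | exact hmk (hplane 2 3 0 1 (by decide) (by decide) e2 e3 e0 e1)

/-- A family of orthogonal anisotropic fixed vectors of a conjugate of `(-r_u) ⊗ 1` has at most
four members. -/
lemma card_fixed_le {u : Fin 3 → F} (hu : D.f u u ≠ 0) {s h x : OQ D.Q}
    (hs : Acts s.1 (sigA D u) 1) (hx : x = h * s * h⁻¹) {m : ℕ}
    {c : Fin m → Matrix (Fin 3) (Fin 4) F} (hc : LinearIndependent F c) (hfix : ∀ i, x.1 (c i) = c i) :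
    m ≤ 4 := by
  classical
  haveI : Invertible (2 : F) := invertibleOfNonzero D.hg.two
  obtain ⟨u', u'', hU⟩ := exists_uframe hu
  have hd : LinearIndependent F (fun i => h⁻¹.1 (c i)) :=
    hc.map' h⁻¹.1.toLinearMap h⁻¹.1.ker
  let ρ : Matrix (Fin 3) (Fin 4) F →ₗ[F] (Fin 4 → F) :=
    { toFun := fun X j => D.f u (fun i => X i j)
      map_add' := fun X Y => funext fun j => by
        show D.f u ((fun i => X i j) + fun i => Y i j) = _
        rw [map_add]; rfl
      map_smul' := fun a X => funext fun j => by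
        show D.f u (a • fun i => X i j) = _
        rw [map_smul]; rfl }
  have hinj : ∀ X, s.1 X = X → ρ X = 0 → X = 0 := by
    intro X hX h0
    have h1 : leftMap (sigA D u) X = X := by
      conv_rhs => rw [← hX, hs.apply]
      congr 1
      exact (ext_colMap (φ := rightMap (1 : Module.End F (Fin 4 → F))) (ψ := LinearMap.id)
        (fun w p => by rw [rightMap_colMap]; rfl) X).symm
    refine Matrix.ext fun i j => ?_
    have h2 : sigA D u (fun i => X i j) = fun i => X i j := by
      funext k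
      have := congrFun (congrFun h1 k) j
      rw [← this, ← LinearMap.toMatrix'_mulVec]
      rfl
    rw [sigA_apply, show D.f u (fun i => X i j) = 0 from congrFun h0 j] at h2
    have := congrFun h2 i
    simp at this
    rcases eq_or_ne (X i j) 0 with h | h
    · exact h
    · exact absurd (show (2 : F) * X i j = 0 by linear_combination -this) (mul_ne_zero D.hg.two h)
  have hfix' : ∀ i, s.1 (h⁻¹.1 (c i)) = h⁻¹.1 (c i) := fun i => by
    have e : h⁻¹.1 (x.1 (c i)) = s.1 (h⁻¹.1 (c i)) := by
      rw [hx, ← LinearEquiv.mul_apply, ← Subgroup.coe_mul, ← LinearEquiv.mul_apply, ← Subgroup.coe_mul]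
      congr 2
      group
    rw [← e, hfix]
  have hli : LinearIndependent F (fun i => ρ (h⁻¹.1 (c i))) := by
    rw [Fintype.linearIndependent_iff]
    intro a ha
    refine Fintype.linearIndependent_iff.1 hd a (hinj _ ?_ ?_)
    · rw [map_sum]; exact Finset.sum_congr rfl fun i _ => by rw [map_smul, hfix']
    · rw [map_sum]; simpa [map_smul] using ha
  simpa using hli.fintype_card_le_finrank

/-- Orthogonal pure tensors of two frames are independent. -/
lemma pure_li {κ : Type*} [Finite κ] {T : κ → Fin 3 → F} {W : κ → Fin 4 → F}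
    (hne : ∀ k, D.f (T k) (T k) * D.g (W k) (W k) ≠ 0)
    (ho : ∀ k l, k ≠ l → D.f (T k) (T l) * D.g (W k) (W l) = 0) :
    LinearIndependent F (fun k => colMap (W k) (T k)) := by
  haveI := Fintype.ofFinite κ
  classical
  rw [Fintype.linearIndependent_iff]
  intro a ha i
  have h1 := congrArg (fun X => D.f (D.row (W i) X) (T i)) ha
  simp only [map_sum, map_smul, TD.row_col, LinearMap.sum_apply, LinearMap.smul_apply, smul_eq_mul,
    map_zero, LinearMap.zero_apply] at h1
  rw [Finset.sum_eq_single i (fun j _ hj => by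
      rw [D.hg.symm (W j), D.hf.symm (T j) (T i), mul_comm (D.g _ _), ho i j (Ne.symm hj), mul_zero])
    (by simp), mul_comm (D.g _ _)] at h1
  exact (mul_eq_zero.1 h1).resolve_right (hne i)

/-- Involutions fixing at least five independent vectors: the cases other than `σ`. -/
lemma Kind.many_fixed (h : Ctx D M) {g : OQ D.Q} (hg : Kind D g) :
    (∃ t, D.f t t ≠ 0 ∧ Acts g.1 (sigA D t) 1) ∨ Acts g.1 1 (-1) ∨
      ∃ c : Fin 6 → Matrix (Fin 3) (Fin 4) F, LinearIndependent F c ∧ ∀ i, g.1 (c i) = c i := by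
  classical
  obtain ⟨v, v', z₁, z₂, hW⟩ := exists_wframe h
  obtain ⟨u₀, hu₀⟩ : ∃ u : Fin 3 → F, D.f u u ≠ 0 := by
    obtain ⟨x, -, hx0, hx⟩ := D.hf.exists_iso (S := (⊤ : Submodule F (Fin 3 → F)))
      (by rw [finrank_top, finrank_fin_fun])
    obtain ⟨x', hxx'⟩ := D.hf.exists_hyp hx hx0
    obtain ⟨e, -, -, he⟩ := D.hf.exists_aniso_hyp (by rw [finrank_fin_fun]) hxx'
    exact ⟨e, he⟩
  obtain ⟨a', a'', hU₀⟩ := exists_uframe hu₀
  have h2 := D.hg.two
  -- the frame of the second factor
  let e4 : Fin 4 → Fin 4 → F := ![z₁, z₂, v + v', v - v']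
  have e4n : ∀ i, D.g (e4 i) (e4 i) ≠ 0 := fun i => by
    fin_cases i <;> simp [e4, hW.a1, hW.a2, hW.v'v, hW.hyp.1, hW.hyp.2.1, hW.hyp.2.2, ← two_mul,
      h2] <;> exact fun hh => h2 (by linear_combination -hh)
  have e4o : ∀ i j, i ≠ j → D.g (e4 i) (e4 j) = 0 := fun i j hij => by
    fin_cases i <;> fin_cases j <;> first
      | exact absurd rfl hij
      | simp [e4, hW.z12, hW.z21, hW.u1, hW.u2, hW.x1, hW.x2, hW.v1, hW.v2, hW.w1, hW.w2, hW.v'v,
          hW.hyp.1, hW.hyp.2.1, hW.hyp.2.2]
  cases hg with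
  | one hact =>
    refine Or.inr (Or.inr ⟨fun k => colMap (![z₁, z₁, z₁, z₂, z₂, z₂] k) (![u₀, a', a'', u₀, a', a''] k),
      pure_li (D := D) (fun k => ?_) (fun k l hkl => ?_), fun k => hact _ _⟩)
    · fin_cases k <;> simp [hW.a1, hW.a2, hU₀.n0, hU₀.n1, hU₀.n2]
    · fin_cases k <;> fin_cases l <;> first
        | exact absurd rfl hkl
        | simp [hW.z12, hW.z21, hU₀.h01, hU₀.h02, hU₀.h10, hU₀.h12, hU₀.h20, hU₀.h21]
  | neg hact => exact Or.inr (Or.inl hact)
  | sig t ht hact => exact Or.inl ⟨t, ht, hact⟩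
  | nsig t ht hact =>
    obtain ⟨t', t'', hU⟩ := exists_uframe ht
    refine Or.inr (Or.inr ⟨fun k => colMap (![z₁, z₂, v + v', z₁, z₂, v + v'] k)
      (![t', t', t', t'', t'', t''] k), pure_li (D := D) (fun k => ?_) (fun k l hkl => ?_), fun k => ?_⟩)
    · have := e4n 2
      fin_cases k <;> simp [e4] at this ⊢ <;> simp [hW.a1, hW.a2, hU.n1, hU.n2, this]
    · fin_cases k <;> fin_cases l <;> first
        | exact absurd rfl hkl
        | simp [hW.z12, hW.z21, hW.u1, hW.u2, hW.x1, hW.x2, hW.v1, hW.v2, hW.w1, hW.w2, hU.h12, hU.h21]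
    · rw [hact]
      fin_cases k <;> simp [sigA_perp hU.h01, sigA_perp hU.h02, col_neg, map_neg, TD.col_add] <;> abel
  | plane B hB hact =>
    obtain ⟨p₁, p₂, n₁, n₂, b1, b2, -, -, q1, q2, -, -, o, -⟩ := hB.planes
    refine Or.inr (Or.inr ⟨fun k => colMap (![p₁, p₁, p₁, p₂, p₂, p₂] k) (![u₀, a', a'', u₀, a', a''] k),
      pure_li (D := D) (fun k => ?_) (fun k l hkl => ?_), fun k => ?_⟩)
    · fin_cases k <;> simp [q1, q2, hU₀.n0, hU₀.n1, hU₀.n2]
    · fin_cases k <;> fin_cases l <;> first
        | exact absurd rfl hkl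
        | simp [o, D.hg.symm p₂ p₁, hU₀.h01, hU₀.h02, hU₀.h10, hU₀.h12, hU₀.h20, hU₀.h21]
    · rw [hact]; fin_cases k <;> simp [b1, b2]
  | splane t B ht hB hact =>
    obtain ⟨t', t'', hU⟩ := exists_uframe ht
    obtain ⟨p₁, p₂, n₁, n₂, b1, b2, c1, c2, q1, q2, r1, r2, o, o'⟩ := hB.planes
    refine Or.inr (Or.inr ⟨fun k => colMap (![p₁, p₂, n₁, n₂, n₁, n₂] k) (![t, t, t', t', t'', t''] k),
      pure_li (D := D) (fun k => ?_) (fun k l hkl => ?_), fun k => ?_⟩)
    · fin_cases k <;> simp [q1, q2, r1, r2, hU.n0, hU.n1, hU.n2]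
    · fin_cases k <;> fin_cases l <;> first
        | exact absurd rfl hkl
        | simp [o, o', D.hg.symm p₂ p₁, D.hg.symm n₂ n₁, hU.h01, hU.h02, hU.h10, hU.h12, hU.h20, hU.h21]
    · rw [hact]
      fin_cases k <;> simp [b1, b2, c1, c2, sigA_self ht, sigA_perp hU.h01, sigA_perp hU.h02, col_neg,
        map_neg]

/-- A conjugate of `(-r_u) ⊗ 1` preserving the decomposition is one of these involutions. -/
theorem sig_of_conj (h : Ctx D M) {u : Fin 3 → F} (hu : D.f u u ≠ 0) {s g x : OQ D.Q}
    (hs : Acts s.1 (sigA D u) 1) (hx : x = g * s * g⁻¹) (hxM : x ∈ M) (hxT : Tens x.1) :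
    ∃ t, D.f t t ≠ 0 ∧ Acts x.1 (sigA D t) 1 := by
  have hs2 : s * s = 1 := Acts.ext ((hs.mul hs).congr (sigA_sq hu) (one_mul 1)) acts_one
  have hx2 : x * x = 1 := by
    rw [hx, show g * s * g⁻¹ * (g * s * g⁻¹) = g * (s * s) * g⁻¹ by group, hs2]; group
  rcases (kind_of_invol h hxM hxT hx2).many_fixed h with h1 | h1 | ⟨c, hc, hfix⟩
  · exact h1
  · exfalso
    obtain ⟨v, v', z₁, z₂, hW⟩ := exists_wframe h
    have hz : z₁ ≠ 0 := fun e => hW.a1 (by simp [e])
    have e : x.1 (g.1 (colMap z₁ u)) = g.1 (colMap z₁ u) := by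
      rw [hx, Subgroup.coe_mul, Subgroup.coe_mul, LinearEquiv.mul_apply, LinearEquiv.mul_apply,
        show g⁻¹.1 (g.1 (colMap z₁ u)) = colMap z₁ u from g.1.symm_apply_apply _, hs, sigA_self hu]
      rfl
    have hn : ∀ X, x.1 X = -X := fun X => ext_colMap (φ := x.1.toLinearMap) (ψ := -LinearMap.id)
      (fun w p => by
        rw [LinearEquiv.coe_coe, h1]
        simp [col_neg]) X
    rw [hn] at e
    have h0 : (2 : F) • g.1 (colMap z₁ u) = 0 := by
      rw [two_smul]; nth_rw 1 [← e]; exact neg_add_cancel _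
    have := (smul_eq_zero.1 h0).resolve_left D.hg.two
    rw [g.1.map_eq_zero_iff] at this
    exact col_ne_zero hz (fun e => hu (by simp [e])) this
  · exact absurd (card_fixed_le hu hs hx hc hfix) (by norm_num)

end Cfsg.Agent.MaxSub.OrthTwelve
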