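import Cfsg.Agent.MaxSub.OrthTwelve.Unip
import Cfsg.Agent.Coprime.Generation

/-!
Without root elements, a member mapping the tensors of one anisotropic vector onto those of another
preserves the decomposition.
-/

set_option autoImplicit false
set_option linter.unusedSectionVars false

namespace Cfsg.Agent.MaxSub.OrthTwelve

open Module Matrix QuadraticMap Cfsg.Agent.MaxSub.TensorMax Cfsg.Agent.MaxSub.OrthTensor
open Cfsg.Agent.Classical

variable {F : Type*} [Field F] [Finite F] {D : TD F 3 4} {M : Subgroup (OQ D.Q)}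
  {v v' z₁ z₂ : Fin 4 → F}

/-- An isometry of the three-dimensional factor of exponent `p` fixing an anisotropic vector is
trivial. -/
lemma isom_pow_eq_one {p : ℕ} (hp : p.Prime) [CharP F p] {u : Fin 3 → F} (hu : D.f u u ≠ 0)
    {A : Module.End F (Fin 3 → F)} (hA : ∀ a b, D.f (A a) (A b) = D.f a b) (hAu : A u = u)
    (hAp : A ^ p = 1) : A = 1 := by
  haveI : Fact p.Prime := ⟨hp⟩
  haveI : CharP (Module.End F (Fin 3 → F)) p := charP_of_injective_algebraMap
    (algebraMap F (Module.End F (Fin 3 → F))).injective p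
  set N := A - 1 with hN
  have hNp : N ^ p = 0 := by
    have h1 := sub_pow_char_pow_of_commute (p := p) 1 (Commute.one_right A)
    rw [pow_one, one_pow, hAp, sub_self] at h1
    exact h1
  have hAN : ∀ x, A x = x + N x := fun x => by simp [hN]
  have hNu : N u = 0 := by simp [hN, hAu]
  have hperp : ∀ x, D.f u (N x) = 0 := fun x => by
    rw [hN, LinearMap.sub_apply, Module.End.one_apply, map_sub]
    nth_rw 1 [← hAu]
    rw [hA, sub_self]
  -- a fixed vector orthogonal to `u`
  obtain ⟨a, hua, ha0, hNa⟩ : ∃ a, D.f u a = 0 ∧ a ≠ 0 ∧ N a = 0 := by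
    obtain ⟨x, hx, hxp⟩ := Sym.exists_perp_avoid (g := D.f) ![u] ⊥ (by
      rw [finrank_bot, finrank_fin_fun]; omega)
    have hex : ∃ n, (N ^ n) x = 0 := ⟨p, by rw [hNp]; rfl⟩
    classical
    have hn0 : Nat.find hex ≠ 0 := fun e => hx ((Submodule.mem_bot F).2 (by
      have := Nat.find_spec hex; rw [e, pow_zero] at this; exact this))
    obtain ⟨n, hn⟩ := Nat.exists_eq_succ_of_ne_zero hn0
    refine ⟨(N ^ n) x, ?_, Nat.find_min hex (by omega), ?_⟩
    · cases n with
      | zero => exact hxp 0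
      | succ m => rw [pow_succ', Module.End.mul_apply]; exact hperp _
    · have := Nat.find_spec hex
      rwa [hn, Nat.succ_eq_add_one, pow_succ', Module.End.mul_apply] at this
  -- the orthogonal of `u` and `a` is a line
  set T := LinearMap.ker (LinearMap.pi fun i => D.f (![u, a] i)) with hT
  have hT1 : finrank F T = 1 := by
    have hs := LinearMap.finrank_range_add_finrank_ker (LinearMap.pi fun i => D.f (![u, a] i))
    have hr : LinearMap.range (LinearMap.pi fun i => D.f (![u, a] i)) = ⊤ := by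
      have ha' : a ∉ F ∙ u := fun hm => by
        obtain ⟨t, rfl⟩ := Submodule.mem_span_singleton.1 hm
        simp [hu] at hua
        exact ha0 (by rw [hua, zero_smul])
      have hu' : u ∉ F ∙ a := fun hm => by
        obtain ⟨t, ht⟩ := Submodule.mem_span_singleton.1 hm
        exact hu (by nth_rw 2 [← ht]; rw [map_smul, hua, smul_zero])
      obtain ⟨c, hc, hcS⟩ := D.hf.exists_pair_sub hu'
      obtain ⟨d, hd, hdS⟩ := D.hf.exists_pair_sub ha'
      refine eq_top_iff.2 fun r _ => ⟨r 0 • c + r 1 • d, funext fun i => ?_⟩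
      have e1 := hcS a (Submodule.mem_span_singleton_self a)
      have e2 := hdS u (Submodule.mem_span_singleton_self u)
      fin_cases i <;> simp [hc, hd, e1, e2]
    rw [hr, finrank_top, finrank_fin_fun, finrank_fin_fun] at hs
    change _ + finrank F T = _ at hs
    omega
  obtain ⟨⟨b, hb⟩, hb0, hall⟩ := finrank_eq_one_iff'.1 hT1
  have hb0' : b ≠ 0 := fun e => hb0 (Subtype.ext e)
  have hNT : ∀ x, ∃ c : F, N x = c • b := fun x => by
    have hx : N x ∈ T := LinearMap.mem_ker.2 (funext fun i => by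
      fin_cases i
      · exact hperp x
      · show D.f a (N x) = 0
        have h1 := hA a x
        rw [hAN a, hNa, add_zero, hAN x, map_add, add_eq_left] at h1
        exact h1)
    obtain ⟨c, hc⟩ := hall ⟨N x, hx⟩
    exact ⟨c, (congrArg Subtype.val hc).symm⟩
  choose φ hφ using hNT
  have hNb : N b = 0 := by
    have h1 : ∀ n, (N ^ n) b = φ b ^ n • b := fun n => by
      induction n with
      | zero => simp
      | succ n ih => rw [pow_succ', Module.End.mul_apply, ih, map_smul, hφ b, smul_smul, pow_succ]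
    have h2 := h1 p
    rw [hNp, LinearMap.zero_apply, eq_comm, smul_eq_zero] at h2
    rw [hφ b, pow_eq_zero_iff (hp.ne_zero) |>.1 (h2.resolve_right hb0'), zero_smul]
  have hkey : ∀ x, φ x * D.f b x = 0 := fun x => by
    have e1 := hA x b
    rw [hAN b, hNb, add_zero, hAN x, map_add, LinearMap.add_apply, add_eq_left, hφ] at e1
    have e2 := hA x x
    rw [hAN x, hφ] at e2
    simp only [map_add, map_smul, LinearMap.add_apply, LinearMap.smul_apply, smul_eq_mul,
      D.hf.symm x b] at e1 e2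
    have : (2 : F) * (φ x * D.f b x) = 0 := by linear_combination e2 - φ x * e1
    exact (mul_eq_zero.1 this).resolve_left D.hf.two
  obtain ⟨x₀, hx₀⟩ : ∃ x₀, D.f b x₀ ≠ 0 := by
    by_contra hc
    push Not at hc
    exact hb0' (D.hf.nd b hc)
  have hN0 : ∀ x, D.f b x ≠ 0 → N x = 0 := fun x hx => by
    rw [hφ, (mul_eq_zero.1 (hkey x)).resolve_right hx, zero_smul]
  refine sub_eq_zero.1 (LinearMap.ext fun x => ?_)
  show N x = 0
  by_cases hx : D.f b x = 0
  · have h1 := hN0 (x + x₀) (by rw [map_add, hx, zero_add]; exact hx₀)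
    rwa [map_add, hN0 x₀ hx₀, add_zero] at h1
  · exact hN0 x hx

lemma Acts.pow {k : OQ D.Q} {A : Module.End F (Fin 3 → F)} {B : Module.End F (Fin 4 → F)}
    (h : Acts k.1 A B) : ∀ n : ℕ, Acts (k ^ n).1 (A ^ n) (B ^ n)
  | 0 => acts_one
  | n + 1 => by rw [pow_succ, pow_succ, pow_succ]; exact (Acts.pow h n).mul h

lemma acts_left_inj {k : OQ D.Q} {A A' : Module.End F (Fin 3 → F)} (hW : WFrame D v v' z₁ z₂)
    (h : Acts k.1 A 1) (h' : Acts k.1 A' 1) : A = A' :=
  LinearMap.ext fun u => colMap_injective hW.v_ne ((h v u).symm.trans (h' v u))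

lemma acts_isom {k : OQ D.Q} {A : Module.End F (Fin 3 → F)} (hW : WFrame D v v' z₁ z₂)
    (h : Acts k.1 A 1) (a b : Fin 3 → F) : D.f (A a) (A b) = D.f a b := by
  have := OQ_polar k (colMap v' a) (colMap v b)
  rw [h, h] at this
  simpa [TD.polar_col_col, hW.v'v] using this

/-- A member `A ⊗ 1` of exponent `p` fixing the tensors of an anisotropic vector is trivial. -/
lemma left_pow_eq_one (hW : WFrame D v v' z₁ z₂) {p : ℕ} (hp : p.Prime) [CharP F p]
    {u : Fin 3 → F} (hu : D.f u u ≠ 0) {k : OQ D.Q} {A : Module.End F (Fin 3 → F)}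
    (h : Acts k.1 A 1) (hAu : A u = u) (hkp : k ^ p = 1) : k = 1 := by
  have hA : A ^ p = 1 := acts_left_inj hW (by simpa [hkp] using h.pow p) acts_one
  have := isom_pow_eq_one hp hu (acts_isom hW h) hAu hA
  exact Acts.ext (h.congr this rfl) acts_one

/-- The Eichler transformations at `v` with vectors orthogonal to `v'`. -/
def eichGroup (M : Subgroup (OQ D.Q)) (hW : WFrame D v v' z₁ z₂) : Subgroup (OQ D.Q) where
  carrier := {m | m ∈ M ∧ ∃ y, D.g v y = 0 ∧ D.g v' y = 0 ∧ Acts m.1 1 (1 + sie D.g v y)}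
  one_mem' := ⟨one_mem M, 0, by simp, by simp, by rw [Sym.sie_zero, add_zero]; exact acts_one⟩
  mul_mem' := fun {a b} ⟨ha, y, hy, hy', h⟩ ⟨hb, x, hx, hx', k⟩ => ⟨mul_mem ha hb, y + x,
    by simp [hy, hx], by simp [hy', hx'],
    (h.mul k).congr (one_mul 1) (D.hg.sie_comp hW.hyp.1 hy hx)⟩
  inv_mem' := fun {a} ⟨ha, y, hy, hy', h⟩ => by
    have hp : ∀ n : ℕ, ∃ x, D.g v x = 0 ∧ D.g v' x = 0 ∧ Acts (a ^ n).1 1 (1 + sie D.g v x) :=
      fun n => by
      induction n with
      | zero => exact ⟨0, by simp, by simp, by rw [Sym.sie_zero, add_zero, pow_zero]; exact acts_one⟩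
      | succ n ih =>
        obtain ⟨x, hx, hx', hk⟩ := ih
        exact ⟨x + y, by simp [hy, hx], by simp [hy', hx'], by
          rw [pow_succ]; exact (hk.mul h).congr (one_mul 1) (D.hg.sie_comp hW.hyp.1 hx hy)⟩
    obtain ⟨n, hn⟩ := (IsOfFinOrder.mem_powers_iff_mem_zpowers (isOfFinOrder_of_finite a)).2
      ((Subgroup.zpowers a).inv_mem (Subgroup.mem_zpowers a))
    refine ⟨inv_mem ha, ?_⟩
    have := hp n
    simp only at hn
    rwa [hn] at this

lemma eich_apply {m : OQ D.Q} {y : Fin 4 → F} (h : Acts m.1 1 (1 + sie D.g v y))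
    (X : Matrix (Fin 3) (Fin 4) F) : m.1 X = X + D.sieW v y X :=
  ext_colMap (φ := m.1.toLinearMap) (ψ := 1 + D.sieW v y) (fun w p => by
    rw [LinearEquiv.coe_coe, h, TD.sieW_col]; simp) X

lemma sie_at_v' (hW : WFrame D v v' z₁ z₂) {y : Fin 4 → F} (hy' : D.g v' y = 0) :
    (1 + sie D.g v y) v' = v' + y - (D.g y y / 2) • v := by
  simp [sie_apply, hW.hyp.2.2, D.hg.symm y v', hy']
  abel

lemma eich_y_ext (hW : WFrame D v v' z₁ z₂) {m : OQ D.Q} {y y' : Fin 4 → F}
    (hy' : D.g v' y = 0) (hx' : D.g v' y' = 0) (h : Acts m.1 1 (1 + sie D.g v y))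
    (h' : Acts m.1 1 (1 + sie D.g v y')) : y = y' := by
  obtain ⟨u, hu⟩ : ∃ u : Fin 3 → F, u ≠ 0 := exists_ne 0
  have h1 := (h v' u).symm.trans (h' v' u)
  rw [sie_at_v' hW hy', sie_at_v' hW hx', Module.End.one_apply] at h1
  have e1 := congrArg (D.row z₁) h1
  have e2 := congrArg (D.row z₂) h1
  rw [TD.row_col, TD.row_col] at e1 e2
  have f1 := smul_left_injective F hu e1
  have f2 := smul_left_injective F hu e2
  have h0 : D.g v' (y - y') = 0 := by simp [hy', hx']
  have h3 : D.g v (v' + y - (D.g y y / 2) • v - (v' + y' - (D.g y' y' / 2) • v)) = D.g v (y - y') := by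
    simp [hW.hyp.1]
  simp [hW.u1, hW.u2, hW.x1, hW.x2, D.hg.symm _ z₁, D.hg.symm _ z₂] at f1 f2
  refine sub_eq_zero.1 ?_
  have h4 : D.g v (y - y') = 0 := by
    obtain ⟨t, ht⟩ := col_eq_col h1 hu
    have hg1 := congrArg (D.g v') ht
    have e3 := congrArg (D.row v) h1
    rw [TD.row_col, TD.row_col] at e3
    have f3 := smul_left_injective F hu e3
    simp [D.hg.symm _ v, hW.hyp.1] at f3
    rw [map_sub, sub_eq_zero]
    exact f3
  rw [hW.decomp (y - y'), h0, h4]
  simp [f1, f2]

variable (h : Ctx D M) (hno : NoRoot M)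
include h hno

/-- Members fixing the tensors of an anisotropic vector act on the first factor. -/
theorem fix_tens {u : Fin 3 → F} (hu : D.f u u ≠ 0) {k : OQ D.Q} (hk : k ∈ M)
    (hfix : ∀ w, k.1 (colMap w u) = colMap w u) : ∃ A, Acts k.1 A 1 ∧ A u = u := by
  classical
  obtain ⟨v, v', z₁, z₂, hW⟩ := exists_wframe h
  obtain ⟨p, hp, hodd, h3, hchar⟩ := exists_char D
  haveI := hchar
  haveI : Fact p.Prime := ⟨hp⟩
  let K : Subgroup (OQ D.Q) :=
    { carrier := {k | k ∈ M ∧ ∀ w, k.1 (colMap w u) = colMap w u}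
      one_mem' := ⟨one_mem M, fun w => rfl⟩
      mul_mem' := fun {a b} ⟨ha, ha'⟩ ⟨hb, hb'⟩ => ⟨mul_mem ha hb, fun w => by
        rw [Subgroup.coe_mul, LinearEquiv.mul_apply, hb', ha']⟩
      inv_mem' := fun {a} ⟨ha, ha'⟩ => ⟨inv_mem ha, fun w => by
        conv_lhs => rw [← ha' w]
        exact a.1.symm_apply_apply _⟩ }
  let E := eichGroup M hW
  have hEM : ∀ m ∈ E, m ∈ M := fun m hm => hm.1
  have hnorm : ∀ m ∈ E, ∀ x ∈ K, m * x * m⁻¹ ∈ K := by
    rintro m hm x ⟨hx, hx'⟩
    obtain ⟨-, y, hy, hy', hact⟩ := (inv_mem hm : m⁻¹ ∈ E)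
    refine ⟨mul_mem (mul_mem (hEM m hm) hx) (inv_mem (hEM m hm)), fun w => ?_⟩
    rw [Subgroup.coe_mul, Subgroup.coe_mul, LinearEquiv.mul_apply, LinearEquiv.mul_apply, hact,
      Module.End.one_apply, hx']
    have : m.1 * m⁻¹.1 = 1 := by rw [← Subgroup.coe_mul, mul_inv_cancel, Subgroup.coe_one]
    have h2 := LinearEquiv.congr_fun this (colMap w u)
    rw [LinearEquiv.mul_apply, hact] at h2
    exact h2
  have hexp : ∀ m ∈ E, m ^ p = 1 := by
    rintro m ⟨-, y, hy, hy', hact⟩
    have hn : ∀ n : ℕ, Acts (m ^ n).1 1 (1 + sie D.g v ((n : F) • y)) := fun n => by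
      induction n with
      | zero => rw [pow_zero, Nat.cast_zero, zero_smul, Sym.sie_zero, add_zero]; exact acts_one
      | succ n ih =>
        rw [pow_succ, Nat.cast_succ, add_smul, one_smul]
        exact (ih.mul hact).congr (one_mul 1) (D.hg.sie_comp hW.hyp.1 (by simp [hy]) hy)
    have := hn p
    rw [CharP.cast_eq_zero F p, zero_smul, Sym.sie_zero, add_zero] at this
    exact Acts.ext this acts_one
  have hcommE : ∀ m ∈ E, ∀ n ∈ E, m * n = n * m := by
    rintro m ⟨-, y, hy, hy', ha⟩ n ⟨-, x, hx, hx', hb⟩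
    exact Acts.ext ((ha.mul hb).congr (one_mul 1) (D.hg.sie_comp hW.hyp.1 hy hx))
      ((hb.mul ha).congr (one_mul 1) (by rw [D.hg.sie_comp hW.hyp.1 hx hy, add_comm y x]))
  -- the fixed points
  have hfixA : ∀ x ∈ K, (∀ m ∈ E, m * x = x * m) → ∃ A, Acts x.1 A 1 ∧ A u = u := by
    rintro x ⟨hx, hx'⟩ hc
    refine fix_acts h hno hW hu hx hx' fun y hy hy' X => ?_
    obtain ⟨m, hm, hact, -⟩ := h.right_mem hW.hyp.1 hy
    have e := hc m ⟨hm, y, hy, hy', hact⟩
    have e' := congrArg (fun g : OQ D.Q => g.1 X) e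
    simp only [Subgroup.coe_mul, LinearEquiv.mul_apply, eich_apply hact, map_add] at e'
    exact (add_left_cancel e').symm
  -- `K` has order prime to `p`
  have hKp : ¬ p ∣ Nat.card K := by
    intro hdvd
    let act : MulAction E K :=
      { smul := fun m x => ⟨(m : OQ D.Q) * x.1 * (m : OQ D.Q)⁻¹, hnorm _ m.2 _ x.2⟩
        one_smul := fun x => Subtype.ext (by
          show (1 : OQ D.Q) * x.1 * (1 : OQ D.Q)⁻¹ = x.1; group)
        mul_smul := fun m n x => Subtype.ext (by
          show ((m * n : E) : OQ D.Q) * x.1 * ((m * n : E) : OQ D.Q)⁻¹ =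
            (m : OQ D.Q) * ((n : OQ D.Q) * x.1 * (n : OQ D.Q)⁻¹) * (m : OQ D.Q)⁻¹
          push_cast
          group) }
    have hE : IsPGroup p E := fun m => ⟨1, Subtype.ext (by
      rw [pow_one, Subgroup.coe_pow]; exact hexp m.1 m.2)⟩
    have hmod := @IsPGroup.card_modEq_card_fixedPoints p E _ hE _ K act _
    have hfp : Nat.card (@MulAction.fixedPoints E K _ act) =
        Nat.card ↥(K ⊓ Subgroup.centralizer (E : Set (OQ D.Q))) :=
      Nat.card_congr
        { toFun := fun x => ⟨x.1.1, x.1.2, Subgroup.mem_centralizer_iff.2 fun m hm => by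
            have h1 : m * x.1.1 * m⁻¹ = x.1.1 := congrArg Subtype.val (x.2 ⟨m, hm⟩)
            exact mul_inv_eq_iff_eq_mul.1 h1⟩
          invFun := fun x => ⟨⟨x.1, x.2.1⟩, fun m => Subtype.ext (by
            show (m : OQ D.Q) * x.1 * (m : OQ D.Q)⁻¹ = x.1
            rw [Subgroup.mem_centralizer_iff.1 x.2.2 _ m.2, mul_inv_cancel_right])⟩
          left_inv := fun x => rfl
          right_inv := fun x => rfl }
    rw [hfp] at hmod
    obtain ⟨x, hx⟩ := exists_prime_orderOf_dvd_card' p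
      ((Nat.ModEq.dvd_iff hmod dvd_rfl).1 hdvd)
    have hxp : x.1 ^ p = 1 := by rw [← hx, orderOf_submonoid x |>.symm]; exact pow_orderOf_eq_one _
    obtain ⟨A, hA, hAu⟩ := hfixA x.1 x.2.1 fun m hm => Subgroup.mem_centralizer_iff.1 x.2.2 m hm
    have h1 := left_pow_eq_one hW hp hu hA hAu hxp
    have h2 : x = 1 := Subtype.ext h1
    rw [h2, orderOf_one] at hx
    exact hp.ne_one hx.symm
  -- the centraliser in `K` of one element centralises all
  have hone : ∀ m ∈ E, m ≠ 1 → ∀ x ∈ K, m * x = x * m → ∀ n ∈ E, n * x = x * n := by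
    rintro m ⟨-, y, hy, hy', hact⟩ hm1 x hxK hmx n ⟨hnM, y', hx, hx', hact'⟩
    have hyy : D.g y y ≠ 0 := fun e => hm1 (Acts.ext (hact.congr rfl (by
      have hd := hW.decomp y
      rw [hy, hy', zero_smul, zero_smul, zero_add, zero_add] at hd
      rw [hd] at e
      obtain ⟨s0, t0⟩ := hW.aniso (D.g z₁ y / D.g z₁ z₁) (D.g z₂ y / D.g z₂ z₂) (by
        simp [hW.z12, hW.z21] at e
        linear_combination e)
      rw [hd, s0, t0, zero_smul, zero_smul, add_zero, Sym.sie_zero, add_zero])) acts_one)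
    have hN : ∀ X, x.1 (D.sieW v y X) = D.sieW v y (x.1 X) := fun X => by
      have e' := congrArg (fun g : OQ D.Q => g.1 X) hmx
      simp only [Subgroup.coe_mul, LinearEquiv.mul_apply, eich_apply hact, map_add] at e'
      exact (add_left_cancel e').symm
    have sq : ∀ X, D.sieW v y (D.sieW v y X) = -(D.g y y • colMap v (D.row v X)) := fun X => by
      simp [sieW_apply, map_sub, map_smul, TD.row_col, hW.hyp.1, hy, D.hg.symm y v,
        D.hg.symm v y]
    have hF1 : ∀ b, ∃ b', x.1 (colMap v b) = colMap v b' := fun b => by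
      have h1 : colMap v b = D.sieW v y (D.sieW v y (colMap v' (-((D.g y y)⁻¹ • b)))) := by
        rw [sq, TD.row_col, hW.v'v, one_smul, map_neg, smul_neg, neg_neg, map_smul, smul_smul,
          mul_inv_cancel₀ hyy, one_smul]
      rw [h1, hN, hN, sq]
      exact ⟨-(D.g y y • D.row v (x.1 (colMap v' (-((D.g y y)⁻¹ • b))))), by simp⟩
    have hF2 : ∀ X, D.row v X = 0 → D.row v (x.1 X) = 0 := fun X hX => by
      have h1 : D.sieW v y (D.sieW v y (x.1 X)) = 0 := by
        rw [← hN, ← hN, sq, hX, map_zero, smul_zero, neg_zero, map_zero]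
      rw [sq, neg_eq_zero, smul_eq_zero] at h1
      exact colMap_injective hW.v_ne (by rw [h1.resolve_left hyy, map_zero])
    let Fl : OQ D.Q → Prop := fun g => (∀ X, D.row v (g.1 X - X) = 0) ∧
      (∀ X, D.row v X = 0 → ∃ b, g.1 X - X = colMap v b) ∧ ∀ b, g.1 (colMap v b) = colMap v b
    have hEich : ∀ {n : OQ D.Q} {y' : Fin 4 → F}, D.g v y' = 0 → Acts n.1 1 (1 + sie D.g v y') →
        Fl n := fun {n y'} hy hact => by
      refine ⟨fun X => ?_, fun X hX => ?_, fun b => ?_⟩
      · rw [eich_apply hact, add_sub_cancel_left, sieW_apply]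
        simp [map_sub, map_smul, TD.row_col, hW.hyp.1, D.hg.symm y' v, hy]
      · rw [eich_apply hact, add_sub_cancel_left, sieW_apply, hX]
        exact ⟨-D.row y' X, by simp⟩
      · rw [eich_apply hact, sieW_apply, TD.row_col, TD.row_col, hW.hyp.1, D.hg.symm v y']
        simp [D.hg.symm y' v, hy]
    have hconj : ∀ {n : OQ D.Q}, Fl n → Fl (x * n * x⁻¹) := by
      rintro n ⟨a, b, c⟩
      have hi : ∀ Y, (x * n * x⁻¹).1 Y = x.1 (n.1 (x⁻¹.1 Y)) := fun Y => rfl
      have hxi : ∀ Y, x.1 (x⁻¹.1 Y) = Y := fun Y => x.1.apply_symm_apply Y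
      have hinj1 : ∀ b, ∃ b', x⁻¹.1 (colMap v b) = colMap v b' := by
        have hsurj : Function.Surjective fun b => Classical.choose (hF1 b) := by
          refine Finite.surjective_of_injective fun b b' e => colMap_injective hW.v_ne
            (x.1.injective ?_)
          rw [Classical.choose_spec (hF1 b), Classical.choose_spec (hF1 b')]
          exact congrArg _ e
        intro b
        obtain ⟨b', hb'⟩ := hsurj b
        refine ⟨b', x.1.injective ?_⟩
        rw [hxi, Classical.choose_spec (hF1 b'), ← hb']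
      have hinj2 : ∀ Y, D.row v Y = 0 → D.row v (x⁻¹.1 Y) = 0 := by
        haveI : Finite (Matrix (Fin 3) (Fin 4) F) := Module.finite_of_finite F
        have hsurj : Function.Surjective
            (fun Y : {Y // D.row v Y = 0} => (⟨x.1 Y.1, hF2 Y.1 Y.2⟩ : {Y // D.row v Y = 0})) :=
          Finite.surjective_of_injective fun Y Y' e =>
            Subtype.ext (x.1.injective (congrArg Subtype.val e))
        intro Y hY
        obtain ⟨Y', hY'⟩ := hsurj ⟨Y, hY⟩
        have : x⁻¹.1 Y = Y'.1 := x.1.injective (by rw [hxi]; exact (congrArg Subtype.val hY').symm)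
        rw [this]; exact Y'.2
      refine ⟨fun Y => ?_, fun Y hY => ?_, fun b' => ?_⟩
      · rw [hi]; nth_rw 2 [← hxi Y]; rw [← map_sub]; exact hF2 _ (a _)
      · rw [hi]; nth_rw 2 [← hxi Y]; rw [← map_sub]
        obtain ⟨b', hb'⟩ := b _ (hinj2 Y hY)
        obtain ⟨b'', hb''⟩ := hF1 b'
        exact ⟨b'', by rw [hb', hb'']⟩
      · obtain ⟨b'', hb''⟩ := hinj1 b'
        rw [hi, hb'', c, ← hb'', hxi]
    have hmul : ∀ {n n' : OQ D.Q}, Fl n → Fl n' → Fl (n * n') := by
      rintro n n' ⟨a, b, c⟩ ⟨a', b', c'⟩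
      have hi : ∀ Y, (n * n').1 Y = n.1 (n'.1 Y) := fun Y => rfl
      refine ⟨fun Y => ?_, fun Y hY => ?_, fun z => by rw [hi, c', c]⟩
      · rw [hi, show n.1 (n'.1 Y) - Y = (n.1 (n'.1 Y) - n'.1 Y) + (n'.1 Y - Y) by abel, map_add,
          a, a', add_zero]
      · obtain ⟨e1, he1⟩ := b' Y hY
        obtain ⟨e2, he2⟩ := b (n'.1 Y) (by
          have := a' Y; rw [map_sub, hY, sub_zero] at this; exact this)
        refine ⟨e2 + e1, ?_⟩
        rw [hi, map_add, ← he1, ← he2]; abel
    have hninv : Fl n⁻¹ := by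
      obtain ⟨-, y'', h1, h2, h3⟩ := (inv_mem (show n ∈ E from ⟨hnM, y', hx, hx', hact'⟩) : n⁻¹ ∈ E)
      exact hEich h1 h3
    set c := x * n * x⁻¹ * n⁻¹ with hc
    have hFc : Fl c := hmul (hconj (hEich hx hact')) hninv
    obtain ⟨f1, f2, f3⟩ := hFc
    let L : Module.End F (Matrix (Fin 3) (Fin 4) F) := c.1.toLinearMap - 1
    have hL : ∀ X, c.1 X = X + L X := fun X => by simp [L]
    have hL3 : L ^ 3 = 0 := LinearMap.ext fun X => by
      show L (L (L X)) = 0
      have g1 : D.row v (L X) = 0 := f1 X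
      obtain ⟨b, hb⟩ := f2 _ g1
      have g2 : L (L X) = colMap v b := hb
      rw [g2]
      show c.1 (colMap v b) - colMap v b = 0
      rw [f3, sub_self]
    have hcK : c ∈ K := by
      have e : c = x * (n * x⁻¹ * n⁻¹) := by rw [hc]; group
      rw [e]
      exact mul_mem hxK (hnorm n ⟨hnM, y', hx, hx', hact'⟩ _ (inv_mem hxK))
    have hcp := pow_char_eq_one hp h3 hL hL3
    have hc1 : c = 1 := by
      have h1 : orderOf c ∣ p := orderOf_dvd_of_pow_eq_one hcp
      have h2 : orderOf c ∣ Nat.card K := Subgroup.orderOf_dvd_natCard K hcK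
      rcases (Nat.dvd_prime hp).1 h1 with e | e
      · exact orderOf_eq_one_iff.1 e
      · exact absurd (e ▸ h2) hKp
    exact (mul_inv_eq_iff_eq_mul.1 (mul_inv_eq_one.1 hc1)).symm
  -- generation
  haveI : IsMulCommutative E := ⟨⟨fun a b => Subtype.ext (hcommE a.1 a.2 b.1 b.2)⟩⟩
  have hnc : ¬ IsCyclic E := by
    intro hcyc
    obtain ⟨m₁, hm₁, ha₁, -⟩ := h.right_mem hW.hyp.1 hW.v1
    obtain ⟨m₂, hm₂, ha₂, -⟩ := h.right_mem hW.hyp.1 hW.v2
    obtain ⟨⟨g, hgM, y₀, hy, hy', hact⟩, hgen⟩ := IsCyclic.exists_generator (α := E)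
    have hn : ∀ n : ℕ, Acts (g ^ n).1 1 (1 + sie D.g v ((n : F) • y₀)) := fun n => by
      induction n with
      | zero => rw [pow_zero, Nat.cast_zero, zero_smul, Sym.sie_zero, add_zero]; exact acts_one
      | succ n ih =>
        rw [pow_succ, Nat.cast_succ, add_smul, one_smul]
        exact (ih.mul hact).congr (one_mul 1) (D.hg.sie_comp hW.hyp.1 (by simp [hy]) hy)
    have key : ∀ z (m : E), D.g v' z = 0 → Acts m.1.1 1 (1 + sie D.g v z) →
        ∃ t : F, z = t • y₀ := fun z m hz hm => by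
      obtain ⟨n, hn'⟩ := (IsOfFinOrder.mem_powers_iff_mem_zpowers (isOfFinOrder_of_finite _)).2 (hgen m)
      have := hn n
      have e : g ^ n = m.1 := congrArg Subtype.val hn'
      rw [e] at this
      exact ⟨n, eich_y_ext hW hz (by simp [hy']) hm this⟩
    obtain ⟨s, hs⟩ := key z₁ ⟨m₁, hm₁, z₁, hW.v1, hW.w1, ha₁⟩ hW.w1 ha₁
    obtain ⟨t, ht⟩ := key z₂ ⟨m₂, hm₂, z₂, hW.v2, hW.w2, ha₂⟩ hW.w2 ha₂
    have h12 := hW.z12
    rw [hs, ht] at h12
    have a1 := hW.a1
    have a2 := hW.a2
    rw [hs] at a1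
    rw [ht] at a2
    simp at h12 a1 a2
    rcases h12 with h' | h' | h'
    · exact a2.1 h'
    · exact a1.1 h'
    · exact a1.2 h'
  have hle : E ≤ Subgroup.normalizer (K : Set (OQ D.Q)) := fun m hm => by
    rw [Subgroup.mem_normalizer_iff]
    refine fun x => ⟨hnorm m hm x, fun hx => ?_⟩
    have := hnorm m⁻¹ (inv_mem hm) _ hx
    rwa [show m⁻¹ * (m * x * m⁻¹) * m⁻¹⁻¹ = x by group] at this
  have hcop : (Nat.card E).Coprime (Nat.card K) := by
    have hE : IsPGroup p E := fun m => ⟨1, Subtype.ext (by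
      rw [pow_one, Subgroup.coe_pow]; exact hexp m.1 m.2)⟩
    obtain ⟨n, hn⟩ := IsPGroup.iff_card.1 hE
    rw [hn]
    exact Nat.Coprime.pow_left _ (hp.coprime_iff_not_dvd.2 hKp)
  have hKle : K ≤ K ⊓ Subgroup.centralizer (E : Set (OQ D.Q)) := by
    conv_lhs => rw [← Coprime.iSup_centralizer_eq hnc hle hcop]
    refine iSup₂_le fun m hm x hx => ⟨hx.1, Subgroup.mem_centralizer_iff.2 fun n hn => ?_⟩
    exact hone m hm.1 hm.2 x hx.1 (Subgroup.mem_centralizer_iff.1 hx.2 m rfl) n hn
  have := hKle (show k ∈ K from ⟨hk, hfix⟩)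
  exact hfixA k ⟨hk, hfix⟩ fun m hm => Subgroup.mem_centralizer_iff.1 this.2 m hm

/-- Members mapping the tensors of one anisotropic vector to those of another. -/
theorem tens_of_map {u u' : Fin 3 → F} (hu : D.f u u ≠ 0) (hu' : D.f u' u' ≠ 0) {g : OQ D.Q}
    (hg : g ∈ M) (hmap : ∀ w, ∃ w', g.1 (colMap w u) = colMap w' u') : Tens g.1 := by
  classical
  obtain ⟨v, v', z₁, z₂, hW⟩ := exists_wframe h
  obtain ⟨p, hp, hodd, h3, hchar⟩ := exists_char D
  haveI := hchar
  have hu'0 : u' ≠ 0 := fun e => hu' (by simp [e])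
  obtain ⟨i, hi⟩ := Function.ne_iff.1 hu'0
  let B : Module.End F (Fin 4 → F) :=
    { toFun := fun w j => g.1 (colMap w u) i j / u' i
      map_add' := fun x y => funext fun j => by
        simp [TD.col_add, Matrix.add_apply, add_div]
      map_smul' := fun c x => funext fun j => by
        simp [colMap_smul_right, Matrix.smul_apply, mul_div_assoc] }
  have hB : ∀ w, g.1 (colMap w u) = colMap (B w) u' := fun w => by
    obtain ⟨w', hw'⟩ := hmap w
    have : B w = w' := funext fun j => by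
      show g.1 (colMap w u) i j / u' i = w' j
      rw [hw', colMap_apply, vecMulVec_apply, mul_div_assoc, mul_comm]
      exact div_mul_cancel₀ _ hi
    rw [this, hw']
  have hBg : ∀ a b, D.g (B a) (B b) = D.f u u / D.f u' u' * D.g a b := fun a b => by
    have := OQ_polar g (colMap a u) (colMap b u)
    rw [hB, hB, TD.polar_col_col, TD.polar_col_col] at this
    field_simp
    linear_combination this
  set μ := D.f u u / D.f u' u' with hμ
  have hμ0 : μ ≠ 0 := div_ne_zero hu hu'
  have hBinj : Function.Injective B := fun a b e => sub_eq_zero.1 (D.hg.nd _ fun r => by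
    have := hBg (a - b) r
    rw [map_sub B, e, sub_self, map_zero, LinearMap.zero_apply] at this
    exact (mul_eq_zero.1 this.symm).resolve_left hμ0)
  have hBsurj : Function.Surjective B := LinearMap.injective_iff_surjective.1 hBinj
  have hsie : ∀ a y w, B ((1 + sie D.g a y) w) = (1 + sie D.g (B a) (μ⁻¹ • B y)) (B w) := fun a y w => by
    simp only [LinearMap.add_apply, Module.End.one_apply, sie_apply, map_add, map_sub, map_smul,
      LinearMap.smul_apply, smul_eq_mul, hBg, smul_smul]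
    match_scalars <;> field_simp
  -- conjugates of Eichler transformations
  have hconj : ∀ a y, D.g a a = 0 → D.g a y = 0 → ∀ X,
      g.1 (X + D.sieW a y X) = g.1 X + D.sieW (B a) (μ⁻¹ • B y) (g.1 X) := by
    intro a y haa hay
    obtain ⟨m, hm, hact, hmX⟩ := h.right_mem haa hay
    obtain ⟨m', hm', hact', hm'X⟩ := h.right_mem (u := B a) (y := μ⁻¹ • B y)
      (by rw [hBg, haa, mul_zero]) (by rw [map_smul, hBg, hay, mul_zero, smul_zero])
    set k := m'⁻¹ * (g * m * g⁻¹) with hk
    have hkfix : ∀ w, k.1 (colMap w u') = colMap w u' := fun w => by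
      obtain ⟨x, rfl⟩ := hBsurj w
      refine m'.1.injective ?_
      have e1 : m'.1 (k.1 (colMap (B x) u')) = (g * m * g⁻¹).1 (colMap (B x) u') := by
        rw [← LinearEquiv.mul_apply, ← Subgroup.coe_mul, hk, mul_inv_cancel_left]
      rw [e1, hact', ← hsie, Module.End.one_apply]
      have e2 : g⁻¹.1 (colMap (B x) u') = colMap x u := g.1.injective (by
        rw [hB]; exact g.1.apply_symm_apply _)
      rw [Subgroup.coe_mul, Subgroup.coe_mul, LinearEquiv.mul_apply, LinearEquiv.mul_apply, e2, hact,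
        Module.End.one_apply, hB]
    obtain ⟨A, hA, hAu⟩ := fix_tens h hno hu' (mul_mem (inv_mem hm') (mul_mem (mul_mem hg hm)
      (inv_mem hg))) hkfix
    have hcommk : Commute m' k := Acts.ext ((hact'.mul hA).congr (one_mul A) (mul_one _))
      ((hA.mul hact').congr (mul_one A) (one_mul _))
    have pw : ∀ {m : OQ D.Q} {a y : Fin 4 → F}, D.g a a = 0 → D.g a y = 0 →
        Acts m.1 1 (1 + sie D.g a y) → m ^ p = 1 := fun {m a y} haa hay hact => by
      have hn : ∀ n : ℕ, Acts (m ^ n).1 1 (1 + sie D.g a ((n : F) • y)) := fun n => by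
        induction n with
        | zero => rw [pow_zero, Nat.cast_zero, zero_smul, Sym.sie_zero, add_zero]; exact acts_one
        | succ n ih =>
          rw [pow_succ, Nat.cast_succ, add_smul, one_smul]
          exact (ih.mul hact).congr (one_mul 1) (D.hg.sie_comp haa (by simp [hay]) hay)
      have := hn p
      rw [CharP.cast_eq_zero F p, zero_smul, Sym.sie_zero, add_zero] at this
      exact Acts.ext this acts_one
    have hp1 : m' ^ p = 1 := pw (by rw [hBg, haa, mul_zero])
      (by rw [map_smul, hBg, hay, mul_zero, smul_zero]) hact'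
    have hkp : k ^ p = 1 := by
      have e : g * m * g⁻¹ = m' * k := by rw [hk, mul_inv_cancel_left]
      have : (g * m * g⁻¹) ^ p = (m' * k) ^ p := by rw [e]
      rw [conj_pow, pw haa hay hact, mul_one, mul_inv_cancel, hcommk.mul_pow, hp1, one_mul] at this
      exact this.symm
    have hk1 := left_pow_eq_one hW hp hu' hA hAu hkp
    intro X
    have e : g * m = m' * g := by
      replace hk1 : m'⁻¹ * (g * m * g⁻¹) = 1 := hk1
      rw [inv_mul_eq_one] at hk1
      exact (eq_mul_inv_iff_mul_eq.1 hk1).symm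
    have := congrArg (fun x : OQ D.Q => x.1 X) e
    simp only [Subgroup.coe_mul, LinearEquiv.mul_apply, hmX, hm'X] at this
    exact this
  let Bi : Module.End F (Fin 4 → F) := (LinearEquiv.ofBijective B ⟨hBinj, hBsurj⟩).symm.toLinearMap
  have hBi : ∀ w, Bi (B w) = w := fun w => (LinearEquiv.ofBijective B ⟨hBinj, hBsurj⟩).symm_apply_apply w
  have hBi' : ∀ w, B (Bi w) = w := fun w => (LinearEquiv.ofBijective B ⟨hBinj, hBsurj⟩).apply_symm_apply w
  let Z : Module.End F (Matrix (Fin 3) (Fin 4) F) := rightMap Bi ∘ₗ g.1.toLinearMap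
  have hZ : ∀ a y, D.g a a = 0 → D.g a y = 0 → ∀ X, Z (D.sieW a y X) = D.sieW a y (Z X) := by
    intro a y haa hay X
    have h1 := hconj a y haa hay X
    rw [map_add, add_right_inj] at h1
    show rightMap Bi (g.1 (D.sieW a y X)) = D.sieW a y (rightMap Bi (g.1 X))
    rw [h1]
    refine ext_colMap (φ := rightMap Bi ∘ₗ D.sieW (B a) (μ⁻¹ • B y))
      (ψ := D.sieW a y ∘ₗ rightMap Bi) (fun w p => ?_) (g.1 X)
    obtain ⟨x, rfl⟩ := hBsurj w
    have e1 : ∀ (a' y' w' : Fin 4 → F), D.sieW a' y' (colMap w' p) = colMap (sie D.g a' y' w') p :=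
      fun a' y' w' => by
        have := TD.sieW_col (D := D) (u := a') (y := y') w' p
        rwa [LinearMap.add_apply, Module.End.one_apply, TD.col_add, add_right_inj] at this
    have e2 : sie D.g (B a) (μ⁻¹ • B y) (B x) = B (sie D.g a y x) := by
      have := hsie a y x
      simp only [LinearMap.add_apply, Module.End.one_apply, map_add, add_right_inj] at this
      exact this.symm
    simp only [LinearMap.comp_apply, e1, rightMap_colMap, e2, hBi]
  obtain ⟨A, hA⟩ := commutant_left hW (Z := Z) (fun y hy _ => hZ v y hW.hyp.1 hy)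
    (fun y hy _ => hZ v' y hW.hyp.2.1 hy)
  refine tens_iff.2 ⟨A, B, fun w b => ?_⟩
  have h1 : rightMap B (Z (colMap w b)) = g.1 (colMap w b) :=
    ext_colMap (φ := rightMap B ∘ₗ rightMap Bi) (ψ := LinearMap.id) (fun x q => by
      simp [rightMap_colMap, hBi']) (g.1 (colMap w b))
  rw [← h1, hA, rightMap_colMap]

end Cfsg.Agent.MaxSub.OrthTwelve
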