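import Cfsg.Agent.MaxSub.OrthTwelve.Plane

/-!
Without root elements every member preserves the decomposition; hence the stabiliser of a
decomposition `F^3 ⊗ F^4`, the second factor of minus type, is maximal in `Ω`.
-/

set_option autoImplicit false
set_option linter.unusedSectionVars false

namespace Cfsg.Agent.MaxSub.OrthTwelve

open Module Matrix QuadraticMap Cfsg.Agent.MaxSub.TensorMax Cfsg.Agent.MaxSub.OrthTensor
open Cfsg.Geo Cfsg.Agent.Classical
open Cfsg.Agent.GeoClasses (toQF oqToGL oqToGL_mulVec map_oqToGL_commutator bNondeg_toQF)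
open scoped Kronecker MatrixGroups

variable {F : Type*} [Field F] [Finite F] {D : TD F 3 4} {M : Subgroup (OQ D.Q)}

/-- The tensors orthogonal to all `u ⊗ w` are negated by `(-r_u) ⊗ 1`. -/
lemma sig_neg {u : Fin 3 → F} {s : OQ D.Q} (hs : Acts s.1 (sigA D u) 1)
    {Y : Matrix (Fin 3) (Fin 4) F} (hY : ∀ j, D.f u (fun i => Y i j) = 0) : s.1 Y = -Y := by
  have h1 : leftMap (sigA D u) Y = s.1 Y := by
    rw [hs.apply]
    congr 1
    exact (ext_colMap (φ := rightMap (1 : Module.End F (Fin 4 → F))) (ψ := LinearMap.id)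
      (fun w p => by rw [rightMap_colMap]; rfl) Y).symm
  refine Matrix.ext fun i j => ?_
  rw [← h1]
  have h2 : leftMap (sigA D u) Y i j = (LinearMap.toMatrix' (sigA D u) *ᵥ fun k => Y k j) i := rfl
  rw [h2, LinearMap.toMatrix'_mulVec, sigA_perp (hY j)]
  rfl

/-- An involution `1 ⊗ B` of the group with two eigen-planes. -/
lemma exists_plane_mem (h : Ctx D M) :
    ∃ z ∈ M, ∃ B, PlaneInvol D B ∧ Acts z.1 1 B := by
  classical
  obtain ⟨v, v', z₁, z₂, hW⟩ := exists_wframe h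
  have h2 := D.hg.two
  have s1 : D.g (v + v') (v + v') = 2 := by
    simp [hW.v'v, hW.hyp.1, hW.hyp.2.1, hW.hyp.2.2]; norm_num
  have s2 : D.g (v - v') (v - v') = -2 := by
    simp [hW.v'v, hW.hyp.1, hW.hyp.2.1, hW.hyp.2.2]; norm_num
  have o : D.g (v + v') (v - v') = 0 := by
    simp [hW.v'v, hW.hyp.1, hW.hyp.2.1, hW.hyp.2.2]
  obtain ⟨p₁, p₂, n₁, n₂, hpp, hnn, h11, h12, h21, h22, q₁, q₂, r₁, r₂, hsq⟩ :
      ∃ p₁ p₂ n₁ n₂ : Fin 4 → F, D.g p₁ p₂ = 0 ∧ D.g n₁ n₂ = 0 ∧ D.g n₁ p₁ = 0 ∧ D.g n₁ p₂ = 0 ∧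
        D.g n₂ p₁ = 0 ∧ D.g n₂ p₂ = 0 ∧ D.g p₁ p₁ ≠ 0 ∧ D.g p₂ p₂ ≠ 0 ∧ D.g n₁ n₁ ≠ 0 ∧
        D.g n₂ n₂ ≠ 0 ∧ IsSquare (D.g n₁ n₁ * D.g n₂ n₂) := by
    have hne : D.g (v + v') (v + v') ≠ 0 := by rw [s1]; exact h2
    have hne' : D.g (v - v') (v - v') ≠ 0 := by rw [s2]; exact neg_ne_zero.2 h2
    by_cases hm : IsSquare (-1 : F)
    · refine ⟨z₁, z₂, v + v', v - v', hW.z12, o, ?_, ?_, ?_, ?_, hW.a1, hW.a2, hne, hne', ?_⟩
      · simp [hW.v1, hW.w1]
      · simp [hW.v2, hW.w2]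
      · simp [hW.v1, hW.w1]
      · simp [hW.v2, hW.w2]
      rw [s1, s2]
      obtain ⟨i, hi⟩ := hm
      exact ⟨2 * i, by linear_combination 4 * hi⟩
    · refine ⟨v + v', v - v', z₁, z₂, o, hW.z12, ?_, ?_, ?_, ?_, hne, hne', hW.a1, hW.a2, ?_⟩
      · simp [hW.u1, hW.x1]
      · simp [hW.u1, hW.x1]
      · simp [hW.u2, hW.x2]
      · simp [hW.u2, hW.x2]
      by_contra hc
      obtain ⟨r, hr⟩ := nonsquare_mul h2 hm hc
      have hr0 : r ≠ 0 := fun e => by
        rw [e, mul_zero, neg_one_mul, neg_eq_zero] at hr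
        exact mul_ne_zero hW.a1 hW.a2 hr
      have := hW.aniso r (D.g z₁ z₁) (by linear_combination (-(D.g z₁ z₁)) * hr)
      exact hr0 this.1
  obtain ⟨u₀, hu₀⟩ : ∃ u : Fin 3 → F, D.f u u ≠ 0 := by
    obtain ⟨x, -, hx0, hx⟩ := D.hf.exists_iso (S := (⊤ : Submodule F (Fin 3 → F)))
      (by rw [finrank_top, finrank_fin_fun])
    obtain ⟨x', hxx'⟩ := D.hf.exists_hyp hx hx0
    obtain ⟨e, -, -, he⟩ := D.hf.exists_aniso_hyp (by rw [finrank_fin_fun]) hxx'
    exact ⟨e, he⟩
  obtain ⟨u₁, u₂, hU⟩ := exists_uframe hu₀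
  let tt : Fin 3 → Fin 3 → F := ![u₀, u₁, u₂]
  let ww : Fin 2 → Fin 4 → F := ![n₁, n₂]
  have hff : ∀ i, D.f (tt i) (tt i) ≠ 0 := fun i => by
    fin_cases i <;> simp [tt, hU.n0, hU.n1, hU.n2]
  have hfo : ∀ i j, i ≠ j → D.f (tt i) (tt j) = 0 := fun i j hij => by
    fin_cases i <;> fin_cases j <;> first
      | exact absurd rfl hij
      | simp [tt, hU.h01, hU.h02, hU.h10, hU.h12, hU.h20, hU.h21]
  have hgg : ∀ i, D.g (ww i) (ww i) ≠ 0 := fun i => by fin_cases i <;> simp [ww, r₁, r₂]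
  have hgo : ∀ i j, i ≠ j → D.g (ww i) (ww j) = 0 := fun i j hij => by
    fin_cases i <;> fin_cases j <;> first
      | exact absurd rfl hij
      | simp [ww, hnn, D.hg.symm n₂ n₁]
  let c : Fin 3 × Fin 2 → Matrix (Fin 3) (Fin 4) F := fun k => colMap (ww k.2) (tt k.1)
  have hQc : ∀ k, D.Q (c k) = D.f (tt k.1) (tt k.1) * (D.g (ww k.2) (ww k.2) / 2) := fun k => by
    rw [TD.Q_col, mul_div_assoc]
  obtain ⟨g, hg, hiff⟩ := Forms.exists_orthProd D.bNondeg (notExc D) c
    (fun k => by rw [hQc]; exact mul_ne_zero (hff _) (div_ne_zero (hgg _) h2)) fun i j hij => by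
    rw [TD.polar_col_col]
    rcases ne_or_eq i.1 j.1 with h' | h'
    · rw [hfo _ _ h', zero_mul]
    · rw [hgo _ _ (fun h'' => hij (Prod.ext h' h'')), mul_zero]
  have hc : g ∈ commutator (OQ D.Q) := hiff.2 ⟨⟨3, rfl⟩, by
    obtain ⟨r, hr⟩ := hsq
    simp only [hQc, Fintype.prod_prod_type, Fin.prod_univ_two, Fin.prod_univ_three]
    refine ⟨(D.f (tt 0) (tt 0) * D.f (tt 1) (tt 1) * D.f (tt 2) (tt 2)) * (r / 2) ^ 3, ?_⟩
    have h4 : D.g (ww 0) (ww 0) / 2 * (D.g (ww 1) (ww 1) / 2) = (r / 2) * (r / 2) := by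
      simp only [ww, Matrix.cons_val_zero, Matrix.cons_val_one]
      rw [div_mul_div_comm, hr, div_mul_div_comm]
    linear_combination (D.f (tt 0) (tt 0) * D.f (tt 1) (tt 1) * D.f (tt 2) (tt 2)) ^ 2 *
      ((D.g (ww 0) (ww 0) / 2 * (D.g (ww 1) (ww 1) / 2)) ^ 2 +
        D.g (ww 0) (ww 0) / 2 * (D.g (ww 1) (ww 1) / 2) * ((r / 2) * (r / 2)) +
        ((r / 2) * (r / 2)) ^ 2) * h4⟩
  set B : Module.End F (Fin 4 → F) := 1 - (2 / D.g n₁ n₁) • (D.g n₁).smulRight n₁ -
    (2 / D.g n₂ n₂) • (D.g n₂).smulRight n₂ with hB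
  have hBap : ∀ p, B p = p - (2 * D.g n₁ p / D.g n₁ n₁) • n₁ - (2 * D.g n₂ p / D.g n₂ n₂) • n₂ :=
    fun p => by
      simp [hB, smul_smul, div_mul_eq_mul_div]
  have hact : Acts g.1 1 B := by
    intro w p
    rw [hg]
    simp only [hQc, c, TD.polar_col_col, Fintype.sum_prod_type, Fin.sum_univ_two,
      Fin.sum_univ_three, tt, ww, Matrix.cons_val_zero, Matrix.cons_val_one, Matrix.cons_val_two,
      Matrix.head_cons, Matrix.tail_cons, Module.End.one_apply]
    rw [hBap]
    have n0 := hU.n0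
    have n1 := hU.n1
    have n2 := hU.n2
    conv_rhs => rw [hU.decomp p]
    conv_lhs => arg 1; rw [hU.decomp p]
    simp only [TD.col_sub, colMap_smul_right, map_add, map_smul, smul_add, smul_sub, smul_smul]
    match_scalars <;> field_simp <;> ring
  refine ⟨g, h.mem_of_acts hact hc, B, ⟨fun p q => ?_, LinearMap.ext fun p => ?_,
    p₁, p₂, n₁, n₂, ?_, ?_, ?_, ?_, q₁, q₂, r₁, r₂, hpp, hnn⟩, hact⟩
  · simp only [hBap, map_sub, map_smul, LinearMap.sub_apply, LinearMap.smul_apply, smul_eq_mul,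
      D.hg.symm p n₁, D.hg.symm p n₂, hnn, D.hg.symm n₂ n₁]
    field_simp
    ring
  · simp only [Module.End.mul_apply, Module.End.one_apply, hBap, map_sub, map_smul, smul_eq_mul,
      hnn, D.hg.symm n₂ n₁]
    match_scalars <;> field_simp <;> ring
  · simp [hBap, h11, h21]
  · simp [hBap, h12, h22]
  · rw [hBap, D.hg.symm n₂ n₁, hnn, mul_div_assoc, div_self r₁]
    simp; module
  · rw [hBap, hnn, mul_div_assoc 2 (D.g n₂ n₂), div_self r₂]
    simp; module

variable (h : Ctx D M) (hno : NoRoot M)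
include h hno

/-- A conjugate of `(-r_u) ⊗ 1` preserves the decomposition. -/
lemma tens_conj {u : Fin 3 → F} (hu : D.f u u ≠ 0) {s g : OQ D.Q}
    (hs : Acts s.1 (sigA D u) 1) (hsM : s ∈ M) (hg : g ∈ M) : Tens (g * s * g⁻¹).1 := by
  classical
  obtain ⟨z, hzM, B, hB, hz⟩ := exists_plane_mem h
  obtain ⟨x, hx⟩ : ∃ x, x = g * s * g⁻¹ := ⟨_, rfl⟩
  rw [← hx]
  have hxM : x ∈ M := hx ▸ mul_mem (mul_mem hg hsM) (inv_mem hg)
  have hss : s * s = 1 := Acts.ext ((hs.mul hs).congr (sigA_sq hu) (one_mul 1)) acts_one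
  have hxx : x * x = 1 := by
    rw [hx, show g * s * g⁻¹ * (g * s * g⁻¹) = g * (s * s) * g⁻¹ by group, hss]; group
  have hzz : z * z = 1 := Acts.ext ((hz.mul hz).congr (one_mul 1) hB.sq) acts_one
  have hxi : x⁻¹ = x := inv_eq_of_mul_eq_one_left hxx
  have hzi : z⁻¹ = z := inv_eq_of_mul_eq_one_left hzz
  obtain ⟨r, hr⟩ : ∃ r, r = x * z := ⟨_, rfl⟩
  have hinv : z * r * z⁻¹ = r⁻¹ := by
    rw [hr, hzi, _root_.mul_inv_rev, hzi, hxi]
    rw [← mul_assoc, mul_assoc (z * x), hzz, mul_one]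
  have hpow : ∀ k : ℕ, z * r ^ k * z⁻¹ = (r ^ k)⁻¹ := fun k => by
    rw [← conj_pow, hinv, inv_pow]
  obtain ⟨m, hm⟩ | ⟨m, hm⟩ := Nat.even_or_odd (orderOf r)
  · -- even order
    obtain ⟨w, hw⟩ : ∃ w, w = r ^ m := ⟨_, rfl⟩
    have hww : w * w = 1 := by rw [hw, ← pow_add, ← hm, pow_orderOf_eq_one]
    have hw1 : w ≠ 1 := fun e => by
      have hpos := orderOf_pos r
      have := orderOf_le_of_pow_eq_one (show 0 < m by omega) (hw ▸ e)
      omega
    have hwi : w⁻¹ = w := inv_eq_of_mul_eq_one_left hww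
    have hwz : Commute w z := by
      have h1 : z * w * z⁻¹ = w := by rw [hw, hpow, ← hw, hwi]
      exact (mul_inv_eq_iff_eq_mul.1 h1).symm
    have hwr : Commute w r := hw ▸ Commute.pow_self r m
    have hxrz : x = r * z := by rw [hr, mul_assoc, hzz, mul_one]
    have hwx : Commute x w := (hxrz ▸ hwr.mul_right hwz).symm
    have hwM : w ∈ M := hw ▸ pow_mem (hr ▸ mul_mem hxM hzM) m
    have hwT : Tens w.1 := tens_of_comm_plane h hno hB hz hwM hwz
    rcases kind_of_invol h hwM hwT hww with hact | hact | ⟨t, ht, hact⟩ | ⟨t, ht, hact⟩ |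
      ⟨B', hB', hact⟩ | ⟨t, B', ht, hB', hact⟩
    · exact absurd (Acts.ext hact acts_one) hw1
    · -- a tensor negated by both
      exfalso
      obtain ⟨p₁, p₂, n₁, n₂, -, -, b3, b4, -, -, r1, r2, -, on⟩ := hB.planes
      let Φ : (Fin 3 → F) × (Fin 3 → F) →ₗ[F] Matrix (Fin 3) (Fin 4) F :=
        (colMap n₁).coprod (colMap n₂)
      let ρ : Matrix (Fin 3) (Fin 4) F →ₗ[F] (Fin 4 → F) :=
        { toFun := fun X j => D.f u (fun i => X i j)
          map_add' := fun X Y => funext fun j => by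
            show D.f u ((fun i => X i j) + fun i => Y i j) = _
            rw [map_add]; rfl
          map_smul' := fun a X => funext fun j => by
            show D.f u (a • fun i => X i j) = _
            rw [map_smul]; rfl }
      have hker : LinearMap.ker (ρ ∘ₗ g⁻¹.1.toLinearMap ∘ₗ Φ) ≠ ⊥ :=
        LinearMap.ker_ne_bot_of_finrank_lt (by simp)
      obtain ⟨⟨p, q⟩, hpq, hpq0⟩ := (Submodule.ne_bot_iff _).1 hker
      set X := colMap n₁ p + colMap n₂ q with hX
      have hzX : z.1 X = -X := by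
        rw [hX, map_add, hz, hz, b3, b4, col_neg, col_neg, Module.End.one_apply,
          Module.End.one_apply]
        abel
      have hsY : s.1 (g⁻¹.1 X) = -(g⁻¹.1 X) := sig_neg hs fun j => congrFun hpq j
      have hxX : x.1 X = -X := by
        rw [hx]
        show g.1 (s.1 (g⁻¹.1 X)) = -X
        rw [hsY, map_neg, show g.1 (g⁻¹.1 X) = X from g.1.apply_symm_apply _]
      have hrX : r.1 X = X := by
        rw [hr, Subgroup.coe_mul, LinearEquiv.mul_apply, hzX, map_neg, hxX, neg_neg]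
      have hrk : ∀ k : ℕ, (r ^ k).1 X = X := fun k => by
        induction k with
        | zero => rw [pow_zero]; rfl
        | succ k ih => rw [pow_succ, Subgroup.coe_mul, LinearEquiv.mul_apply, hrX, ih]
      have hnX : ∀ Y, w.1 Y = -Y := fun Y => ext_colMap (φ := w.1.toLinearMap) (ψ := -LinearMap.id)
        (fun a b => by rw [LinearEquiv.coe_coe, hact]; simp [col_neg]) Y
      have e := hrk m
      rw [← hw, hnX] at e
      have h0 : (2 : F) • X = 0 := by rw [two_smul]; nth_rw 1 [← e]; exact neg_add_cancel _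
      have hX0 := (smul_eq_zero.1 h0).resolve_left D.hg.two
      have e1 := congrArg (D.row n₁) hX0
      have e2 := congrArg (D.row n₂) hX0
      simp [hX, TD.row_col, on, D.hg.symm n₂ n₁, r1, r2] at e1 e2
      exact hpq0 (Prod.ext e1 e2)
    · exact tens_of_comm h hno ht hact hxM hwx
    · -- minus such an involution
      obtain ⟨σ, -, hσ⟩ := sig_mem h ht
      have hneg : ∀ Y, w.1 Y = -σ.1 Y := fun Y =>
        ext_colMap (φ := w.1.toLinearMap) (ψ := -σ.1.toLinearMap) (fun a b => by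
          show w.1 (colMap a b) = -σ.1 (colMap a b)
          rw [hact, hσ]
          simp [col_neg]) Y
      refine tens_of_comm h hno ht hσ hxM (Subtype.ext (LinearEquiv.ext fun Y => ?_))
      have h1 := congrArg (fun k : OQ D.Q => k.1 Y) hwx.eq
      simp only [Subgroup.coe_mul, LinearEquiv.mul_apply, hneg, map_neg, neg_inj] at h1 ⊢
      exact h1
    · exact tens_of_comm_plane h hno hB' hact hxM hwx
    · exact tens_of_comm_splane h hno ht hB' hact hxM hwx
  · -- odd order: the two are conjugate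
    exfalso
    have hconj : r ^ (m + 1) * z * (r ^ (m + 1))⁻¹ = x := by
      have h1 : (r ^ (m + 1))⁻¹ = z * r ^ (m + 1) * z⁻¹ := (hpow _).symm
      rw [h1, hzi, show r ^ (m + 1) * z * (z * r ^ (m + 1) * z) =
        r ^ (m + 1) * (z * z) * r ^ (m + 1) * z by group, hzz, mul_one, ← pow_add,
        show m + 1 + (m + 1) = orderOf r + 1 by omega, pow_succ, pow_orderOf_eq_one, one_mul, hr,
        mul_assoc, hzz, mul_one]
    obtain ⟨k, hk⟩ : ∃ k, k = r ^ (m + 1) := ⟨_, rfl⟩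
    rw [← hk] at hconj
    obtain ⟨p₁, p₂, n₁, n₂, b1, b2, -, -, q1, q2, -, -, o, -⟩ := hB.planes
    obtain ⟨u', u'', hU⟩ := exists_uframe hu
    have hli : LinearIndependent F (fun i =>
        colMap (![p₁, p₁, p₁, p₂, p₂, p₂] i) (![u, u', u'', u, u', u''] i) :
          Fin 6 → Matrix (Fin 3) (Fin 4) F) := by
      refine pure_li (D := D) (fun i => ?_) (fun i l hil => ?_)
      · fin_cases i <;> simp [q1, q2, hU.n0, hU.n1, hU.n2]
      · fin_cases i <;> fin_cases l <;> first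
          | exact absurd rfl hil
          | simp [o, D.hg.symm p₂ p₁, hU.h01, hU.h02, hU.h10, hU.h12, hU.h20, hU.h21]
    have hli' := hli.map' k.1.toLinearMap k.1.ker
    refine absurd (card_fixed_le hu hs hx hli' fun i => ?_) (by norm_num)
    rw [← hconj]
    show k.1 (z.1 (k⁻¹.1 (k.1 _))) = k.1 _
    rw [show ∀ Y, k⁻¹.1 (k.1 Y) = Y from fun Y => k.1.symm_apply_apply Y, hz]
    fin_cases i <;> simp [b1, b2]

/-- Without root elements every member preserves the decomposition. -/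
theorem tens_of_mem {g : OQ D.Q} (hg : g ∈ M) : Tens g.1 := by
  obtain ⟨u, hu⟩ : ∃ u : Fin 3 → F, D.f u u ≠ 0 := by
    obtain ⟨x, -, hx0, hx⟩ := D.hf.exists_iso (S := (⊤ : Submodule F (Fin 3 → F)))
      (by rw [finrank_top, finrank_fin_fun])
    obtain ⟨x', hxx'⟩ := D.hf.exists_hyp hx hx0
    obtain ⟨e, -, -, he⟩ := D.hf.exists_aniso_hyp (by rw [finrank_fin_fun]) hxx'
    exact ⟨e, he⟩
  obtain ⟨s, hsM, hs⟩ := sig_mem h hu
  obtain ⟨t, ht, hxt⟩ := sig_of_conj h hu hs rfl (mul_mem (mul_mem hg hsM) (inv_mem hg))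
    (tens_conj h hno hu hs hsM hg)
  exact tens_of_conj h hno hu ht hs hxt hg rfl

omit h hno

/-- The stabiliser of a decomposition `F^3 ⊗ F^4`, the second factor of minus type, is maximal
in `Ω`. -/
theorem orth_three_four_maximal {ι : Type} [Fintype ι] [DecidableEq ι] (h2 : (2 : F) ≠ 0)
    (h5 : 5 ≤ Nat.card F) {Q : (ι → F) → F} (hQ : IsNondegenerateQuadraticForm Q)
    (e : ι ≃ Fin 3 × Fin 4) (P : GL ι F)
    (f₁ : (Fin 3 → F) → (Fin 3 → F) → F) (f₂ : (Fin 4 → F) → (Fin 4 → F) → F)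
    (hf₁ : IsSymmetricForm f₁) (hf₂ : IsSymmetricForm f₂)
    (hm : ¬ IsPlusTypeOn (fun v : Fin 4 → F => f₂ v v) ⊤)
    (hT : IsTensorFormStructure id (QuadraticMap.polar Q) f₁ f₂ e P) :
    IsMaximalIn (omegaGL Q) (tensorProductSubgroup 3 4 e P ⊓ omegaGL Q) := by
  classical
  obtain ⟨c, hc, hT⟩ := hT
  set S := toMat (a := 3) (b := 4) e P with hS
  set Qf := toQF hQ with hQf
  let Qm : QuadraticForm F (Matrix (Fin 3) (Fin 4) F) := Qf.comp S.symm.toLinearMap
  let D : TD F 3 4 :=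
    { f := c • LinearMap.mk₂ F f₁ hf₁.bilinear.add_left hf₁.bilinear.smul_left
        hf₁.bilinear.add_right hf₁.bilinear.smul_right
      g := LinearMap.mk₂ F f₂ hf₂.bilinear.add_left hf₂.bilinear.smul_left
        hf₂.bilinear.add_right hf₂.bilinear.smul_right
      η := (gramMatrix f₂).mulVecLin
      Q := Qm
      hf :=
        { symm := fun u v => by simp [hf₁.symm u v]
          two := h2
          nd := fun u hu => by
            by_contra h0
            obtain ⟨-, y, hy⟩ := hf₁.nondegenerate u h0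
            exact hy (by simpa [hc] using hu y) }
      hg :=
        { symm := fun u v => by simp [hf₂.symm u v]
          two := h2
          nd := fun u hu => by
            by_contra h0
            obtain ⟨-, y, hy⟩ := hf₂.nondegenerate u h0
            exact hy (by simpa using hu y) }
      g_eq := fun v w => by
        show v ⬝ᵥ gramMatrix f₂ *ᵥ w = f₂ v w
        rw [form_eq_sum hf₂.bilinear]
        simp only [dotProduct, Matrix.mulVec, Finset.mul_sum, mul_assoc]
      polar_col := fun X w u => by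
        show _ = c • f₁ (X *ᵥ (gramMatrix f₂ *ᵥ w)) u
        have h1 : polar Qm X (colMap w u) = polar Q
            ((P : Matrix ι ι F) *ᵥ ((fun p : Fin 3 × Fin 4 => X p.1 p.2) ∘ e))
            ((P : Matrix ι ι F) *ᵥ ((fun p : Fin 3 × Fin 4 => u p.1 * w p.2) ∘ e)) := by
          simp only [polar, Qm, QuadraticMap.comp_apply, LinearEquiv.coe_coe, map_add]
          rfl
        rw [h1, hT, form_eq_sum hf₁.bilinear, smul_eq_mul]
        congr 1
        simp only [formOfGram, Fintype.sum_prod_type, Matrix.kroneckerMap_apply, Matrix.mulVec,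
          dotProduct, id_eq, Finset.sum_mul, Finset.mul_sum]
        refine Finset.sum_congr rfl fun i _ => ?_
        rw [Finset.sum_comm]
        refine Finset.sum_congr rfl fun k _ => Finset.sum_congr rfl fun j _ =>
          Finset.sum_congr rfl fun l _ => ?_
        ring }
  let Φ : OQ D.Q ≃* OQ Qf := OQCongr S.symm fun X => rfl
  let j : OQ D.Q →* GL ι F := (oqToGL Qf).comp Φ.toMonoidHom
  have hj : ∀ k, toAct e P (j k) = k.1 := fun k => LinearEquiv.ext fun X => by
    rw [toAct_apply]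
    show S ((oqToGL Qf (Φ k) : Matrix ι ι F) *ᵥ S.symm X) = _
    rw [oqToGL_mulVec]
    show S (S.symm (k.1 (S (S.symm X)))) = _
    rw [LinearEquiv.apply_symm_apply, LinearEquiv.apply_symm_apply]
  have hΩ : (commutator (OQ D.Q)).map j = omegaGL Q := by
    rw [← Subgroup.map_map, map_commutator_top_of_equiv Φ, map_oqToGL_commutator, hQf,
      GeoClasses.coe_toQF]
  have hcardι : 5 ≤ Fintype.card ι := by
    rw [Fintype.card_congr e, Fintype.card_prod, Fintype.card_fin, Fintype.card_fin]; norm_num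
  refine ⟨lt_of_le_not_ge inf_le_right fun hle => ?_, fun M hM hMΩ => ?_⟩
  · refine OrthMax.omega_not_le_tensorProductSubgroup (Q := Qf) (bNondeg_toQF hQ) hcardι (by omega)
      (by omega) e P ?_
    rw [hQf, GeoClasses.coe_toQF]
    exact hle.trans inf_le_left
  let M' := M.comap j ⊓ commutator (OQ D.Q)
  have hctx : Ctx D M' :=
    { card := h5
      nopair := fun v c ⟨hv0, hcv, hvv, hcc, hvc⟩ => by
        have hli : LinearIndependent F ![v, c] := by
          refine LinearIndependent.pair_iff.2 fun s t hst => ?_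
          by_cases ht : t = 0
          · rw [ht, zero_smul, add_zero, smul_eq_zero] at hst
            exact ⟨hst.resolve_right hv0, ht⟩
          · refine absurd (Submodule.mem_span_singleton.2 ⟨-(t⁻¹ * s), ?_⟩) hcv
            rw [neg_smul, ← smul_smul, eq_neg_of_add_eq_zero_left hst, smul_neg, inv_smul_smul₀ ht,
              neg_neg]
        refine hm ⟨Submodule.span F (Set.range ![v, c]), le_top, fun w hw => ?_, ?_⟩
        · obtain ⟨k, rfl⟩ := (Submodule.mem_span_range_iff_exists_fun F).1 hw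
          show D.g _ _ = 0
          simp only [Fin.sum_univ_two, Matrix.cons_val_zero, Matrix.cons_val_one, map_add, map_smul,
            LinearMap.add_apply, LinearMap.smul_apply, smul_eq_mul, hvv, hcc, hvc, D.hg.symm c v,
            mul_zero, add_zero]
        · rw [finrank_span_eq_card hli, Fintype.card_fin, finrank_top, finrank_fin_fun]
      le := inf_le_right
      tens := fun k hk ht =>
        ⟨hM ⟨mem_tensor_of_tens (by omega) (by omega) e P _ (by rw [hj]; exact ht),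
          by rw [← hΩ]; exact ⟨k, hk, rfl⟩⟩, hk⟩ }
  by_cases hno : NoRoot M'
  · refine Or.inl (le_antisymm (fun m hm => ?_) hM)
    refine ⟨?_, hMΩ hm⟩
    obtain ⟨k, hk, rfl⟩ : m ∈ (commutator (OQ D.Q)).map j := hΩ ▸ hMΩ hm
    exact mem_tensor_of_tens (by omega) (by omega) e P _ (by
      rw [hj]; exact tens_of_mem hctx hno ⟨hm, hk⟩)
  · refine Or.inr (le_antisymm hMΩ ?_)
    rw [← hΩ, Subgroup.map_le_iff_le_comap]
    exact (commutator_le_of_root hctx hno).trans inf_le_left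

end Cfsg.Agent.MaxSub.OrthTwelve
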