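import Cfsg.Agent.MaxSub.OrthTwelve.Central

/-!
The centraliser of `1 ⊗ B`, for `B` with two eigen-planes: a conjugate of `(-r_t) ⊗ 1` there is
unitary on the tensors of the anisotropic plane, hence of the same shape.
-/

set_option autoImplicit false
set_option linter.unusedSectionVars false

namespace Cfsg.Agent.MaxSub.OrthTwelve

open Module Matrix QuadraticMap Cfsg.Agent.MaxSub.TensorMax Cfsg.Agent.MaxSub.OrthTensor
open Cfsg.Agent.Classical

variable {F : Type*} [Field F] [Finite F] {D : TD F 3 4} {M : Subgroup (OQ D.Q)}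

lemma sign_neg {c : F} (hc : c = 1 ∨ c = -1) : -c = 1 ∨ -c = -1 := by
  rcases hc with rfl | rfl <;> simp

section Side

variable {z : OQ D.Q} {B : Module.End F (Fin 4 → F)}

/-- `g` acts on the tensors of the `c`-space of `B` as `A ⊗ 1`. -/
def OnSide (B : Module.End F (Fin 4 → F)) (c : F) (g : OQ D.Q) (A : Module.End F (Fin 3 → F)) :
    Prop := ∀ w, B w = c • w → ∀ u, g.1 (colMap w u) = colMap w (A u)

lemma OnSide.mul {c : F} {g g' : OQ D.Q} {A A' : Module.End F (Fin 3 → F)} (h : OnSide B c g A)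
    (h' : OnSide B c g' A') : OnSide B c (g * g') (A * A') := fun w hw u => by
  rw [Subgroup.coe_mul, LinearEquiv.mul_apply, h' w hw, h w hw]; rfl

lemma OnSide.inv {c : F} {g : OQ D.Q} {A : Module.End F (Fin 3 → F)} (h : OnSide B c g A)
    (hA : A * A = 1) : OnSide B c g⁻¹ A := fun w hw u => g.1.injective (by
  rw [show g.1 (g⁻¹.1 (colMap w u)) = colMap w u from g.1.apply_symm_apply _, h w hw]
  rw [show A (A u) = u from LinearMap.congr_fun hA u])

end Side

section Main

variable (h : Ctx D M) (hno : NoRoot M) {z : OQ D.Q} {B : Module.End F (Fin 4 → F)}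
  (hz : Acts z.1 1 B) {e : F} {a₁ a₂ b₁ b₂ : Fin 4 → F} (hP : Planes D B e a₁ a₂ b₁ b₂)
include h hno hz

/-- Members commuting with `z` and trivial on one side commute with all `(-r_t) ⊗ 1`. -/
lemma kernel_comm {c : F} {w₀ : Fin 4 → F} (hw₀ : B w₀ = c • w₀) (hw₀0 : w₀ ≠ 0) {k : OQ D.Q}
    (hk : k ∈ M) (hkz : Commute k z) (hside : OnSide B c k 1) {t : Fin 3 → F} (ht : D.f t t ≠ 0)
    {s : OQ D.Q} (hs : Acts s.1 (sigA D t) 1) (hsM : s ∈ M) : Commute k s := by
  classical
  have hss : s * s = 1 := Acts.ext ((hs.mul hs).congr (sigA_sq ht) (one_mul 1)) acts_one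
  have hsz : ∀ {r : OQ D.Q} {A : Module.End F (Fin 3 → F)}, Acts r.1 A 1 → Commute r z :=
    fun {r A} hr => Acts.ext ((hr.mul hz).congr (mul_one A) (one_mul B))
      ((hz.mul hr).congr (one_mul A) (mul_one B))
  have hside_s : OnSide B c s (sigA D t) := fun w _ u => hs w u
  let J : Subgroup (OQ D.Q) :=
    { carrier := {g | g ∈ M ∧ Commute g z ∧ (OnSide B c g 1 ∨ OnSide B c g (sigA D t))}
      one_mem' := ⟨one_mem M, Commute.one_left z, Or.inl fun w _ u => rfl⟩
      mul_mem' := fun {x y} ⟨hx, hxz, hxs⟩ ⟨hy, hyz, hys⟩ => ⟨mul_mem hx hy, hxz.mul_left hyz, by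
        rcases hxs with hxs | hxs <;> rcases hys with hys | hys
        · exact Or.inl (by simpa using hxs.mul hys)
        · exact Or.inr (by simpa using hxs.mul hys)
        · exact Or.inr (by simpa using hxs.mul hys)
        · exact Or.inl (by simpa [sigA_sq ht] using hxs.mul hys)⟩
      inv_mem' := fun {x} ⟨hx, hxz, hxs⟩ => ⟨inv_mem hx, hxz.inv_left, by
        rcases hxs with hxs | hxs
        · exact Or.inl (hxs.inv (one_mul 1))
        · exact Or.inr (hxs.inv (sigA_sq ht))⟩ }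
  have hsJ : s ∈ J := ⟨hsM, hsz hs, Or.inr hside_s⟩
  have hkJ : k ∈ J := ⟨hk, hkz, Or.inl hside⟩
  obtain ⟨t', t'', hU⟩ := exists_uframe ht
  obtain ⟨s₁, hs₁M, hs₁⟩ := sig_mem h hU.n1
  obtain ⟨s₂, hs₂M, hs₂⟩ := sig_mem h hU.n2
  have hcomm : Commute (sigA D t') (sigA D t) := hU.ext_map
    (by simp [Module.End.mul_apply, sigA_perp hU.h10, sigA_self hU.n0, map_neg])
    (by simp [Module.End.mul_apply, sigA_self hU.n1, sigA_perp hU.h01, map_neg])
    (by simp [Module.End.mul_apply, sigA_perp hU.h02, sigA_perp hU.h12, map_neg])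
  have hs11 : s₁ * s₁ = 1 := Acts.ext ((hs₁.mul hs₁).congr (sigA_sq hU.n1) (one_mul 1)) acts_one
  have hs₁i : s₁⁻¹ = s₁ := inv_eq_of_mul_eq_one_left hs11
  have hnorm₁ : ∀ g ∈ J, s₁ * g * s₁⁻¹ ∈ J := by
    rintro g ⟨hg, hgz, hgs⟩
    refine ⟨mul_mem (mul_mem hs₁M hg) (inv_mem hs₁M),
      ((hsz hs₁).mul_left hgz).mul_left (hsz hs₁).inv_left, ?_⟩
    rw [hs₁i]
    have h1 : OnSide B c s₁ (sigA D t') := fun w _ u => hs₁ w u
    rcases hgs with hgs | hgs
    · exact Or.inl (by simpa [sigA_sq hU.n1] using (h1.mul hgs).mul h1)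
    · refine Or.inr ?_
      have := (h1.mul hgs).mul h1
      rwa [hcomm.eq, mul_assoc (sigA D t), sigA_sq hU.n1, mul_one] at this
  have hs₁n : s₁ ∈ Subgroup.normalizer (J : Set (OQ D.Q)) := by
    refine Subgroup.mem_normalizer_iff.2 fun g => ⟨hnorm₁ g, fun hg => ?_⟩
    have h3 := hnorm₁ _ hg
    rwa [show s₁ * (s₁ * g * s₁⁻¹) * s₁⁻¹ = (s₁ * s₁) * g * (s₁ * s₁)⁻¹ by group, hs11, inv_one,
      one_mul, mul_one] at h3
  have hsne : s ≠ 1 := fun e => by
    have h1 := hs w₀ t'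
    rw [e, sigA_perp hU.h01, map_neg] at h1
    have h2 : (2 : F) • colMap w₀ t' = (0 : Matrix (Fin 3) (Fin 4) F) := by
      rw [two_smul]; nth_rw 1 [show colMap w₀ t' = -colMap w₀ t' from h1]; exact neg_add_cancel _
    exact col_ne_zero hw₀0 (fun e => hU.n1 (by simp [e]))
      ((smul_eq_zero.1 h2).resolve_left D.hg.two)
  have hiso : Invol.IsIsolatedInv (⟨s, hsJ⟩ : J) := by
    refine ⟨orderOf_eq_prime (by ext1; rw [Subgroup.coe_pow, pow_two, hss, Subgroup.coe_one])
      (fun e => hsne (congrArg Subtype.val e)), fun j hj => ?_⟩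
    refine Subtype.ext ?_
    show (j : OQ D.Q) * s * (j : OQ D.Q)⁻¹ = s
    have hxM : (j : OQ D.Q) * s * (j : OQ D.Q)⁻¹ ∈ M := mul_mem (mul_mem j.2.1 hsM) (inv_mem j.2.1)
    have hxs : Commute ((j : OQ D.Q) * s * (j : OQ D.Q)⁻¹) s := congrArg Subtype.val hj.eq
    obtain ⟨r, hr, hxr⟩ := sig_of_conj h ht hs rfl hxM (tens_of_comm h hno ht hs hxM hxs)
    have hside_x : OnSide B c ((j : OQ D.Q) * s * (j : OQ D.Q)⁻¹) (sigA D t) := by
      rcases j.2.2.2 with hj' | hj'
      · simpa using (hj'.mul hside_s).mul (hj'.inv (one_mul 1))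
      · have h3 := (hj'.mul hside_s).mul (hj'.inv (sigA_sq ht))
        rwa [sigA_sq ht, one_mul] at h3
    have hA : sigA D r = sigA D t := LinearMap.ext fun u =>
      colMap_injective hw₀0 (((hxr w₀ u).symm.trans (hside_x w₀ hw₀ u)))
    exact Acts.ext (hxr.congr hA rfl) hs
  haveI : Finite J := Subtype.finite
  have hc := Invol.zStar_theorem J ⟨s, hsJ⟩ hiso ⟨k, hkJ⟩
  obtain ⟨hO, hodd⟩ := core_tens h hno hU hs hs₁ hs₂ (J := J) (fun g hg => hg.1)
    (Subgroup.le_normalizer hsJ) hs₁n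
  have hcmem := Subgroup.mem_map_of_mem J.subtype hc
  set m := s * k * s⁻¹ * k⁻¹ with hm
  have hmO : m ∈ (pPrimeCore 2 J).map J.subtype := by
    simpa [commutatorElement_def, hm] using hcmem
  -- the odd part commutes with `s`
  obtain ⟨A, B', hact⟩ := tens_iff.1 (hO hmO)
  obtain ⟨A₀, hA₀, hA₀s⟩ : ∃ A₀, OnSide B c m A₀ ∧ Commute A₀ (sigA D t) := by
    rcases ((Subgroup.map_subtype_le _) hmO : m ∈ J).2.2 with hm' | hm'
    · exact ⟨1, hm', Commute.one_left _⟩
    · exact ⟨_, hm', Commute.refl _⟩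
  have hms : Commute m s := by
    refine Acts.ext ((hact.mul hs).congr rfl (mul_one B')) ((hs.mul hact).congr ?_ (one_mul B'))
    obtain ⟨u, hu0⟩ : ∃ u : Fin 3 → F, u ≠ 0 := exists_ne 0
    by_cases hB0 : B' w₀ = 0
    · exfalso
      have := hact w₀ u
      rw [hB0, col_zero, LinearEquiv.map_eq_zero_iff] at this
      exact col_ne_zero hw₀0 hu0 this
    obtain ⟨i, hi⟩ := Function.ne_iff.1 hB0
    have hAA₀ : A = (w₀ i / B' w₀ i) • A₀ := LinearMap.ext fun u => funext fun j => by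
      have h1 := (hact w₀ u).symm.trans (hA₀ w₀ hw₀ u)
      have h2 := congrFun (congrFun h1 j) i
      simp only [colMap_apply, vecMulVec_apply] at h2
      rw [LinearMap.smul_apply, Pi.smul_apply, smul_eq_mul, div_mul_eq_mul_div, eq_div_iff hi, h2,
        mul_comm]
    rw [hAA₀, Algebra.mul_smul_comm, Algebra.smul_mul_assoc, hA₀s.eq]
  have hi : s⁻¹ = s := inv_eq_of_mul_eq_one_left hss
  have hms2 : m * m = 1 := by
    have h1 : s * m * s⁻¹ = m⁻¹ := by
      rw [hm, hi]
      calc s * (s * k * s * k⁻¹) * s = (s * s) * k * s * k⁻¹ * s := by group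
        _ = k * s * k⁻¹ * s := by rw [hss, one_mul]
        _ = k * s⁻¹ * k⁻¹ * s⁻¹ := by rw [hi]
        _ = (s * k * s * k⁻¹)⁻¹ := by group
    rw [← hms.eq, mul_inv_cancel_right] at h1
    nth_rw 1 [h1]
    exact inv_mul_cancel m
  have hm1 : m = 1 := by
    by_contra hne
    have h2 : orderOf m = 2 := orderOf_eq_prime (by rw [pow_two]; exact hms2) hne
    have h3 := Subgroup.orderOf_dvd_natCard _ hmO
    rw [h2] at h3
    exact hodd h3
  exact (mul_inv_eq_iff_eq_mul.1 (mul_inv_eq_one.1 (show s * k * s⁻¹ * k⁻¹ = 1 from hm1))).symm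

include hP

/-- A rotation of the anisotropic plane. -/
lemma exists_rot : ∃ (R : OQ D.Q) (C S : F) (T : Module.End F (Fin 4 → F)), R ∈ M ∧ Commute R z ∧
    Acts R.1 1 T ∧ S ≠ 0 ∧ T a₁ = C • a₁ + S • a₂ ∧
    T a₂ = C • a₂ - (S * (D.g a₂ a₂ / D.g a₁ a₁)) • a₁ ∧ T b₁ = b₁ ∧ T b₂ = b₂ := by
  have h2 := D.hg.two
  have n1 := hP.na₁
  have n2 := hP.na₂
  set δ := D.g a₂ a₂ / D.g a₁ a₁ with hδ
  have hδ0 : δ ≠ 0 := div_ne_zero n2 n1
  have hden : ∀ r : F, 1 + δ * (r * r) ≠ 0 := fun r e0 => by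
    obtain ⟨s0, -⟩ := hP.aniso 1 r (by
      rw [hδ] at e0; field_simp at e0; linear_combination e0)
    exact one_ne_zero s0
  obtain ⟨r, hr0, hr⟩ : ∃ r : F, r ≠ 0 ∧ 1 - δ * (r * r) ≠ 0 := by
    by_cases h1 : 1 - δ = 0
    · haveI := Fintype.ofFinite F
      classical
      obtain ⟨t, ht0, ht1⟩ : ∃ t : F, t ≠ 0 ∧ t * t ≠ 1 := by
        by_contra hc
        push Not at hc
        have hle : Fintype.card F ≤ 3 := by
          rw [← Finset.card_univ]
          refine le_trans (Finset.card_le_card (t := ({0, 1, -1} : Finset F)) fun t _ => ?_)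
            Finset.card_le_three
          rcases eq_or_ne t 0 with rfl | ht
          · simp
          rcases mul_self_eq_one_iff.1 (hc t ht) with rfl | rfl <;> simp
        have := h.card
        rw [Nat.card_eq_fintype_card] at this
        omega
      refine ⟨t, ht0, fun e0 => ht1 ?_⟩
      have : δ * (1 - t * t) = 0 := by linear_combination e0 - h1
      exact (sub_eq_zero.1 ((mul_eq_zero.1 this).resolve_left hδ0)).symm
    · exact ⟨1, one_ne_zero, by simpa using h1⟩
  set c := (1 - δ * (r * r)) / (1 + δ * (r * r)) with hc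
  set s := 2 * r / (1 + δ * (r * r)) with hs
  have hd := hden r
  have hcs : c * c + δ * (s * s) = 1 := by
    rw [hc, hs, div_mul_div_comm, div_mul_div_comm, mul_div_assoc', ← add_div,
      div_eq_one_iff_eq (mul_ne_zero hd hd)]
    ring
  let T₀ : Module.End F (Fin 4 → F) := 1 +
    ((D.g a₁ a₁)⁻¹ • D.g a₁).smulRight ((c - 1) • a₁ + s • a₂) +
    ((D.g a₂ a₂)⁻¹ • D.g a₂).smulRight ((-(δ * s)) • a₁ + (c - 1) • a₂)
  have t1 : T₀ a₁ = c • a₁ + s • a₂ := by
    simp [T₀, n1, D.hg.symm a₂ a₁, hP.oa]; module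
  have t2 : T₀ a₂ = c • a₂ - (δ * s) • a₁ := by
    simp [T₀, n2, hP.oa]; module
  have t3 : T₀ b₁ = b₁ := by simp [T₀, hP.o11, hP.o21]
  have t4 : T₀ b₂ = b₂ := by simp [T₀, hP.o12, hP.o22]
  have hiso : ∀ p q, D.g (T₀ p) (T₀ q) = D.g p q := by
    have key : D.g.compl₁₂ T₀ T₀ = D.g := by
      have hδ' : D.g a₂ a₂ = δ * D.g a₁ a₁ := by rw [hδ, div_mul_cancel₀ _ n1]
      refine hP.ext_map ?_ ?_ ?_ ?_ <;> refine hP.ext_map ?_ ?_ ?_ ?_ <;>
        simp only [LinearMap.compl₁₂_apply, t1, t2, t3, t4, map_add, map_sub, map_smul,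
          LinearMap.add_apply, LinearMap.sub_apply, LinearMap.smul_apply, smul_eq_mul, hP.oa, hP.ob,
          hP.o11, hP.o12, hP.o21, hP.o22, D.hg.symm a₂ a₁, D.hg.symm b₁ a₁, D.hg.symm b₂ a₁,
          D.hg.symm b₁ a₂, D.hg.symm b₂ a₂, D.hg.symm b₂ b₁, hδ'] <;>
        first
          | ring1
          | linear_combination (D.g a₁ a₁) * hcs
          | linear_combination (δ * D.g a₁ a₁) * hcs
    exact fun p q => LinearMap.congr_fun (LinearMap.congr_fun key p) q
  obtain ⟨k, hk⟩ := exists_acts (D := D) (A := 1) (B := T₀) (fun _ _ => rfl) hiso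
  have hTB : Commute T₀ B := hP.ext_map
    (by simp [Module.End.mul_apply, t1, hP.Ba₁, hP.Ba₂]; module)
    (by simp [Module.End.mul_apply, t2, hP.Ba₁, hP.Ba₂]; module)
    (by simp [Module.End.mul_apply, t3, hP.Bb₁])
    (by simp [Module.End.mul_apply, t4, hP.Bb₂])
  have hkz : Commute k z := Acts.ext ((hk.mul hz).congr rfl hTB.eq) ((hz.mul hk).congr rfl rfl)
  refine ⟨k * k, c * c - δ * (s * s), 2 * c * s, T₀ * T₀, h.sq_acts_mem hk, hkz.mul_left hkz,
    (hk.mul hk).congr (one_mul 1) rfl, ?_, ?_, ?_, ?_, ?_⟩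
  · refine mul_ne_zero (mul_ne_zero h2 ?_) ?_
    · rw [hc]; exact div_ne_zero hr hd
    · rw [hs]; exact div_ne_zero (mul_ne_zero h2 hr0) hd
  · simp only [Module.End.mul_apply, t1, t2, map_add, map_smul]; module
  · simp only [Module.End.mul_apply, t1, t2, map_sub, map_smul]; module
  · simp only [Module.End.mul_apply, t3]
  · simp only [Module.End.mul_apply, t4]

/-- Tensors of the anisotropic plane. -/
lemma side_form {X : Matrix (Fin 3) (Fin 4) F} (hX : z.1 X = e • X) :
    ∃ p q, X = colMap a₁ p + colMap a₂ q := by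
  set p := (D.g a₁ a₁)⁻¹ • D.row a₁ X
  set q := (D.g a₂ a₂)⁻¹ • D.row a₂ X
  set p' := (D.g b₁ b₁)⁻¹ • D.row b₁ X
  set q' := (D.g b₂ b₂)⁻¹ • D.row b₂ X
  have hd : X = colMap a₁ p + colMap a₂ q + colMap b₁ p' + colMap b₂ q' :=
    ext_colMap (φ := LinearMap.id)
      (ψ := colMap a₁ ∘ₗ ((D.g a₁ a₁)⁻¹ • D.row a₁) + colMap a₂ ∘ₗ ((D.g a₂ a₂)⁻¹ • D.row a₂) +
        colMap b₁ ∘ₗ ((D.g b₁ b₁)⁻¹ • D.row b₁) + colMap b₂ ∘ₗ ((D.g b₂ b₂)⁻¹ • D.row b₂)) (fun w v => by
      conv_lhs => rw [LinearMap.id_apply, hP.decomp w]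
      simp only [TD.col_add, LinearMap.add_apply, LinearMap.comp_apply, LinearMap.smul_apply,
        TD.row_col, map_smul, smul_smul, colMap_smul_right, D.hg.symm w]
      simp only [div_eq_inv_mul]) X
  have hzd := congrArg (fun Y => z.1 Y) hd
  simp only [map_add, hz _ p, hz _ q, hz _ p', hz _ q', Module.End.one_apply, hP.Ba₁, hP.Ba₂,
    hP.Bb₁, hP.Bb₂, colMap_smul_right, hX] at hzd
  have h0 : (2 * e) • (colMap b₁ p' + colMap b₂ q') = (0 : Matrix (Fin 3) (Fin 4) F) := by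
    linear_combination (norm := module) hzd - e • hd
  have e0 : e ≠ 0 := by rcases hP.e1 with r | r <;> simp [r]
  refine ⟨p, q, ?_⟩
  conv_lhs => rw [hd]
  rw [add_assoc (colMap a₁ p + colMap a₂ q),
    (smul_eq_zero.1 h0).resolve_left (mul_ne_zero D.hg.two e0), add_zero]

omit h hno in
lemma z_side (p : Fin 3 → F) :
    z.1 (colMap a₁ p) = e • colMap a₁ p ∧ z.1 (colMap a₂ p) = e • colMap a₂ p := by
  rw [hz, hz, hP.Ba₁, hP.Ba₂, colMap_smul_right, colMap_smul_right]
  exact ⟨rfl, rfl⟩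

/-- The shape of a conjugate on the tensors of the anisotropic plane. -/
lemma conj_shape {g s : OQ D.Q} {t : Fin 3 → F} (hgM : g ∈ M) (hgz : Commute g z)
    (ht : D.f t t ≠ 0) (hs : Acts s.1 (sigA D t) 1) (hsM : s ∈ M) {a b : Fin 3 → F}
    (hab : g.1 (colMap a₁ t) = colMap a₁ a + colMap a₂ b) :
    D.f a a + D.g a₂ a₂ / D.g a₁ a₁ * D.f b b = D.f t t ∧ ∀ p q,
    (g * s * g⁻¹).1 (colMap a₁ p + colMap a₂ q) =
      ((2 * (D.f a p + D.g a₂ a₂ / D.g a₁ a₁ * D.f b q)) / D.f t t) • (colMap a₁ a + colMap a₂ b) +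
      ((2 * (D.f a q - D.f b p)) / D.f t t) •
        (colMap a₂ a - (D.g a₂ a₂ / D.g a₁ a₁) • colMap a₁ b) - (colMap a₁ p + colMap a₂ q) := by
  classical
  obtain ⟨R, C, S, T, hR, hRz, hRact, hS, T1, T2, T3, T4⟩ := exists_rot h hno hz hP
  have n1 := hP.na₁
  have n2 := hP.na₂
  set δ := D.g a₂ a₂ / D.g a₁ a₁ with hδ
  have hδ' : D.g a₂ a₂ = δ * D.g a₁ a₁ := by rw [hδ, div_mul_cancel₀ _ n1]
  have hδ0 : δ ≠ 0 := div_ne_zero n2 n1
  clear_value δ
  set P := colMap a₁ a + colMap a₂ b with hPdef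
  set Q := colMap a₂ a - δ • colMap a₁ b with hQdef
  -- the rotation commutes with the conjugate
  have hRs : Commute (g⁻¹ * R * g) s := by
    refine kernel_comm h hno hz (c := -e) (w₀ := b₁) hP.Bb₁
      (fun e0 => hP.nb₁ (by simp [e0])) (mul_mem (mul_mem (inv_mem hgM) hR) hgM)
      ((hgz.inv_left.mul_left hRz).mul_left hgz) ?_ ht hs hsM
    intro w hw u
    have hzw : z.1 (g.1 (colMap w u)) = -e • g.1 (colMap w u) := by
      have e1 := congrArg (fun k : OQ D.Q => k.1 (colMap w u)) hgz.eq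
      simp only [Subgroup.coe_mul, LinearEquiv.mul_apply] at e1
      rw [← e1, hz, Module.End.one_apply, hw, colMap_smul_right, map_smul]
    have hRfix : ∀ Y, z.1 Y = -e • Y → R.1 Y = Y := fun Y hY => by
      set p := (D.g b₁ b₁)⁻¹ • D.row b₁ Y
      set q := (D.g b₂ b₂)⁻¹ • D.row b₂ Y
      set p' := (D.g a₁ a₁)⁻¹ • D.row a₁ Y
      set q' := (D.g a₂ a₂)⁻¹ • D.row a₂ Y
      have hd : Y = colMap a₁ p' + colMap a₂ q' + colMap b₁ p + colMap b₂ q :=
        ext_colMap (φ := LinearMap.id)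
          (ψ := colMap a₁ ∘ₗ ((D.g a₁ a₁)⁻¹ • D.row a₁) + colMap a₂ ∘ₗ ((D.g a₂ a₂)⁻¹ • D.row a₂) +
            colMap b₁ ∘ₗ ((D.g b₁ b₁)⁻¹ • D.row b₁) + colMap b₂ ∘ₗ ((D.g b₂ b₂)⁻¹ • D.row b₂))
          (fun w v => by
            conv_lhs => rw [LinearMap.id_apply, hP.decomp w]
            simp only [TD.col_add, LinearMap.add_apply, LinearMap.comp_apply, LinearMap.smul_apply,
              TD.row_col, map_smul, smul_smul, colMap_smul_right, D.hg.symm w]
            simp only [div_eq_inv_mul]) Y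
      have hzd := congrArg (fun X => z.1 X) hd
      simp only [map_add, hz _ p, hz _ q, hz _ p', hz _ q', Module.End.one_apply, hP.Ba₁, hP.Ba₂,
        hP.Bb₁, hP.Bb₂, colMap_smul_right, hY] at hzd
      have h0 : (2 * e) • (colMap a₁ p' + colMap a₂ q') = (0 : Matrix (Fin 3) (Fin 4) F) := by
        linear_combination (norm := module) (-1 : F) • hzd - e • hd
      have e0 : e ≠ 0 := by rcases hP.e1 with r | r <;> simp [r]
      have h1 := (smul_eq_zero.1 h0).resolve_left (mul_ne_zero D.hg.two e0)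
      have hd' : Y = colMap b₁ p + colMap b₂ q := by
        conv_lhs => rw [hd]
        rw [h1, zero_add]
      rw [hd', map_add, hRact, hRact, T3, T4]; rfl
    show g⁻¹.1 (R.1 (g.1 (colMap w u))) = colMap w u
    rw [hRfix _ hzw]
    exact g.1.symm_apply_apply _
  -- `Q` is fixed
  obtain ⟨x, hx⟩ : ∃ x, x = g * s * g⁻¹ := ⟨_, rfl⟩
  rw [← hx]
  have hRx : Commute R x := by
    have := (Commute.conj_iff g).2 hRs
    rwa [show g * (g⁻¹ * R * g) * g⁻¹ = R by group, ← hx] at this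
  have hxg : ∀ Y, x.1 (g.1 Y) = g.1 (s.1 Y) := fun Y => by
    rw [hx]
    show g.1 (s.1 (g⁻¹.1 (g.1 Y))) = _
    rw [show g⁻¹.1 (g.1 Y) = Y from g.1.symm_apply_apply _]
  have hxP : x.1 P = P := by rw [← hab, hxg, sig_col ht hs]
  have hRP : R.1 P = C • P + S • Q := by
    simp only [hPdef, hQdef, map_add, hRact _ _, Module.End.one_apply, T1, T2, TD.col_add, TD.col_sub,
      colMap_smul_right, smul_smul, ← hδ]
    module
  have hxQ : x.1 Q = Q := by
    have e1 := congrArg (fun k : OQ D.Q => k.1 P) hRx.eq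
    simp only [Subgroup.coe_mul, LinearEquiv.mul_apply, hxP] at e1
    rw [hRP, map_add, map_smul, map_smul, hxP, add_left_cancel_iff] at e1
    exact (smul_right_injective _ hS e1).symm
  -- the values of the forms
  have hN : D.f a a + δ * D.f b b = D.f t t := by
    have e1 := OQ_polar g (colMap a₁ t) (colMap a₁ t)
    simp [-polar_self, hab, hPdef, polar_add_left, polar_add_right, TD.polar_col_col, hP.oa, D.hg.symm a₂ a₁] at e1
    rw [hδ']at e1
    exact mul_right_cancel₀ n1 (by linear_combination e1)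
  refine ⟨hN, fun p q => ?_⟩
  set Y := colMap a₁ p + colMap a₂ q with hY
  -- the preimages
  have hpre : ∀ {X : Matrix (Fin 3) (Fin 4) F}, z.1 X = e • X →
      ∃ p q, g⁻¹.1 X = colMap a₁ p + colMap a₂ q := fun {X} hX => side_form h hno hz hP (by
    have e1 := congrArg (fun k : OQ D.Q => k.1 X) hgz.inv_left.eq
    simp only [Subgroup.coe_mul, LinearEquiv.mul_apply] at e1
    rw [← e1, hX, map_smul])
  have hzY : ∀ p q, z.1 (colMap a₁ p + colMap a₂ q) = e • (colMap a₁ p + colMap a₂ q) := fun p q => by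
    rw [map_add, (z_side hz hP p).1, (z_side hz hP q).2, smul_add]
  have hgi : ∀ X, g.1 (g⁻¹.1 X) = X := fun X => g.1.apply_symm_apply X
  obtain ⟨q₁, q₂, hq⟩ := hpre (X := Q) (by
    rw [hQdef, map_sub, map_smul, (z_side hz hP a).2, (z_side hz hP b).1]; module)
  have hQs : s.1 (colMap a₁ q₁ + colMap a₂ q₂) = colMap a₁ q₁ + colMap a₂ q₂ := g.1.injective (by
    rw [← hxg, ← hq, hgi, hxQ])
  obtain ⟨w, hw⟩ := fixed_sig hs hQs
  have er1 := congrArg (D.row a₁) hw
  have er2 := congrArg (D.row a₂) hw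
  simp [TD.row_col, hP.oa, D.hg.symm a₂ a₁] at er1 er2
  obtain ⟨l, hl⟩ : ∃ l : F, q₁ = l • t := ⟨(D.g a₁ a₁)⁻¹ * D.g w a₁, by
    rw [← smul_smul, ← er1, inv_smul_smul₀ n1]⟩
  obtain ⟨μ, hμ⟩ : ∃ μ : F, q₂ = μ • t := ⟨(D.g a₂ a₂)⁻¹ * D.g w a₂, by
    rw [← smul_smul, ← er2, inv_smul_smul₀ n2]⟩
  have hpolar : ∀ X X', polar D.Q (g⁻¹.1 X) (g⁻¹.1 X') = polar D.Q X X' := fun X X' => OQ_polar _ X X'
  have hgiP : g⁻¹.1 P = colMap a₁ t := by rw [← hab]; exact g.1.symm_apply_apply _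
  have hl0 : l = 0 := by
    have e1 := hpolar P Q
    rw [hgiP, hq] at e1
    simp [-polar_self, hPdef, hQdef, hl, hμ, polar_add_left, polar_add_right, polar_sub_right, polar_smul_right,
      TD.polar_col_col, hP.oa, D.hg.symm a₂ a₁, hδ', D.hf.symm b a] at e1
    have : l * (D.f t t * D.g a₁ a₁) = 0 := by linear_combination e1
    exact (mul_eq_zero.1 this).resolve_right (mul_ne_zero ht n1)
  rw [hl0, zero_smul] at hl
  rw [hl, map_zero, zero_add, hμ] at hq
  have hμ0 : μ ≠ 0 := fun e0 => by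
    rw [e0, zero_smul, map_zero] at hq
    have hQ0 : Q = 0 := by rw [← hgi Q, hq, map_zero]
    have e1 : polar D.Q Q Q = δ * D.g a₁ a₁ * D.f t t := by
      rw [← hN]
      simp [-polar_self, hQdef, polar_sub_left, polar_sub_right, polar_smul_left, polar_smul_right, TD.polar_col_col,
        hP.oa, D.hg.symm a₂ a₁, hδ']
      ring
    rw [hQ0, polar_zero_left] at e1
    exact mul_ne_zero (mul_ne_zero hδ0 n1) ht e1.symm
  set A := (D.f a p + δ * D.f b q) / D.f t t with hA
  set B₀ := (D.f a q - D.f b p) / D.f t t with hB₀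
  set W := Y - A • P - B₀ • Q with hW
  have hzW : z.1 W = e • W := by
    rw [hW, map_sub, map_sub, map_smul, map_smul, hY, hzY, hPdef, hzY, hQdef, map_sub, map_smul,
      (z_side hz hP a).2, (z_side hz hP b).1]
    module
  obtain ⟨p', q', hW'⟩ := hpre hzW
  have o1 : polar D.Q P W = 0 := by
    simp [-polar_self, hW, hY, hPdef, hQdef, polar_sub_left, polar_sub_right, polar_add_left, polar_add_right,
      polar_smul_left, polar_smul_right, TD.polar_col_col, hP.oa, D.hg.symm a₂ a₁, hδ', D.hf.symm b a]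
    rw [hA]
    field_simp
    linear_combination (-(D.g a₁ a₁ * (D.f a p + δ * D.f b q))) * hN
  have o2 : polar D.Q Q W = 0 := by
    simp [-polar_self, hW, hY, hPdef, hQdef, polar_sub_left, polar_sub_right, polar_add_left, polar_add_right,
      polar_smul_left, polar_smul_right, TD.polar_col_col, hP.oa, D.hg.symm a₂ a₁, hδ', D.hf.symm b a]
    rw [hB₀]
    field_simp
    linear_combination (-(δ * D.g a₁ a₁ * (D.f a q - D.f b p))) * hN
  rw [← hpolar, hgiP, hW'] at o1
  rw [← hpolar, hq, hW'] at o2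
  simp [polar_add_right, polar_smul_left, TD.polar_col_col, hP.oa, D.hg.symm a₂ a₁, n1] at o1
  simp [polar_add_right, polar_smul_left, TD.polar_col_col, hP.oa, D.hg.symm a₂ a₁, n2, hμ0] at o2
  have hxW : x.1 W = -W := by
    rw [← hgi W, hW', hxg, map_add, hs, hs, Module.End.one_apply, Module.End.one_apply,
      sigA_perp o1, sigA_perp o2]
    simp only [map_neg, map_add]
    abel
  have hYd : Y = W + A • P + B₀ • Q := by rw [hW]; abel
  conv_lhs => rw [hYd]
  rw [map_add, map_add, map_smul, map_smul, hxP, hxQ, hxW, hW, hA, hB₀]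
  simp only [mul_div_assoc]
  module

/-- A conjugate whose plane components have an anisotropic common perpendicular. -/
lemma tens_of_perp {g s : OQ D.Q} {t : Fin 3 → F} (hgM : g ∈ M) (hgz : Commute g z)
    (ht : D.f t t ≠ 0) (hs : Acts s.1 (sigA D t) 1) (hsM : s ∈ M) {a b : Fin 3 → F}
    (hab : g.1 (colMap a₁ t) = colMap a₁ a + colMap a₂ b) {u : Fin 3 → F} (hu : D.f u u ≠ 0)
    (hua : D.f u a = 0) (hub : D.f u b = 0) : Tens (g * s * g⁻¹).1 := by
  classical
  obtain ⟨-, hshape⟩ := conj_shape h hno hz hP hgM hgz ht hs hsM hab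
  obtain ⟨σ, hσM, hσ⟩ := sig_mem h hu
  have hsz : ∀ {r : OQ D.Q} {A : Module.End F (Fin 3 → F)}, Acts r.1 A 1 → Commute r z :=
    fun {r A} hr => Acts.ext ((hr.mul hz).congr (mul_one A) (one_mul B))
      ((hz.mul hr).congr (one_mul A) (mul_one B))
  obtain ⟨x, hx⟩ : ∃ x, x = g * s * g⁻¹ := ⟨_, rfl⟩
  rw [← hx]
  simp only [← hx] at hshape
  have hxM : x ∈ M := hx ▸ mul_mem (mul_mem hgM hsM) (inv_mem hgM)
  have hxz : Commute x z := hx ▸ (hgz.mul_left (hsz hs)).mul_left hgz.inv_left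
  have hss : s * s = 1 := Acts.ext ((hs.mul hs).congr (sigA_sq ht) (one_mul 1)) acts_one
  have hσσ : σ * σ = 1 := Acts.ext ((hσ.mul hσ).congr (sigA_sq hu) (one_mul 1)) acts_one
  have hxx : x * x = 1 := by
    rw [hx, show g * s * g⁻¹ * (g * s * g⁻¹) = g * (s * s) * g⁻¹ by group, hss]; group
  have hsa : sigA D u a = -a := sigA_perp hua
  have hsb : sigA D u b = -b := sigA_perp hub
  have hsymm : ∀ y, D.f a (sigA D u y) = -D.f a y ∧ D.f b (sigA D u y) = -D.f b y := fun y => by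
    constructor
    · rw [← sigA_isom hu a (sigA D u y), hsa, show sigA D u (sigA D u y) = y from
        LinearMap.congr_fun (sigA_sq hu) y, map_neg, LinearMap.neg_apply]
    · rw [← sigA_isom hu b (sigA D u y), hsb, show sigA D u (sigA D u y) = y from
        LinearMap.congr_fun (sigA_sq hu) y, map_neg, LinearMap.neg_apply]
  -- they commute on the anisotropic side
  have hσc : ∀ w y, σ.1 (colMap w y) = colMap w (sigA D u y) := fun w y => hσ w y
  have hside : ∀ p q, x.1 (σ.1 (colMap a₁ p + colMap a₂ q)) = σ.1 (x.1 (colMap a₁ p + colMap a₂ q)) := by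
    intro p q
    rw [map_add, hσc, hσc, hshape, hshape]
    simp only [map_add, map_sub, map_smul, hσc, hsa, hsb, (hsymm p).1, (hsymm p).2, (hsymm q).1,
      (hsymm q).2, map_neg]
    module
  set d := x * σ * x * σ with hd
  have hdz : Commute d z := ((hxz.mul_left (hsz hσ)).mul_left hxz).mul_left (hsz hσ)
  have hdM : d ∈ M := mul_mem (mul_mem (mul_mem hxM hσM) hxM) hσM
  have hxx' : ∀ Y, x.1 (x.1 Y) = Y := fun Y => by
    rw [← LinearEquiv.mul_apply, ← Subgroup.coe_mul, hxx]; rfl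
  have hσσ' : ∀ Y, σ.1 (σ.1 Y) = Y := fun Y => by
    rw [← LinearEquiv.mul_apply, ← Subgroup.coe_mul, hσσ]; rfl
  have hdside : OnSide B e d 1 := by
    intro w hw y
    have hzw : z.1 (colMap w y) = e • colMap w y := by
      rw [hz, hw, colMap_smul_right]; rfl
    obtain ⟨p, q, hpq⟩ := side_form h hno hz hP hzw
    show x.1 (σ.1 (x.1 (σ.1 (colMap w y)))) = colMap w y
    rw [hpq, hside, hσσ', hxx']
  have hds : Commute d σ := kernel_comm h hno hz hP.Ba₁ (fun e0 => hP.na₁ (by simp [e0])) hdM hdz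
    hdside hu hσ hσM
  have hdx : Commute d x := by
    have hgd : Commute (g⁻¹ * d * g) s := by
      refine kernel_comm h hno hz hP.Ba₁ (fun e0 => hP.na₁ (by simp [e0]))
        (mul_mem (mul_mem (inv_mem hgM) hdM) hgM) ((hgz.inv_left.mul_left hdz).mul_left hgz) ?_
        ht hs hsM
      intro w hw y
      have e1 := congrArg (fun k : OQ D.Q => k.1 (colMap w y)) hgz.eq
      simp only [Subgroup.coe_mul, LinearEquiv.mul_apply] at e1
      rw [hz, Module.End.one_apply, hw, colMap_smul_right, map_smul] at e1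
      obtain ⟨p, q, hpq⟩ := side_form h hno hz hP e1.symm
      show g⁻¹.1 (d.1 (g.1 (colMap w y))) = colMap w y
      rw [hpq, map_add, hdside a₁ hP.Ba₁, hdside a₂ hP.Ba₂, Module.End.one_apply,
        Module.End.one_apply, ← hpq]
      exact g.1.symm_apply_apply _
    have := (Commute.conj_iff g).2 hgd
    rwa [show g * (g⁻¹ * d * g) * g⁻¹ = d by group, ← hx] at this
  have hσi : σ⁻¹ = σ := inv_eq_of_mul_eq_one_left hσσ
  have hxi : x⁻¹ = x := inv_eq_of_mul_eq_one_left hxx
  have hdd : d * d = 1 := by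
    have h1 : σ * d * σ⁻¹ = d⁻¹ := by
      rw [hd, hσi]
      calc σ * (x * σ * x * σ) * σ = σ * x * σ * x * (σ * σ) := by group
        _ = σ * x * σ * x := by rw [hσσ, mul_one]
        _ = σ⁻¹ * x⁻¹ * σ⁻¹ * x⁻¹ := by rw [hσi, hxi]
        _ = (x * σ * x * σ)⁻¹ := by group
    rw [← hds.eq, mul_inv_cancel_right] at h1
    nth_rw 1 [h1]
    exact inv_mul_cancel d
  have hdT : Tens d.1 := tens_of_comm h hno hu hσ hdM hds
  -- it is trivial
  have hd1 : d = 1 := by
    have hw1 : ∀ y, d.1 (colMap a₁ y) = colMap a₁ y := fun y => hdside a₁ hP.Ba₁ y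
    have na1 : a₁ ≠ 0 := fun e0 => hP.na₁ (by simp [e0])
    obtain ⟨y₀, hy₀⟩ : ∃ y : Fin 3 → F, y ≠ 0 := exists_ne 0
    have negc : ∀ y : Fin 3 → F, colMap a₁ y = -colMap a₁ y → y = 0 := fun y e1 => by
      have h2 : (2 : F) • colMap a₁ y = (0 : Matrix (Fin 3) (Fin 4) F) := by
        rw [two_smul]; nth_rw 1 [e1]; exact neg_add_cancel _
      exact colMap_injective na1 (((smul_eq_zero.1 h2).resolve_left D.hg.two).trans (map_zero _).symm)
    have hB'fix : ∀ {A : Module.End F (Fin 3 → F)} {B' : Module.End F (Fin 4 → F)} {y : Fin 3 → F},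
        Acts d.1 A B' → A y = y → y ≠ 0 → ∀ w, B w = e • w → B' w = w := by
      intro A B' y hact hAy hy0 w hw
      have e1 := (hact w y).symm.trans (hdside w hw y)
      rw [hAy, Module.End.one_apply] at e1
      obtain ⟨i, hi⟩ := Function.ne_iff.1 hy0
      funext j
      exact mul_left_cancel₀ hi (congrFun (congrFun e1 i) j)
    rcases kind_of_invol h hdM hdT hdd with hact | hact | ⟨t', ht', hact⟩ | ⟨t', ht', hact⟩ |
      ⟨B', hB', hact⟩ | ⟨t', B', ht', hB', hact⟩
    · exact Acts.ext hact acts_one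
    · exfalso
      have e1 := (hw1 y₀).symm.trans (hact a₁ y₀)
      rw [LinearMap.neg_apply, Module.End.one_apply, Module.End.one_apply, col_neg] at e1
      exact hy₀ (negc _ e1)
    · exfalso
      obtain ⟨t₁, t₂, hU'⟩ := exists_uframe ht'
      have e1 := (hw1 t₁).symm.trans (hact a₁ t₁)
      rw [sigA_perp hU'.h01, Module.End.one_apply, map_neg] at e1
      exact hU'.n1 (by rw [negc _ e1]; simp)
    · exfalso
      have e1 := (hw1 t').symm.trans (hact a₁ t')
      rw [sigA_self ht', LinearMap.neg_apply, Module.End.one_apply, col_neg] at e1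
      exact ht' (by rw [negc _ e1]; simp)
    · -- `d` is minus one on the other side
      exfalso
      obtain ⟨p₁, p₂, n₁', n₂', B1, B2, B3, B4, q1, q2, r1, r2, op, on⟩ := hB'.planes
      have fa : ∀ w, B w = e • w → B' w = w := hB'fix (y := y₀) hact rfl hy₀
      have hcross : ∀ w v, B' w = w → B' v = -v → D.g w v = 0 := fun w v hw hv => by
        have h1 := hB'.isom w v
        rw [hw, hv, map_neg] at h1
        have : (2 : F) * D.g w v = 0 := by linear_combination -h1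
        exact (mul_eq_zero.1 this).resolve_left D.hg.two
      have hnB : ∀ v, B' v = -v → B v = -e • v := fun v hv => by
        have d0 := hP.decomp v
        rw [hcross a₁ v (fa a₁ hP.Ba₁) hv, hcross a₂ v (fa a₂ hP.Ba₂) hv] at d0
        simp only [zero_div, zero_smul, zero_add] at d0
        rw [d0, map_add, map_smul, map_smul, hP.Bb₁, hP.Bb₂]
        module
      have hli : LinearIndependent F ![n₁', n₂'] := li_of_orth (g := D.g) (fun i j hij => by
          fin_cases i <;> fin_cases j <;> first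
            | exact absurd rfl hij
            | simp [on, D.hg.symm n₂' n₁'])
        fun i => by fin_cases i <;> simp [r1, r2]
      have hle : Submodule.span F (Set.range ![n₁', n₂']) ≤ Submodule.span F (Set.range ![b₁, b₂]) := by
        rw [Submodule.span_le]
        rintro _ ⟨i, rfl⟩
        have hb : ∀ v, B v = -e • v → v ∈ Submodule.span F (Set.range ![b₁, b₂]) := fun v hv => by
          rw [hP.eigen_other hv]
          exact add_mem (Submodule.smul_mem _ _ (Submodule.subset_span ⟨0, rfl⟩))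
            (Submodule.smul_mem _ _ (Submodule.subset_span ⟨1, rfl⟩))
        fin_cases i
        · exact hb _ (hnB _ B3)
        · exact hb _ (hnB _ B4)
      have heq : Submodule.span F (Set.range ![n₁', n₂']) = Submodule.span F (Set.range ![b₁, b₂]) := by
        refine Submodule.eq_of_le_of_finrank_le hle ?_
        rw [finrank_span_eq_card hli, Fintype.card_fin]
        exact (finrank_range_le_card ![b₁, b₂]).trans (by simp)
      have fb : ∀ v, B v = -e • v → B' v = -v := fun v hv => by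
        have : v ∈ Submodule.span F (Set.range ![n₁', n₂']) := by
          rw [heq, hP.eigen_other hv]
          exact add_mem (Submodule.smul_mem _ _ (Submodule.subset_span ⟨0, rfl⟩))
            (Submodule.smul_mem _ _ (Submodule.subset_span ⟨1, rfl⟩))
        obtain ⟨c, rfl⟩ := (Submodule.mem_span_range_iff_exists_fun F).1 this
        simp [Fin.sum_univ_two, B3, B4]; abel
      -- a common negated tensor of the other side
      obtain ⟨u', u'', hU⟩ := exists_uframe hu
      have nb1 : b₁ ≠ 0 := fun e0 => hP.nb₁ (by simp [e0])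
      let Φ : (Fin 4 → F) →ₗ[F] Matrix (Fin 3) (Fin 4) F :=
        (LinearMap.proj (R := F) (φ := fun _ : Fin 4 => F) 0).smulRight (colMap b₁ u') +
        (LinearMap.proj (R := F) (φ := fun _ : Fin 4 => F) 1).smulRight (colMap b₁ u'') +
        (LinearMap.proj (R := F) (φ := fun _ : Fin 4 => F) 2).smulRight (colMap b₂ u') +
        (LinearMap.proj (R := F) (φ := fun _ : Fin 4 => F) 3).smulRight (colMap b₂ u'')
      let Ψ : (Fin 4 → F) →ₗ[F] (Fin 2 → F) := LinearMap.pi fun i =>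
        D.f t ∘ₗ D.row (![b₁, b₂] i) ∘ₗ g⁻¹.1.toLinearMap ∘ₗ Φ
      have hker : LinearMap.ker Ψ ≠ ⊥ := LinearMap.ker_ne_bot_of_finrank_lt (by simp)
      obtain ⟨c, hc, hc0⟩ := (Submodule.ne_bot_iff _).1 hker
      set X := Φ c with hX
      have hXne : X ≠ 0 := by
        intro e0
        have h1 : ∀ (w : Fin 4 → F) (v : Fin 3 → F), D.f v (D.row w X) = 0 := fun w v => by
          rw [e0, map_zero, map_zero]
        have k1 := h1 b₁ u'
        have k2 := h1 b₁ u''
        have k3 := h1 b₂ u'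
        have k4 := h1 b₂ u''
        simp [hX, Φ, TD.row_col, hP.ob, D.hg.symm b₂ b₁, hU.h12, hU.h21, hP.nb₁, hP.nb₂, hU.n1,
          hU.n2] at k1 k2 k3 k4
        exact hc0 (funext fun i => by fin_cases i <;> assumption)
      have hσX : σ.1 X = -X := by
        simp [hX, Φ, hσc, sigA_perp hU.h01, sigA_perp hU.h02, map_neg]
        abel
      have hdX : d.1 X = -X := by
        simp [hX, Φ, hact _ _, fb _ hP.Bb₁, fb _ hP.Bb₂, col_neg]
        abel
      have hzX : z.1 X = -e • X := by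
        simp [hX, Φ, hz _ _, hP.Bb₁, hP.Bb₂, colMap_smul_right, col_neg]
        module
      have hzgX : z.1 (g⁻¹.1 X) = -e • g⁻¹.1 X := by
        have e1 := congrArg (fun k : OQ D.Q => k.1 X) hgz.inv_left.eq
        simp only [Subgroup.coe_mul, LinearEquiv.mul_apply] at e1
        rw [← e1, hzX, map_smul]
      have hc' : Ψ c = 0 := hc
      have g1 : D.f t (D.row b₁ (g⁻¹.1 X)) = 0 := congrFun hc' 0
      have g2 : D.f t (D.row b₂ (g⁻¹.1 X)) = 0 := congrFun hc' 1
      set Y := g⁻¹.1 X with hY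
      have hsY : s.1 Y = -Y := by
        set p' := (D.g a₁ a₁)⁻¹ • D.row a₁ Y
        set q' := (D.g a₂ a₂)⁻¹ • D.row a₂ Y
        set p := (D.g b₁ b₁)⁻¹ • D.row b₁ Y with hp
        set q := (D.g b₂ b₂)⁻¹ • D.row b₂ Y with hq
        have hdY : Y = colMap a₁ p' + colMap a₂ q' + colMap b₁ p + colMap b₂ q :=
          ext_colMap (φ := LinearMap.id)
            (ψ := colMap a₁ ∘ₗ ((D.g a₁ a₁)⁻¹ • D.row a₁) + colMap a₂ ∘ₗ ((D.g a₂ a₂)⁻¹ • D.row a₂) +
              colMap b₁ ∘ₗ ((D.g b₁ b₁)⁻¹ • D.row b₁) + colMap b₂ ∘ₗ ((D.g b₂ b₂)⁻¹ • D.row b₂))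
            (fun w v => by
              conv_lhs => rw [LinearMap.id_apply, hP.decomp w]
              simp only [TD.col_add, LinearMap.add_apply, LinearMap.comp_apply, LinearMap.smul_apply,
                TD.row_col, map_smul, smul_smul, colMap_smul_right, D.hg.symm w]
              simp only [div_eq_inv_mul]) Y
        have hzd := congrArg (fun X => z.1 X) hdY
        simp only [map_add, hz _ p, hz _ q, hz _ p', hz _ q', Module.End.one_apply, hP.Ba₁, hP.Ba₂,
          hP.Bb₁, hP.Bb₂, colMap_smul_right, hzgX] at hzd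
        have h0 : (2 * e) • (colMap a₁ p' + colMap a₂ q') = (0 : Matrix (Fin 3) (Fin 4) F) := by
          linear_combination (norm := module) (-1 : F) • hzd - e • hdY
        have e0 : e ≠ 0 := by rcases hP.e1 with r | r <;> simp [r]
        rw [(smul_eq_zero.1 h0).resolve_left (mul_ne_zero D.hg.two e0), zero_add] at hdY
        rw [hdY, map_add, hs, hs, sigA_perp (by rw [hp, map_smul, g1, smul_zero]),
          sigA_perp (by rw [hq, map_smul, g2, smul_zero])]
        simp only [map_neg, Module.End.one_apply]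
        abel
      have hxX : x.1 X = -X := by
        rw [hx]
        show g.1 (s.1 Y) = -X
        rw [hsY, map_neg, hY, show g.1 (g⁻¹.1 X) = X from g.1.apply_symm_apply _]
      have : d.1 X = X := by
        show x.1 (σ.1 (x.1 (σ.1 X))) = X
        simp [hσX, hxX, map_neg]
      rw [hdX] at this
      have h2 : (2 : F) • X = 0 := by rw [two_smul]; nth_rw 1 [← this]; exact neg_add_cancel X
      exact hXne ((smul_eq_zero.1 h2).resolve_left D.hg.two)
    · exfalso
      obtain ⟨t₁, t₂, hU'⟩ := exists_uframe ht'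
      have ht'0 : t' ≠ 0 := fun e0 => ht' (by simp [e0])
      have fa : B' a₁ = a₁ := hB'fix hact (sigA_self ht') ht'0 a₁ hP.Ba₁
      have e1 := (hw1 t₁).symm.trans (hact a₁ t₁)
      rw [sigA_perp hU'.h01, fa, map_neg] at e1
      exact hU'.n1 (by rw [negc _ e1]; simp)
  refine tens_of_comm h hno hu hσ hxM ?_
  have h1 : x * σ * x * σ = 1 := hd1
  have h2 : (x * σ)⁻¹ = x * σ := inv_eq_of_mul_eq_one_left (by rwa [← mul_assoc])
  rw [_root_.mul_inv_rev, hxi, hσi] at h2
  exact h2.symm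

/-- Conjugates inside the centraliser preserve the decomposition. -/
lemma conj_sig {g s : OQ D.Q} {t : Fin 3 → F} (hgM : g ∈ M) (hgz : Commute g z)
    (ht : D.f t t ≠ 0) (hs : Acts s.1 (sigA D t) 1) (hsM : s ∈ M) : Tens (g * s * g⁻¹).1 := by
  classical
  have hgs : z.1 (g.1 (colMap a₁ t)) = e • g.1 (colMap a₁ t) := by
    have e1 := congrArg (fun k : OQ D.Q => k.1 (colMap a₁ t)) hgz.eq
    simp only [Subgroup.coe_mul, LinearEquiv.mul_apply] at e1
    rw [← e1, (z_side hz hP t).1, map_smul]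
  obtain ⟨a, b, hab⟩ := side_form h hno hz hP hgs
  obtain ⟨hN, hshape⟩ := conj_shape h hno hz hP hgM hgz ht hs hsM hab
  by_cases hperp : ∃ u, D.f u u ≠ 0 ∧ D.f u a = 0 ∧ D.f u b = 0
  · obtain ⟨u, hu, hua, hub⟩ := hperp
    exact tens_of_perp h hno hz hP hgM hgz ht hs hsM hab hu hua hub
  exfalso
  push Not at hperp
  have h2 := D.hf.two
  have n1 := hP.na₁
  -- the common perpendicular is singular
  obtain ⟨ε, hε0, hεp⟩ : ∃ ε : Fin 3 → F, ε ≠ 0 ∧ ∀ i, D.f (![a, b] i) ε = 0 := by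
    obtain ⟨ε, hε, hp⟩ := Sym.exists_perp_avoid (g := D.f) ![a, b] ⊥ (by
      rw [finrank_bot, finrank_fin_fun]; omega)
    exact ⟨ε, fun e0 => hε (by simp [e0]), hp⟩
  have hea : D.f ε a = 0 := by rw [D.hf.symm]; exact hεp 0
  have heb : D.f ε b = 0 := by rw [D.hf.symm]; exact hεp 1
  have hee : D.f ε ε = 0 := by
    by_contra hne
    exact hperp ε hne hea heb
  obtain ⟨φ, hφ⟩ := D.hf.exists_hyp hee hε0
  have hφε : D.f φ ε = 1 := by rw [D.hf.symm, hφ.2.2]
  obtain ⟨ω, hω1, hω2, hωω⟩ := D.hf.exists_aniso_hyp (by rw [finrank_fin_fun]) hφ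
  have hωε : D.f ω ε = 0 := D.hf.perp_symm hω1
  have hωφ : D.f ω φ = 0 := D.hf.perp_symm hω2
  have hdec : ∀ y, D.f ε y = 0 → y = (D.f ω y / D.f ω ω) • ω + D.f φ y • ε := by
    intro y hy
    have hli : LinearIndependent F ![ω, ε, φ] := by
      refine Fintype.linearIndependent_iff.2 fun k hk => ?_
      simp [Fin.sum_univ_three] at hk
      have f0 := congrArg (D.f ω) hk
      have f1 := congrArg (D.f φ) hk
      have f2 := congrArg (D.f ε) hk
      simp [hωε, hωφ, hωω] at f0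
      simp [hω2, hφε, hφ.2.1] at f1
      simp [hω1, hee, hφ.2.2] at f2
      intro i
      fin_cases i
      · exact f0
      · exact f1
      · exact f2
    have htop : Submodule.span F (Set.range ![ω, ε, φ]) = ⊤ := Submodule.eq_top_of_finrank_eq (by
      rw [finrank_span_eq_card hli, Fintype.card_fin, finrank_fin_fun])
    obtain ⟨k, rfl⟩ := (Submodule.mem_span_range_iff_exists_fun F).1
      (show y ∈ Submodule.span F (Set.range ![ω, ε, φ]) from htop ▸ Submodule.mem_top)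
    simp [Fin.sum_univ_three, hω1, hee, hφ.2.2] at hy
    simp [Fin.sum_univ_three, hωε, hωφ, hωω, hω2, hφε, hφ.2.1, hy]
  obtain ⟨α₁, α₂, ha⟩ : ∃ x y : F, a = x • ω + y • ε := ⟨_, _, hdec a hea⟩
  obtain ⟨β₁, β₂, hb⟩ : ∃ x y : F, b = x • ω + y • ε := ⟨_, _, hdec b heb⟩
  set δ := D.g a₂ a₂ / D.g a₁ a₁ with hδ
  set N := D.f t t with hNdef
  have hκ : α₂ * β₁ - β₂ * α₁ ≠ 0 := by
    intro hκ
    have hfirst : α₁ ≠ 0 ∨ β₁ ≠ 0 := by
      by_contra hc
      push Not at hc
      refine ht ?_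
      rw [← hN, ha, hb, hc.1, hc.2]
      simp [hee]
    rcases hfirst with h1 | h1
    · by_cases h0 : α₂ = 0
      · have hb2 : β₂ = 0 := by
          rw [h0, zero_mul, zero_sub, neg_eq_zero] at hκ
          exact (mul_eq_zero.1 hκ).resolve_right h1
        refine hperp (ε + φ) ?_ ?_ ?_
        · simp [hee, hφε, hφ.2.1, hφ.2.2]
          exact fun e0 => h2 (by linear_combination e0)
        · simp [ha, h0, hω1, hω2]
        · simp [hb, hb2, hω1, hω2]
      · refine hperp (ω - (D.f ω ω * α₁ / α₂) • φ) ?_ ?_ ?_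
        · simp [hωφ, hω2, hφ.2.1, hωω]
        · simp [ha, hωε, hω2, hφε]; field_simp; ring
        · simp [hb, hωε, hω2, hφε]; field_simp
          linear_combination (D.f ω ω) * hκ
    · by_cases h0 : β₂ = 0
      · have ha2 : α₂ = 0 := by
          rw [h0, zero_mul, sub_zero] at hκ
          exact (mul_eq_zero.1 hκ).resolve_right h1
        refine hperp (ε + φ) ?_ ?_ ?_
        · simp [hee, hφε, hφ.2.1, hφ.2.2]
          exact fun e0 => h2 (by linear_combination e0)
        · simp [ha, ha2, hω1, hω2]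
        · simp [hb, h0, hω1, hω2]
      · refine hperp (ω - (D.f ω ω * β₁ / β₂) • φ) ?_ ?_ ?_
        · simp [hωφ, hω2, hφ.2.1, hωω]
        · simp [ha, hωε, hω2, hφε]; field_simp
          linear_combination -(D.f ω ω) * hκ
        · simp [hb, hωε, hω2, hφε]; field_simp; ring
  -- a second conjugate
  obtain ⟨r, hr0, hr⟩ : ∃ r : F, r ≠ 0 ∧ 2 * (α₂ * α₂ + δ * (β₂ * β₂)) / N - r ≠ 0 := by
    haveI := Fintype.ofFinite F
    classical
    obtain ⟨r, hr⟩ : ∃ r : F, r ∉ ({0, 2 * (α₂ * α₂ + δ * (β₂ * β₂)) / N} : Finset F) := by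
      by_contra hc
      push Not at hc
      have hle : Fintype.card F ≤ 2 := by
        rw [← Finset.card_univ]
        exact le_trans (Finset.card_le_card fun r _ => hc r) Finset.card_le_two
      have := h.card
      rw [Nat.card_eq_fintype_card] at this
      omega
    simp only [Finset.mem_insert, Finset.mem_singleton, not_or] at hr
    exact ⟨r, hr.1, sub_ne_zero.2 (Ne.symm hr.2)⟩
  set τ := φ + r • ε with hτ
  have hττ : D.f τ τ ≠ 0 := by
    have : D.f τ τ = 2 * r := by simp [hτ, hee, hφε, hφ.2.1, hφ.2.2]; ring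
    rw [this]; exact mul_ne_zero h2 hr0
  obtain ⟨σ, hσM, hσ⟩ := sig_mem h hττ
  obtain ⟨x, hx⟩ : ∃ x, x = g * s * g⁻¹ := ⟨_, rfl⟩
  simp only [← hx] at hshape
  have hsz : Commute s z := Acts.ext ((hs.mul hz).congr (mul_one _) (one_mul B))
    ((hz.mul hs).congr (one_mul _) (mul_one B))
  have hxM : x ∈ M := hx ▸ mul_mem (mul_mem hgM hsM) (inv_mem hgM)
  have hxz : Commute x z := hx ▸ (hgz.mul_left hsz).mul_left hgz.inv_left
  set lam := 2 * (α₂ * α₂ + δ * (β₂ * β₂)) / N - r with hlam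
  set a' := (2 * (α₁ * α₂ + δ * (β₁ * β₂)) / N) • ω + lam • ε - φ with ha'
  set b' := (2 * (α₂ * β₁ - β₂ * α₁) / N) • ω with hb'
  have ea : D.f a τ = α₂ := by simp [ha, hτ, hωφ, hωε, hee, hφ.2.2]
  have eb : D.f b τ = β₂ := by simp [hb, hτ, hωφ, hωε, hee, hφ.2.2]
  have himg : x.1 (colMap a₁ τ) = colMap a₁ a' + colMap a₂ b' := by
    have h1 := hshape τ 0
    rw [map_zero, add_zero, map_zero, map_zero, mul_zero, add_zero, zero_sub, ea, eb] at h1
    rw [h1, ha', hb', ha, hb, hτ, hlam]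
    simp only [map_add, map_sub, map_smul, smul_add, smul_smul, smul_sub]
    match_scalars <;> ring
  set u := lam • ε + φ with hu'
  have hu : D.f u u ≠ 0 := by
    have : D.f u u = 2 * lam := by simp [hu', hee, hφε, hφ.2.1, hφ.2.2]; ring
    rw [this]; exact mul_ne_zero h2 hr
  have hua : D.f u a' = 0 := by
    simp [hu', ha', hee, hφε, hφ.2.1, hφ.2.2, hω1, hω2]
  have hub : D.f u b' = 0 := by simp [hu', hb', hω1, hω2]
  have hT := tens_of_perp h hno hz hP hxM hxz hττ hσ hσM himg hu hua hub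
  obtain ⟨t', ht', hxt⟩ := sig_of_conj h hττ hσ rfl (mul_mem (mul_mem hxM hσM) (inv_mem hxM)) hT
  have hfix : (x * σ * x⁻¹).1 (x.1 (colMap a₁ τ)) = x.1 (colMap a₁ τ) := by
    show x.1 (σ.1 (x⁻¹.1 (x.1 (colMap a₁ τ)))) = _
    rw [show x⁻¹.1 (x.1 (colMap a₁ τ)) = colMap a₁ τ from x.1.symm_apply_apply _, sig_col hττ hσ]
  obtain ⟨w, hw⟩ := fixed_sig hxt hfix
  rw [himg] at hw
  have r1 := congrArg (D.row a₁) hw
  have r2 := congrArg (D.row a₂) hw
  simp [TD.row_col, hP.oa, D.hg.symm a₂ a₁] at r1 r2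
  have s1 := congrArg (D.f ε) r1
  have s2 := congrArg (D.f ε) r2
  have s3 := congrArg (D.f ω) r2
  simp [ha', hb', hω1, hee, hφ.2.2] at s1 s2
  simp [hb'] at s3
  have hwt : D.g w a₂ ≠ 0 := fun e0 => by
    rw [e0, zero_mul] at s3
    have : D.g a₂ a₂ * (2 * (α₂ * β₁ - β₂ * α₁) / N * D.f ω ω) = 0 := by linear_combination s3
    exact mul_ne_zero hP.na₂ (mul_ne_zero (div_ne_zero (mul_ne_zero h2 hκ) ht) hωω) this
  have hεt : D.f ε t' = 0 := by
    rcases s2 with e0 | e0
    · exact absurd e0 hwt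
    · exact e0
  rw [hεt, mul_zero] at s1
  exact n1 (by linear_combination -s1)

/-- The centraliser of `1 ⊗ B` preserves the decomposition. -/
theorem tens_of_comm_plane_aux {g : OQ D.Q} (hgM : g ∈ M) (hgz : Commute g z) : Tens g.1 := by
  obtain ⟨u, hu⟩ : ∃ u : Fin 3 → F, D.f u u ≠ 0 := by
    obtain ⟨x, -, hx0, hx⟩ := D.hf.exists_iso (S := (⊤ : Submodule F (Fin 3 → F)))
      (by rw [finrank_top, finrank_fin_fun])
    obtain ⟨x', hxx'⟩ := D.hf.exists_hyp hx hx0
    obtain ⟨e, -, -, he⟩ := D.hf.exists_aniso_hyp (by rw [finrank_fin_fun]) hxx'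
    exact ⟨e, he⟩
  obtain ⟨s, hsM, hs⟩ := sig_mem h hu
  obtain ⟨t, ht, hxt⟩ := sig_of_conj h hu hs rfl (mul_mem (mul_mem hgM hsM) (inv_mem hgM))
    (conj_sig h hno hz hP hgM hgz hu hs hsM)
  exact tens_of_conj h hno hu ht hs hxt hgM rfl

end Main

/-- The centraliser of `1 ⊗ B` preserves the decomposition. -/
theorem tens_of_comm_plane (h : Ctx D M) (hno : NoRoot M) {B : Module.End F (Fin 4 → F)}
    (hB : PlaneInvol D B) {z g : OQ D.Q} (hz : Acts z.1 1 B) (hg : g ∈ M) (hgz : Commute g z) :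
    Tens g.1 := by
  obtain ⟨e, a₁, a₂, b₁, b₂, hP⟩ := exists_planes h hB
  exact tens_of_comm_plane_aux h hno hz hP hg hgz

end Cfsg.Agent.MaxSub.OrthTwelve
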