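import Cfsg.Agent.MaxSub.OrthTwelve.Basic

/-!
One root element at a pure singular tensor gives all of `Ω`.
-/

set_option autoImplicit false
set_option linter.unusedSectionVars false

namespace Cfsg.Agent.MaxSub.OrthTwelve

open Module Matrix QuadraticMap Cfsg.Agent.MaxSub.TensorMax Cfsg.Agent.MaxSub.OrthTensor
open Cfsg.Agent.Classical
open Cfsg.Agent.GeoClasses (siegelCentres commutator_le_of_centre_pair)

variable {F : Type*} [Field F] [Finite F] {D : TD F 3 4} {M : Subgroup (OQ D.Q)}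

/-- No root elements at pure singular tensors. -/
def NoRoot (M : Subgroup (OQ D.Q)) : Prop :=
  ∀ v, D.g v v = 0 → v ≠ 0 → ∀ A : Module.End F (Fin 3 → F),
    (∀ p q, D.f (A p) q = -D.f p (A q)) → D.Mem M (D.cr v v A) → A = 0

variable (h : Ctx D M)
include h

lemma three_le : 3 ≤ finrank F (Fin 3 → F) := by rw [finrank_fin_fun]

/-- A skew map fixed by the conjugations at a singular vector. -/
lemma skew_fixed {x x' e : Fin 3 → F} (hx : Hyp D.f x x') (he : D.f x e = 0) (he' : D.f x' e = 0)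
    (hee : D.f e e ≠ 0) {A : Module.End F (Fin 3 → F)} (hsk : ∀ p q, D.f (A p) q = -D.f p (A q))
    (hfix : ∀ y, D.f x y = 0 → (1 + sie D.f x y) * (A * (1 + sie D.f x (-y))) - A = 0) :
    ∃ t : F, A = t • wed D.f e x := by
  have h2 := D.hf.two
  have hcomm : ∀ y, D.f x y = 0 → (1 + sie D.f x y) * A = A * (1 + sie D.f x y) := by
    intro y hy
    have hinv : (1 + sie D.f x (-y)) * (1 + sie D.f x y) = 1 := by
      rw [D.hf.sie_comp hx.1 (by rw [map_neg, hy, neg_zero]) hy, neg_add_cancel, Sym.sie_zero,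
        add_zero]
    have h1 := congrArg (fun T => T * (1 + sie D.f x y)) (sub_eq_zero.1 (hfix y hy))
    simp only [mul_assoc, hinv, mul_one] at h1
    exact h1
  have hx'x : D.f x' x = 1 := by rw [D.hf.symm, hx.2.2]
  have hdiag : ∀ p, D.f p (A p) = 0 := fun p => by
    have h1 := hsk p p
    rw [D.hf.symm (A p) p, eq_neg_iff_add_eq_zero, ← two_mul] at h1
    exact (mul_eq_zero.1 h1).resolve_left h2
  have hex : D.f e x = 0 := D.hf.perp_symm he
  have hex' : D.f e x' = 0 := D.hf.perp_symm he'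
  -- the values of `A` on the pairs
  have key := LinearMap.congr_fun (hcomm e he)
  have kx := key x
  have kx' := key x'
  simp only [Module.End.mul_apply, LinearMap.add_apply, Module.End.one_apply, sie_apply, map_add,
    map_sub, map_smul, hx.1, hex, hx.2.2, hex', one_smul, zero_smul, mul_zero, mul_one, sub_zero,
    add_zero] at kx kx'
  have exx : D.f x (A x) = 0 := hdiag x
  have ee : D.f e (A e) = 0 := hdiag e
  have exe : D.f e (A x) = 0 := by
    have h1 := congrArg (D.f x') kx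
    simp only [map_add, map_sub, map_smul, smul_eq_mul, he', hx'x, exx, mul_zero, mul_one, zero_sub,
      sub_zero] at h1
    linear_combination -h1
  have exx' : D.f x' (A x) = 0 := by
    have h1 := congrArg (D.f e) kx'
    simp only [map_add, map_sub, map_smul, smul_eq_mul, hex, ee, exe, mul_zero, sub_zero,
      add_zero] at h1
    have h3 : D.f x (A x') = 0 := by
      have : D.f x (A x') * D.f e e = 0 := by linear_combination h1
      exact (mul_eq_zero.1 this).resolve_right hee
    rw [D.hf.symm, hsk, h3, neg_zero]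
  have hperp : ∀ e', D.f x e' = 0 → D.f x' e' = 0 → e' = (D.f e e' / D.f e e) • e := by
    intro e' h1 h3
    refine sub_eq_zero.1 (D.hf.nd _ fun q => ?_)
    by_contra hne
    -- the space is spanned by `x, x', e`
    have hspan : Submodule.span F (Set.range ![x, x', e]) = ⊤ := by
      refine Submodule.eq_top_of_finrank_eq ?_
      rw [finrank_span_eq_card, Fintype.card_fin, finrank_fin_fun]
      refine Fintype.linearIndependent_iff.2 fun c hc => ?_
      simp [Fin.sum_univ_three] at hc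
      have e1 := congrArg (D.f x) hc
      have e2 := congrArg (D.f x') hc
      have e3 := congrArg (D.f e) hc
      simp [hx.1, hx.2.2, he] at e1
      simp [hx.2.1, hx'x, he'] at e2
      simp [hex, hex', hee] at e3
      intro i
      fin_cases i
      · exact e2
      · exact e1
      · exact e3
    obtain ⟨c, rfl⟩ := (Submodule.mem_span_range_iff_exists_fun F).1
      (show q ∈ Submodule.span F (Set.range ![x, x', e]) from hspan ▸ Submodule.mem_top)
    refine hne ?_
    simp [Fin.sum_univ_three, D.hf.symm e' x, D.hf.symm e' x', h1, h3, hex, hex',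
      D.hf.symm e' e]
    field_simp
    ring
  refine ⟨-D.f x' (A e) / D.f e e, LinearMap.ext fun p => ?_⟩
  -- decompose
  have hdec : ∀ p, p = D.f x' p • x + D.f x p • x' + (D.f e p / D.f e e) • e := fun p => by
    have h1 := hperp (p - D.f x' p • x - D.f x p • x') (by simp [hx.1, hx.2.2])
      (by simp [hx.2.1, hx'x])
    simp [hex, hex'] at h1
    linear_combination (norm := module) h1
  have sk : ∀ p q, D.f q (A p) = -D.f p (A q) := fun p q => by rw [D.hf.symm, hsk]
  have Ax : A x = 0 := by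
    rw [hdec (A x), exx', exx, exe]; simp
  have Ax' : A x' = (-D.f x' (A e) / D.f e e) • e := by
    rw [hdec (A x'), hdiag x', sk x' x, exx', sk x' e]
    simp
  have Ae : A e = D.f x' (A e) • x := by
    conv_lhs => rw [hdec (A e), hdiag e, sk e x, exe]
    simp
  conv_lhs => rw [hdec p]
  simp only [map_add, map_smul, Ax, Ax', wed_apply, LinearMap.smul_apply, smul_zero, zero_add]
  rw [Ae]
  simp only [smul_sub, smul_smul, map_smul, smul_eq_mul]
  match_scalars <;> field_simp [hx'x] <;> ring_nf <;> simp [hx'x]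

/-- One root element gives all root elements at its vector. -/
lemma roots_of_root {v : Fin 4 → F} (hv : D.g v v = 0) {A : Module.End F (Fin 3 → F)}
    (hsk : ∀ p q, D.f (A p) q = -D.f p (A q)) (hA : A ≠ 0) (hm : D.Mem M (D.cr v v A)) :
    D.Roots M v := by
  have hsq : ∀ P Q : Module.End F (Fin 3 → F), D.cr v v P * D.cr v v Q = 0 := fun P Q => by
    rw [TD.cr_mul_cr, hv, zero_smul]
  let S : AddSubgroup (Module.End F (Fin 3 → F)) :=
    { carrier := {P | D.Mem M (D.cr v v P) ∧ ∀ p q, D.f (P p) q = -D.f p (P q)}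
      zero_mem' := ⟨TD.mem_zero.congr (TD.cr_zero v v).symm, fun p q => by simp⟩
      add_mem' := fun {P Q} ⟨hP, hP'⟩ ⟨hQ, hQ'⟩ =>
        ⟨(hP.add hQ (hsq P Q)).congr (TD.cr_add v v P Q).symm, fun p q => by
          simp [map_add, hP', hQ']; ring⟩
      neg_mem' := fun {P} ⟨hP, hP'⟩ =>
        ⟨(hP.neg (hsq P P)).congr (TD.cr_neg v v P).symm, fun p q => by simp [hP']⟩ }
  have hconj : ∀ {x y}, D.f x x = 0 → D.f x y = 0 → ∀ P ∈ S,
      (1 + sie D.f x y) * (P * (1 + sie D.f x (-y))) ∈ S := by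
    rintro x y hx hxy P ⟨hP, hP'⟩
    have hn : D.f x (-y) = 0 := by rw [map_neg, hxy, neg_zero]
    have hinv : (1 + sie D.f x y) * (1 + sie D.f x (-y)) = 1 := by
      rw [D.hf.sie_comp hx hxy hn, add_neg_cancel, Sym.sie_zero, add_zero]
    obtain ⟨k, hk, hact, -⟩ := h.left_mem hx hxy
    refine ⟨hP.conj hk fun X => ?_, fun p q => ?_⟩
    · have hkX : ∀ Y, k.1 Y = leftMap (1 + sie D.f x y) Y := fun Y => ext_colMap
        (φ := k.1.toLinearMap) (fun w u => by
          rw [LinearEquiv.coe_coe, hact, leftMap_colMap]; rfl) Y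
      rw [hkX, hkX, TD.leftMap_conj hinv, mul_assoc]
    · have e : ∀ r, (1 + sie D.f x y) ((1 + sie D.f x (-y)) r) = r := fun r =>
        LinearMap.congr_fun hinv r
      simp only [Module.End.mul_apply]
      conv_lhs => rw [← e q]
      conv_rhs => rw [← e p]
      rw [one_add_sie_skew D.hf hx hxy, one_add_sie_skew D.hf hx hxy, hP']
  have hS : ∀ x y, D.f x x = 0 → D.f x y = 0 → ∀ p q, wed D.f p q ∈ S →
      wed D.f (p + sie D.f x y p) (q + sie D.f x y q) ∈ S := fun x y hx hxy p q hpq => by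
    rw [← D.hf.wed_conj hx hxy]; exact hconj hx hxy _ hpq
  obtain ⟨x, -, hx0, hxx⟩ := D.hf.exists_iso (S := (⊤ : Submodule F (Fin 3 → F)))
    (by rw [finrank_top]; exact three_le h)
  obtain ⟨x', hx⟩ := D.hf.exists_hyp hxx hx0
  obtain ⟨e, he, he', hee⟩ := D.hf.exists_aniso_hyp (three_le h) hx
  obtain ⟨P, hP, hP0, hfix⟩ := D.hf.exists_fixed hxx S ⊥ (fun y hy P hP => hconj hxx hy P hP)
    (fun y _ P hP => by rw [AddSubgroup.mem_bot] at hP ⊢; simp [hP])
    ⟨A, ⟨hm, hsk⟩, by simpa using hA⟩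
  obtain ⟨t, ht⟩ := skew_fixed h hx he he' hee hP.2 fun y hy => AddSubgroup.mem_bot.1 (hfix y hy)
  have ht0 : t ≠ 0 := fun h0 => hP0 (AddSubgroup.mem_bot.2 (by rw [ht, h0, zero_smul]))
  have hwed : wed D.f (t • e) x = P := by
    rw [ht]; exact LinearMap.ext fun p => by simp [wed_apply]; module
  have hall := D.hf.hyp_of_aniso hS hx (e := t • e) (by simp [he]) (by simp [he'])
    (by simp [ht0, hee]) (hwed ▸ hP)
  exact fun u u' => (D.hf.all_wed_of_hyp hS hx hall u u').1

/-- Root elements spread to all singular vectors. -/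
lemma roots_all' {v : Fin 4 → F} (hv : D.g v v = 0) (hv0 : v ≠ 0) (hR : D.Roots M v)
    {w : Fin 4 → F} (hw : D.g w w = 0) (hw0 : w ≠ 0) : D.Roots M w := by
  have hscale : ∀ {v : Fin 4 → F} {t : F}, D.Roots M v → D.Roots M (t • v) := fun {v t} hv u u' =>
    (hv ((t * t) • u) u').congr (by
      rw [show wed D.f ((t * t) • u) u' = (t * t) • wed D.f u u' from
        LinearMap.ext fun p => by simp [wed_apply, smul_sub, smul_smul, mul_comm],
        TD.cr_smul, TD.cr_smul_left, TD.cr_smul_right, smul_smul])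
  by_cases hvw : D.g v w = 0
  · by_cases hmem : w ∈ F ∙ v
    · obtain ⟨t, rfl⟩ := Submodule.mem_span_singleton.1 hmem
      exact hscale hR
    · exact absurd ⟨hv0, hmem, hv, hw, hvw⟩ (h.nopair v w)
  set q := (D.g v w)⁻¹ • w with hq
  have hvq : D.g v q = 1 := by rw [hq, map_smul, smul_eq_mul, inv_mul_cancel₀ hvw]
  have hqv : D.g q v = 1 := by rw [D.hg.symm, hvq]
  have hqq : D.g q q = 0 := by simp [hq, hw]
  obtain ⟨z, hz, hz', hzz⟩ := D.hg.exists_aniso_hyp (by rw [finrank_fin_fun]; omega)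
    (x := v) (x' := q) ⟨hv, hqq, hvq⟩
  set u := v + z - (D.g z z / 2) • q with hu
  have h2 := D.hg.two
  have huu : D.g u u = 0 := by
    simp [hu, hv, hqq, hvq, hqv, hz, hz', D.hg.symm z v, D.hg.symm z q]
    field_simp
    ring
  have huv : D.g u v = -(D.g z z / 2) := by simp [hu, hv, hqv, D.hg.symm z v, hz]
  have huq : D.g u q = 1 := by simp [hu, hqq, hvq, D.hg.symm z q, hz']
  have huv0 : D.g u v ≠ 0 := by rw [huv]; exact neg_ne_zero.2 (div_ne_zero hzz h2)
  set p := (D.g u v)⁻¹ • v with hp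
  have hup : D.g u p = 1 := by rw [hp, map_smul, smul_eq_mul, inv_mul_cancel₀ huv0]
  have hpp : D.g p p = 0 := by simp [hp, hv]
  have huy : D.g u (q - p) = 0 := by rw [map_sub, hup, huq, sub_self]
  have hT : p + sie D.g u (q - p) p = q := by
    rw [sie_apply, hup]
    simp only [map_sub, LinearMap.sub_apply, hpp, hqq, D.hg.symm q p, sub_zero, one_smul, mul_one]
    match_scalars <;> field_simp <;> ring
  have hpR : D.Roots M p := hscale hR
  have hqR : D.Roots M q := fun r r' => by
    obtain ⟨k, hk, -, hkX⟩ := h.right_mem huu huy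
    refine (hpR r r').conj hk fun X => ?_
    rw [TD.cr_moved huu huy hkX, hT]
  have := hscale (t := D.g v w) hqR
  rwa [hq, smul_inv_smul₀ hvw] at this

/-- Pure singular tensors are centres. -/
lemma col_mem_centres' (hR : ∀ w, D.g w w = 0 → w ≠ 0 → D.Roots M w) {v : Fin 4 → F}
    (hv : D.g v v = 0) (hv0 : v ≠ 0) {u : Fin 3 → F} (hu : u ≠ 0) :
    colMap v u ∈ siegelCentres D.Q M := by
  classical
  have hQ : ∀ {v : Fin 4 → F}, D.g v v = 0 → ∀ u, D.Q (colMap v u) = 0 := fun hv u => by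
    rw [TD.Q_col, hv, mul_zero, zero_div]
  have hroot : ∀ {v : Fin 4 → F} (hv : D.g v v = 0), v ≠ 0 → ∀ u u' : Fin 3 → F,
      colMap v u' ∈ TD.par M (hQ hv u) := by
    intro v hv hv0 u u'
    have h0 : polar D.Q (colMap v u) (colMap v u') = 0 := by rw [TD.polar_col_col, hv, mul_zero]
    obtain ⟨m, hm, hmX⟩ := hR v hv hv0 u' u
    refine ⟨h0, ?_⟩
    suffices siegel D.Q (hQ hv u) h0 = m by rw [this]; exact hm
    exact Subtype.ext (LinearEquiv.ext fun X => (TD.siegel_col hv u u' _ _ X).trans (hmX X).symm)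
  obtain ⟨v', hv'⟩ := D.hg.exists_hyp hv hv0
  have col0 : ∀ e : Fin 3 → F, colMap (0 : Fin 4 → F) e = (0 : Matrix (Fin 3) (Fin 4) F) :=
    fun e => by ext i j; simp [colMap, vecMulVec_apply]
  have stepB : ∀ {v : Fin 4 → F} (hv : D.g v v = 0), v ≠ 0 → ∀ {u : Fin 3 → F}, u ≠ 0 →
      ∀ e, D.f u e = 0 → ∀ w, colMap w e ∈ TD.par M (hQ hv u) := by
    intro v hv hv0 u hu e he w
    obtain ⟨v', hv'⟩ := D.hg.exists_hyp hv hv0
    let T : Submodule F (Fin 4 → F) :=
      { carrier := {w | ∀ e, D.f u e = 0 → colMap w e ∈ TD.par M (hQ hv u)}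
        zero_mem' := fun e _ => by rw [col0]; exact zero_mem _
        add_mem' := fun {w w'} hw hw' e he => by rw [TD.col_add]; exact add_mem (hw e he) (hw' e he)
        smul_mem' := fun t w hw e he => by
          rw [colMap_smul_right, ← map_smul]; exact hw _ (by simp [he]) }
    suffices hT : T = ⊤ from (hT ▸ Submodule.mem_top : w ∈ T) e he
    have hgen : ∀ v1, D.g v1 v1 = 0 → D.g v v1 ≠ 0 → v1 ∈ T := fun v1 hv1 hκ e he => by
      rcases eq_or_ne e 0 with rfl | he0
      · rw [map_zero]; exact zero_mem _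
      have hv10 : v1 ≠ 0 := fun h0 => hκ (by simp [h0])
      obtain ⟨u₁, hu₁, hu₁u⟩ := Sym.exists_perp_avoid (g := D.f) ![u] (F ∙ e) (by
        rw [finrank_span_singleton he0, finrank_fin_fun]; omega)
      obtain ⟨u', hu', hperp⟩ := D.hf.exists_pair_sub hu₁
      have h1 : D.f e u' = 0 := hperp e (Submodule.mem_span_singleton_self e)
      have h2 : D.f u u₁ = 0 := hu₁u 0
      obtain ⟨m, hm, hmX⟩ := hR v1 hv1 hv10 e ((D.g v v1)⁻¹ • u₁)
      have hfix : m.1 (colMap v u) = colMap v u := by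
        simp [hmX, TD.cr_apply, TD.row_col, wed_apply, D.hf.symm u₁ u, h2, D.hf.symm e u, he]
      have hmem := hroot hv hv0 u u'
      have := sub_mem (TD.map_mem_par hmem hm hfix) hmem
      convert this using 1
      simp [hmX, TD.cr_apply, TD.row_col, wed_apply, hu', h1, hκ]
    have hv'T : v' ∈ T := hgen v' hv'.2.1 (by rw [hv'.2.2]; exact one_ne_zero)
    have hlift : ∀ y, D.g v y = 0 → D.g v' y = 0 → v' + y - (D.g y y / 2) • v ∈ T := fun y e1 e2 =>
      hgen _ (by
        have := D.hg.two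
        simp [hv'.1, hv'.2.1, hv'.2.2, D.hg.symm v' v, e1, e2, D.hg.symm y v, D.hg.symm y v']
        field_simp
        ring) (by simp [hv'.1, hv'.2.2, e1])
    obtain ⟨z, hz1, hz2, hzz⟩ := D.hg.exists_aniso_hyp (by rw [finrank_fin_fun]; omega) hv'
    have hsum := sub_mem (add_mem (hlift z hz1 hz2) (hlift (-z) (by simp [hz1]) (by simp [hz2])))
      (add_mem hv'T hv'T)
    have e0 : (v' + z - (D.g z z / 2) • v) + (v' + -z - (D.g (-z) (-z) / 2) • v) - (v' + v') =
        (-(D.g z z)) • v := by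
      have h2' := D.hg.two
      simp only [map_neg, LinearMap.neg_apply, neg_neg]
      match_scalars <;> field_simp <;> ring
    rw [e0] at hsum
    have hvT : v ∈ T := (Submodule.smul_mem_iff T (neg_ne_zero.2 hzz)).1 hsum
    refine eq_top_iff.2 fun y _ => ?_
    set y₀ := y - D.g v' y • v - D.g v y • v' with hy₀
    have e1 : D.g v y₀ = 0 := by simp [hy₀, hv'.1, hv'.2.2]
    have e2 : D.g v' y₀ = 0 := by simp [hy₀, hv'.2.1, D.hg.symm v' v, hv'.2.2]
    have := add_mem (add_mem (add_mem (sub_mem (hlift _ e1 e2) hv'T)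
      (T.smul_mem (D.g y₀ y₀ / 2) hvT)) (T.smul_mem (D.g v' y) hvT)) (T.smul_mem (D.g v y) hv'T)
    convert this using 1
    rw [hy₀]; abel
  -- lines in the orthogonal
  have stepD : ∀ x : Fin 4 → F, D.g v x = 0 → ∀ f₀, colMap x f₀ ∈ TD.par M (hQ hv u) := by
    intro x hvx f₀
    obtain ⟨φ, hφ, hφu⟩ := Sym.exists_perp_avoid (g := D.f) ![u] (F ∙ u) (by
      rw [finrank_span_singleton hu, finrank_fin_fun]; omega)
    have huφ : D.f u φ = 0 := hφu 0
    have hφ0 : φ ≠ 0 := fun h0 => hφ (h0 ▸ zero_mem _)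
    have hunφ : u ∉ F ∙ φ := fun hm => by
      obtain ⟨t, ht⟩ := Submodule.mem_span_singleton.1 hm
      rcases eq_or_ne t 0 with rfl | ht0
      · exact hu (by rw [← ht, zero_smul])
      · exact hφ (Submodule.mem_span_singleton.2 ⟨t⁻¹, by rw [← ht, inv_smul_smul₀ ht0]⟩)
    obtain ⟨e, hφe, heS⟩ := D.hf.exists_pair_sub hφ
    have hue : D.f u e = 0 := heS u (Submodule.mem_span_singleton_self u)
    obtain ⟨e2, hue2, he2S⟩ := D.hf.exists_pair_sub hunφ
    have hφe2 : D.f φ e2 = 0 := he2S φ (Submodule.mem_span_singleton_self φ)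
    have hv'0 : v' ≠ 0 := fun h0 => by have := hv'.2.2; simp [h0] at this
    have hvv'1 : D.g v' v = 1 := by rw [D.hg.symm, hv'.2.2]
    set c := D.f u f₀ with hc
    have htgt : colMap x (c • e2) ∈ TD.par M (hQ hv u) := by
      obtain ⟨hp, hp'⟩ := stepB hv'.2.1 hv'0 hφ0 (c • e2) (by simp [hφe2]) x
      have hfix : (siegel D.Q (hQ hv'.2.1 φ) hp).1 (colMap v u) = colMap v u := by
        refine siegel_fix D.Q _ hp ?_ ?_ <;> rw [TD.polar_col_col]
        · rw [D.hf.symm φ u, huφ, zero_mul]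
        · rw [D.hg.symm x v, hvx, mul_zero]
      have hmem := stepB hv hv0 hu e hue v
      have h3 := sub_mem (TD.map_mem_par hmem hp' hfix) hmem
      have h4 := add_mem h3 (stepB hv hv0 hu ((D.f (c • e2) e * D.g x v +
        D.Q (colMap x (c • e2))) • φ) (by simp [huφ]) v')
      convert h4 using 1
      rw [siegel_apply]
      simp only [TD.polar_col_col, hφe, hvv'1, mul_one, one_mul, D.hg.symm x v, hvx, mul_zero,
        zero_add]
      simp only [map_smul, smul_smul]
      module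
    have h5 := add_mem htgt (stepB hv hv0 hu (f₀ - c • e2) (by simp [hc, hue2]) x)
    rwa [← map_add, add_sub_cancel] at h5
  refine ⟨hQ hv u, fun X hX => ?_⟩
  suffices hmem : X ∈ TD.par M (hQ hv u) from hmem.2
  have hdec : X = ∑ j, colMap (Pi.single j 1 - D.g v (Pi.single j 1) • v') (fun i => X i j) +
      colMap v' (D.row v X) := by
    have e1 : ∀ (x : Fin 4 → F) (p : Fin 3 → F), colMap (x - D.g v x • v') p =
        colMap x p - colMap v' (D.row v (colMap x p)) := fun x p => by
      rw [TD.row_col, D.hg.symm x v, TD.col_sub, map_smul, colMap_smul_right]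
    simp only [e1]
    rw [Finset.sum_sub_distrib, ← map_sum, ← map_sum, ← eq_sum_colMap, sub_add_cancel]
  rw [hdec]
  refine add_mem (sum_mem fun j _ => stepD _ (by simp [hv'.2.2]) _) (stepB hv hv0 hu _ ?_ v')
  rw [D.hf.symm, ← TD.polar_col_left, hX]

/-- One root element gives `Ω`. -/
theorem commutator_le_of_root (hno : ¬ NoRoot M) : commutator (OQ D.Q) ≤ M := by
  unfold NoRoot at hno
  push Not at hno
  obtain ⟨w, hw, hw0, A, hsk, hm, hA⟩ := hno
  have hR : ∀ z, D.g z z = 0 → z ≠ 0 → D.Roots M z := fun z hz hz0 =>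
    roots_all' h hw hw0 (roots_of_root h hw hsk hA hm) hz hz0
  have hn : 5 ≤ finrank F (Matrix (Fin 3) (Fin 4) F) := by
    rw [Module.finrank_matrix, Module.finrank_self, Fintype.card_fin, Fintype.card_fin]; norm_num
  obtain ⟨w', hww'⟩ := D.hg.exists_hyp hw hw0
  obtain ⟨x, -, hx0, hx⟩ := D.hf.exists_iso (S := (⊤ : Submodule F (Fin 3 → F)))
    (by rw [finrank_top]; exact three_le h)
  obtain ⟨x', hxx'⟩ := D.hf.exists_hyp hx hx0
  have hw'0 : w' ≠ 0 := fun h => by have := hww'.2.2; simp [h] at this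
  have hx'0 : x' ≠ 0 := fun h => by have := hxx'.2.2; simp [h] at this
  refine commutator_le_of_centre_pair D.bNondeg hn (col_mem_centres' h hR hww'.1 hw0 hx0)
    (col_mem_centres' h hR hww'.2.1 hw'0 hx'0) ?_
  rw [TD.polar_col_col, D.hf.symm, hxx'.2.2, D.hg.symm, hww'.2.2, mul_one]
  exact one_ne_zero

end Cfsg.Agent.MaxSub.OrthTwelve
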