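import Cfsg.Agent.MaxSub.OrthTwelve.Frames
import Cfsg.Agent.MaxSub.OrthTwelve.Roots

/-!
Maps commuting with the Eichler transformations of the second factor at a singular vector, and the
members of that shape fixing the tensors of an anisotropic vector.
-/

set_option autoImplicit false
set_option linter.unusedSectionVars false

namespace Cfsg.Agent.MaxSub.OrthTwelve

open Module Matrix QuadraticMap Cfsg.Agent.MaxSub.TensorMax Cfsg.Agent.MaxSub.OrthTensor
open Cfsg.Agent.Classical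

variable {F : Type*} [Field F] {D : TD F 3 4}

/-- The shape of `Z - 1` when `Z` commutes with the Eichler transformations at `v`. -/
def unip (D : TD F 3 4) (v z₁ z₂ : Fin 4 → F) (P₁ P₂ C : Module.End F (Fin 3 → F)) :
    Module.End F (Matrix (Fin 3) (Fin 4) F) :=
  D.cr z₁ v P₁ - D.cr v z₁ P₁ + (D.cr z₂ v P₂ - D.cr v z₂ P₂) + D.cr v v C

variable {v v' z₁ z₂ : Fin 4 → F}

lemma sieW_apply (y : Fin 4 → F) (X : Matrix (Fin 3) (Fin 4) F) :
    D.sieW v y X = colMap y (D.row v X) - colMap v (D.row y X) -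
      (D.g y y / 2) • colMap v (D.row v X) := by
  simp [TD.sieW, TD.cr_apply]

lemma col_zero (u : Fin 3 → F) : colMap (0 : Fin 4 → F) u = (0 : Matrix (Fin 3) (Fin 4) F) := by
  ext i j; simp [colMap, vecMulVec_apply]

lemma col_neg (w : Fin 4 → F) (u : Fin 3 → F) : colMap (-w) u = -colMap w u := by
  rw [eq_neg_iff_add_eq_zero, ← TD.col_add, neg_add_cancel, col_zero]

/-- Maps commuting with the Eichler transformations at `v`. -/
lemma commutant (hW : WFrame D v v' z₁ z₂) {Z : Module.End F (Matrix (Fin 3) (Fin 4) F)}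
    (hZ : ∀ y, D.g v y = 0 → D.g v' y = 0 → ∀ X, Z (D.sieW v y X) = D.sieW v y (Z X)) :
    ∃ A C P₁ P₂ : Module.End F (Fin 3 → F), (∀ b, Z (colMap v b) = colMap v (A b)) ∧
      (∀ b, Z (colMap v' b) = colMap v' (A b) + colMap z₁ (P₁ b) + colMap z₂ (P₂ b) + colMap v (C b)) ∧
      (∀ b, Z (colMap z₁ b) = colMap z₁ (A b) - D.g z₁ z₁ • colMap v (P₁ b)) ∧
      (∀ b, Z (colMap z₂ b) = colMap z₂ (A b) - D.g z₂ z₂ • colMap v (P₂ b)) := by
  have h2 := D.hg.two
  refine ⟨D.row v ∘ₗ Z ∘ₗ colMap v', D.row v' ∘ₗ Z ∘ₗ colMap v',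
    (D.g z₁ z₁)⁻¹ • (D.row z₁ ∘ₗ Z ∘ₗ colMap v'), (D.g z₂ z₂)⁻¹ • (D.row z₂ ∘ₗ Z ∘ₗ colMap v'),
    ?_⟩
  have hX : ∀ b, Z (colMap v' b) = colMap v' (D.row v (Z (colMap v' b))) +
      colMap z₁ ((D.g z₁ z₁)⁻¹ • D.row z₁ (Z (colMap v' b))) +
      colMap z₂ ((D.g z₂ z₂)⁻¹ • D.row z₂ (Z (colMap v' b))) +
      colMap v (D.row v' (Z (colMap v' b))) := fun b => by
    conv_lhs => rw [hW.decompX (Z (colMap v' b))]
    abel
  have key : ∀ y, D.g v y = 0 → D.g v' y = 0 → D.g y y ≠ 0 → ∀ b,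
      Z (colMap v b) = colMap v (D.row v (Z (colMap v' b))) ∧
      Z (colMap y b) = colMap y (D.row v (Z (colMap v' b))) -
        colMap v (D.row y (Z (colMap v' b))) := by
    intro y hy hy' hyy b
    have e : ∀ y', D.g v y' = 0 → D.g v' y' = 0 →
        Z (colMap y' b) - (D.g y' y' / 2) • Z (colMap v b) =
          colMap y' (D.row v (Z (colMap v' b))) - colMap v (D.row y' (Z (colMap v' b))) -
            (D.g y' y' / 2) • colMap v (D.row v (Z (colMap v' b))) := by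
      intro y' h1 h2'
      have h := hZ y' h1 h2' (colMap v' b)
      rw [sieW_apply, sieW_apply, TD.row_col, TD.row_col, hW.v'v, h2', one_smul, zero_smul, map_zero,
        sub_zero, map_sub, map_smul] at h
      exact h
    have e1 := e y hy hy'
    have e2 := e (-y) (by simp [hy]) (by simp [hy'])
    simp only [col_neg, map_neg, LinearMap.neg_apply, neg_neg,
      show D.row (-y) (Z (colMap v' b)) = -D.row y (Z (colMap v' b)) by
        rw [← neg_one_smul F y, TD.row_smul, neg_one_smul]] at e2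
    have hv : (D.g y y) • Z (colMap v b) = (D.g y y) • colMap v (D.row v (Z (colMap v' b))) := by
      linear_combination (norm := skip) (-1 : F) • e1 - e2
      match_scalars <;> field_simp <;> ring
    have hv' := smul_right_injective _ hyy hv
    exact ⟨hv', by linear_combination (norm := module) e1 + (D.g y y / 2) • hv'⟩
  refine ⟨fun b => (key z₁ hW.v1 hW.w1 hW.a1 b).1, fun b => hX b, fun b => ?_, fun b => ?_⟩
  · rw [(key z₁ hW.v1 hW.w1 hW.a1 b).2]
    simp [smul_smul, hW.a1]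
  · rw [(key z₂ hW.v2 hW.w2 hW.a2 b).2]
    simp [smul_smul, hW.a2]

/-- Maps commuting with the Eichler transformations at `v` and at `v'` act on the first factor. -/
lemma commutant_left (hW : WFrame D v v' z₁ z₂) {Z : Module.End F (Matrix (Fin 3) (Fin 4) F)}
    (hZ : ∀ y, D.g v y = 0 → D.g v' y = 0 → ∀ X, Z (D.sieW v y X) = D.sieW v y (Z X))
    (hZ' : ∀ y, D.g v' y = 0 → D.g v y = 0 → ∀ X, Z (D.sieW v' y X) = D.sieW v' y (Z X)) :
    ∃ A : Module.End F (Fin 3 → F), ∀ w b, Z (colMap w b) = colMap w (A b) := by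
  obtain ⟨A, C, P₁, P₂, hv, hv', h1, h2⟩ := commutant hW hZ
  obtain ⟨A', C', P₁', P₂', hv₁, -, -, -⟩ := commutant hW.swap hZ'
  have key : ∀ b, A b = A' b ∧ C b = 0 ∧ P₁ b = 0 ∧ P₂ b = 0 := fun b => by
    have e := (hv' b).symm.trans (hv₁ b)
    have r0 := congrArg (D.row v) e
    have r1 := congrArg (D.row v') e
    have r2 := congrArg (D.row z₁) e
    have r3 := congrArg (D.row z₂) e
    simp [TD.row_col, hW.v'v, hW.hyp.1, hW.u1, hW.u2] at r0
    simp [TD.row_col, hW.hyp.2.1, hW.x1, hW.x2, hW.hyp.2.2] at r1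
    simp [TD.row_col, hW.v1, hW.w1, hW.z21, hW.a1] at r2
    simp [TD.row_col, hW.v2, hW.w2, hW.z12, hW.a2] at r3
    exact ⟨r0, r1, r2, r3⟩
  refine ⟨A, fun w b => ?_⟩
  refine LinearMap.congr_fun (hW.ext_map
    (A := { toFun := fun w => Z (colMap w b)
            map_add' := fun x y => by rw [TD.col_add, map_add]
            map_smul' := fun c x => by rw [colMap_smul_right, map_smul]; rfl })
    (B := { toFun := fun w => colMap w (A b)
            map_add' := fun x y => by rw [TD.col_add]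
            map_smul' := fun c x => by rw [colMap_smul_right]; rfl }) ?_ ?_ ?_ ?_) w
  · exact hv b
  · show Z (colMap v' b) = _
    rw [hv₁ b, ← (key b).1]; rfl
  · show Z (colMap z₁ b) = _
    rw [h1 b, (key b).2.2.1, map_zero, smul_zero, sub_zero]; rfl
  · show Z (colMap z₂ b) = _
    rw [h2 b, (key b).2.2.2, map_zero, smul_zero, sub_zero]; rfl

lemma unip_apply (hW : WFrame D v v' z₁ z₂) (P₁ P₂ C : Module.End F (Fin 3 → F)) (b : Fin 3 → F) :
    unip D v z₁ z₂ P₁ P₂ C (colMap v b) = 0 ∧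
    unip D v z₁ z₂ P₁ P₂ C (colMap v' b) = colMap z₁ (P₁ b) + colMap z₂ (P₂ b) + colMap v (C b) ∧
    unip D v z₁ z₂ P₁ P₂ C (colMap z₁ b) = -(D.g z₁ z₁ • colMap v (P₁ b)) ∧
    unip D v z₁ z₂ P₁ P₂ C (colMap z₂ b) = -(D.g z₂ z₂ • colMap v (P₂ b)) := by
  simp [unip, TD.cr_apply, TD.row_col, hW.v'v, hW.hyp.1, hW.v1, hW.v2, hW.w1, hW.w2, hW.u1, hW.u2,
    hW.z12, hW.z21]

lemma unip_mul (hW : WFrame D v v' z₁ z₂) (P₁ P₂ C Q₁ Q₂ E : Module.End F (Fin 3 → F)) :
    unip D v z₁ z₂ P₁ P₂ C * unip D v z₁ z₂ Q₁ Q₂ E =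
      D.cr v v (-(D.g z₁ z₁ • (P₁ * Q₁) + D.g z₂ z₂ • (P₂ * Q₂))) := by
  simp only [unip, mul_add, add_mul, mul_sub, sub_mul, TD.cr_mul_cr, hW.hyp.1, hW.v1, hW.v2, hW.u1,
    hW.u2, hW.z12, hW.z21, zero_smul, add_zero, zero_add, sub_zero, zero_sub]
  simp only [TD.cr_neg, TD.cr_add, TD.cr_smul, neg_add]

lemma cr_mul_unip (hW : WFrame D v v' z₁ z₂) (S P₁ P₂ C : Module.End F (Fin 3 → F)) :
    D.cr v v S * unip D v z₁ z₂ P₁ P₂ C = 0 := by
  simp [unip, mul_add, mul_sub, TD.cr_mul_cr, hW.hyp.1, hW.u1, hW.u2]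

lemma unip_cube (hW : WFrame D v v' z₁ z₂) (P₁ P₂ C : Module.End F (Fin 3 → F)) :
    unip D v z₁ z₂ P₁ P₂ C ^ 3 = 0 := by
  rw [pow_succ, pow_two, unip_mul hW, cr_mul_unip hW]

/-- Conjugation by the first factor. -/
lemma unip_conj {A : Module.End F (Fin 3 → F)} (hA : A * A = 1) (P₁ P₂ C : Module.End F (Fin 3 → F))
    (X : Matrix (Fin 3) (Fin 4) F) :
    leftMap A (unip D v z₁ z₂ P₁ P₂ C X) =
      unip D v z₁ z₂ (A * P₁ * A) (A * P₂ * A) (A * C * A) (leftMap A X) := by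
  simp only [unip, LinearMap.add_apply, LinearMap.sub_apply, map_add, map_sub, TD.leftMap_conj hA]

variable {M : Subgroup (OQ D.Q)} [Finite F]

/-- The characteristic gives an exponent. -/
lemma exists_char (D : TD F 3 4) : ∃ p : ℕ, p.Prime ∧ Odd p ∧ 3 ≤ p ∧ CharP F p := by
  haveI := Fintype.ofFinite F
  obtain ⟨p, hpc, n, hp, -⟩ := FiniteField.card' F
  haveI : CharP F p := hpc
  have hne : p ≠ 2 := fun h => D.hf.two (by subst h; exact_mod_cast CharP.cast_eq_zero F 2)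
  exact ⟨p, hp, hp.odd_of_ne_two hne, by have := hp.two_le; omega, hpc⟩

omit [Finite F] in
/-- An isometry `1 + L` with `L³ = 0` has exponent the characteristic. -/
lemma pow_char_eq_one {p : ℕ} (hp : p.Prime) (h3 : 3 ≤ p) [CharP F p] {k : OQ D.Q}
    {L : Module.End F (Matrix (Fin 3) (Fin 4) F)} (hk : ∀ X, k.1 X = X + L X) (hL : L ^ 3 = 0) :
    k ^ p = 1 := by
  haveI : Fact p.Prime := ⟨hp⟩
  haveI : CharP (Module.End F (Matrix (Fin 3) (Fin 4) F)) p := charP_of_injective_algebraMap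
    (algebraMap F (Module.End F (Matrix (Fin 3) (Fin 4) F))).injective p
  have hn : ∀ (n : ℕ) X, (k ^ n).1 X = ((1 + L) ^ n) X := by
    intro n
    induction n with
    | zero => intro X; rfl
    | succ n ih =>
      intro X
      rw [pow_succ, pow_succ, Subgroup.coe_mul, LinearEquiv.mul_apply, ih, hk, Module.End.mul_apply]
      rfl
  refine Subtype.ext (LinearEquiv.ext fun X => ?_)
  rw [hn]
  have h1 := add_pow_char_pow_of_commute (p := p) 1 (Commute.one_left L)
  rw [pow_one, one_pow] at h1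
  rw [h1, show L ^ p = 0 by rw [← Nat.add_sub_cancel' h3, pow_add, hL, zero_mul], add_zero]
  rfl

/-- The isometry conditions. -/
lemma unip_rels (hW : WFrame D v v' z₁ z₂) {P₁ P₂ C : Module.End F (Fin 3 → F)} {k : OQ D.Q}
    (hk : ∀ X, k.1 X = X + unip D v z₁ z₂ P₁ P₂ C X) :
    (∀ a b, D.f (P₁ a) b = D.f a (P₁ b)) ∧ (∀ a b, D.f (P₂ a) b = D.f a (P₂ b)) ∧
      ∀ a b, D.f (C a) b + D.f a (C b) + D.g z₁ z₁ * D.f (P₁ a) (P₁ b) +
        D.g z₂ z₂ * D.f (P₂ a) (P₂ b) = 0 := by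
  have hp : ∀ X Y, polar D.Q (X + unip D v z₁ z₂ P₁ P₂ C X) (Y + unip D v z₁ z₂ P₁ P₂ C Y) =
      polar D.Q X Y := fun X Y => by rw [← hk, ← hk, OQ_polar]
  refine ⟨fun a b => ?_, fun a b => ?_, fun a b => ?_⟩
  · have h := hp (colMap v' a) (colMap z₁ b)
    simp [(unip_apply hW P₁ P₂ C a).2.1, (unip_apply hW P₁ P₂ C b).2.2.1, polar_add_left,
      polar_add_right, polar_neg_right, polar_smul_right, TD.polar_col_col, hW.v'v, hW.w1, hW.hyp.1,
      hW.v1, hW.u1, hW.u2, hW.z21] at h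
    exact mul_right_cancel₀ hW.a1 (by linear_combination h)
  · have h := hp (colMap v' a) (colMap z₂ b)
    simp [(unip_apply hW P₁ P₂ C a).2.1, (unip_apply hW P₁ P₂ C b).2.2.2, polar_add_left,
      polar_add_right, polar_neg_right, polar_smul_right, TD.polar_col_col, hW.v'v, hW.w2, hW.hyp.1,
      hW.v2, hW.u1, hW.u2, hW.z12] at h
    exact mul_right_cancel₀ hW.a2 (by linear_combination h)
  · have h := hp (colMap v' a) (colMap v' b)
    simp [(unip_apply hW P₁ P₂ C a).2.1, (unip_apply hW P₁ P₂ C b).2.1, polar_add_left,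
      polar_add_right, TD.polar_col_col, hW.v'v, hW.w1, hW.w2, hW.hyp.1, hW.hyp.2.1, hW.hyp.2.2,
      hW.v1, hW.v2, hW.u1, hW.u2, hW.x1, hW.x2, hW.z12, hW.z21] at h
    linear_combination h

/-- Two members of this shape commute, without root elements. -/
lemma unip_pair (h : Ctx D M) (hno : NoRoot M) (hW : WFrame D v v' z₁ z₂)
    {P₁ P₂ C Q₁ Q₂ E : Module.End F (Fin 3 → F)}
    (hP : D.Mem M (unip D v z₁ z₂ P₁ P₂ C)) (hQ : D.Mem M (unip D v z₁ z₂ Q₁ Q₂ E)) (b : Fin 3 → F) :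
    D.g z₁ z₁ • (P₁ (Q₁ b) - Q₁ (P₁ b)) + D.g z₂ z₂ • (P₂ (Q₂ b) - Q₂ (P₂ b)) = 0 := by
  obtain ⟨x, hx, hxX⟩ := hP
  obtain ⟨y, hy, hyX⟩ := hQ
  obtain ⟨s1, s2, -⟩ := unip_rels hW hxX
  obtain ⟨t1, t2, -⟩ := unip_rels hW hyX
  set Lx := unip D v z₁ z₂ P₁ P₂ C with hLx
  set Ly := unip D v z₁ z₂ Q₁ Q₂ E with hLy
  set S := D.g z₁ z₁ • (Q₁ * P₁ - P₁ * Q₁) + D.g z₂ z₂ • (Q₂ * P₂ - P₂ * Q₂) with hS
  have hc : Lx * Ly = Ly * Lx + D.cr v v S := by
    rw [hLx, hLy, unip_mul hW, unip_mul hW, ← TD.cr_add, hS]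
    congr 1
    simp only [smul_sub]
    abel
  have hSsk : ∀ p q, D.f (S p) q = -D.f p (S q) := fun p q => by
    simp [hS, s1, s2, t1, t2, smul_sub]
    ring
  have hmem : D.Mem M (D.cr v v S) := by
    refine ⟨x * y * (y * x)⁻¹, mul_mem (mul_mem hx hy) (inv_mem (mul_mem hy hx)), fun X => ?_⟩
    obtain ⟨Y, rfl⟩ := (y * x).1.surjective X
    rw [Subgroup.coe_mul, LinearEquiv.mul_apply]
    have e1 : (y * x)⁻¹.1 ((y * x).1 Y) = Y := (y * x).1.symm_apply_apply Y
    rw [e1, Subgroup.coe_mul, Subgroup.coe_mul, LinearEquiv.mul_apply, LinearEquiv.mul_apply]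
    simp only [hxX, hyX, map_add]
    have f1 : Lx (Ly Y) = Ly (Lx Y) + D.cr v v S Y := LinearMap.congr_fun hc Y
    have f2 : ∀ Z, D.cr v v S (Lx Z) = 0 := fun Z => LinearMap.congr_fun (cr_mul_unip hW S P₁ P₂ C) Z
    have f3 : ∀ Z, D.cr v v S (Ly Z) = 0 := fun Z => LinearMap.congr_fun (cr_mul_unip hW S Q₁ Q₂ E) Z
    simp only [f1, f2, f3, map_add]
    abel
  have h0 := LinearMap.congr_fun (hno v hW.hyp.1 hW.v_ne S hSsk hmem) b
  simp [hS] at h0
  linear_combination (norm := module) (-1 : F) • h0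

/-- A self-adjoint member of this shape kills the vectors of one class. -/
lemma unip_kill (h : Ctx D M) (hno : NoRoot M) (hW : WFrame D v v' z₁ z₂)
    {P₁ P₂ C : Module.End F (Fin 3 → F)} (hP : D.Mem M (unip D v z₁ z₂ P₁ P₂ C))
    {u u' u'' : Fin 3 → F} (hU : UFrame D u u' u'') (hns : ¬ IsSquare (D.f u u * D.f u' u'))
    (h1 : P₁ u = 0) (h2 : P₂ u = 0) : P₁ u' = 0 ∧ P₂ u' = 0 := by
  obtain ⟨k, hk, hkX⟩ := hP
  obtain ⟨s1, s2, -⟩ := unip_rels hW hkX
  -- a suitable vector of the plane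
  obtain ⟨s, hs0, hN, hβ⟩ : ∃ s : F, s ≠ 0 ∧ D.f u u + s * s * D.f u' u' ≠ 0 ∧
      s * s * D.f u' u' - D.f u u ≠ 0 := by
    haveI := Fintype.ofFinite F
    classical
    have hb : ∀ s : F, s * s * D.f u' u' - D.f u u ≠ 0 := fun s hs =>
      hns ⟨s * D.f u' u', by linear_combination (-D.f u' u') * hs⟩
    by_cases h1' : D.f u u + D.f u' u' = 0
    · obtain ⟨t, ht0, ht1⟩ : ∃ t : F, t ≠ 0 ∧ t * t ≠ 1 := by
        by_contra hc
        push Not at hc
        have hle : Fintype.card F ≤ 3 := by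
          rw [← Finset.card_univ]
          refine le_trans (Finset.card_le_card (t := ({0, 1, -1} : Finset F)) fun t _ => ?_)
            Finset.card_le_three
          rcases eq_or_ne t 0 with rfl | ht
          · simp
          rcases mul_self_eq_one_iff.1 (hc t ht) with rfl | rfl <;> simp
        have := h.card
        rw [Nat.card_eq_fintype_card] at this
        omega
      refine ⟨t, ht0, fun e => hU.n1 ?_, hb t⟩
      have : (t * t - 1) * D.f u' u' = 0 := by linear_combination e - h1'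
      exact (mul_eq_zero.1 this).resolve_left (sub_ne_zero.2 ht1)
    · exact ⟨1, one_ne_zero, by simpa using h1', hb 1⟩
  set t := u + s • u' with ht
  have htt : D.f t t = D.f u u + s * s * D.f u' u' := by
    simp [ht, hU.h01, hU.h10]; ring
  have htt0 : D.f t t ≠ 0 := by rw [htt]; exact hN
  obtain ⟨kt, hkt, hkt'⟩ := sig_mem h htt0
  obtain ⟨ks, hks, hks'⟩ := sig_mem h hU.n1
  set R := sigA D t with hR
  set S := sigA D u' with hS
  have conjMem : ∀ {Q₁ Q₂ E : Module.End F (Fin 3 → F)} {A : Module.End F (Fin 3 → F)} {m : OQ D.Q},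
      A * A = 1 → Acts m.1 A 1 → m ∈ M → D.Mem M (unip D v z₁ z₂ Q₁ Q₂ E) →
      D.Mem M (unip D v z₁ z₂ (A * Q₁ * A) (A * Q₂ * A) (A * E * A)) :=
    fun {Q₁ Q₂ E A m} hA hact hm hQ => by
      have hmX : ∀ X, m.1 X = leftMap A X := fun X => ext_colMap (φ := m.1.toLinearMap) (fun w p => by
        rw [LinearEquiv.coe_coe, hact, leftMap_colMap]; rfl) X
      exact hQ.conj hm fun X => by rw [hmX, hmX, unip_conj hA]
  have hA := conjMem (sigA_sq htt0) hkt' hkt ⟨k, hk, hkX⟩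
  have hB := conjMem (sigA_sq htt0) hkt' hkt (conjMem (sigA_sq hU.n1) hks' hks ⟨k, hk, hkX⟩)
  -- evaluate at `u`
  have e : ∀ {P : Module.End F (Fin 3 → F)}, (∀ a b, D.f (P a) b = D.f a (P b)) → P u = 0 →
      D.f u' (P ((R * P * R) u)) * D.f t t ^ 2 * D.f u'' u'' * D.f u' u' =
        2 * D.f u u * s * ((s * s * D.f u' u' - D.f u u) * D.f u'' u'' * D.f u' (P u') ^ 2 -
          D.f t t * D.f u' u' * D.f u'' (P u') ^ 2) ∧
      D.f u' (P ((R * (S * P * S) * R) u)) * D.f t t ^ 2 * D.f u'' u'' * D.f u' u' =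
        2 * D.f u u * s * ((s * s * D.f u' u' - D.f u u) * D.f u'' u'' * D.f u' (P u') ^ 2 +
          D.f t t * D.f u' u' * D.f u'' (P u') ^ 2) := by
    intro P hsym hPu
    have hd := hU.decomp (P u')
    have e0 : D.f u (P u') = 0 := by rw [← hsym, hPu, map_zero, LinearMap.zero_apply]
    rw [e0, zero_div, zero_smul, zero_add] at hd
    have e2 : D.f u' (P u'') = D.f u'' (P u') := by rw [← hsym, D.hf.symm]
    have hu0 : R u = ((2 * D.f u u) / D.f t t - 1) • u + ((2 * D.f u u * s) / D.f t t) • u' := by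
      rw [hR, sigA_apply, ht]
      simp [hU.h10]
      match_scalars <;> ring
    have hu1 : R u' = ((2 * s * D.f u' u') / D.f t t) • u +
        ((2 * s * s * D.f u' u') / D.f t t - 1) • u' := by
      rw [hR, sigA_apply, ht]
      simp [hU.h01]
      match_scalars <;> ring
    have hu2 : R u'' = -u'' := sigA_perp (by simp [ht, hU.h02, hU.h12])
    have su : S u = -u := sigA_perp hU.h10
    have su1 : S u' = u' := sigA_self hU.n1
    have su2 : S u'' = -u'' := sigA_perp hU.h12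
    have n0 := hU.n0
    have n1 := hU.n1
    have n2 := hU.n2
    constructor <;>
    · simp only [Module.End.mul_apply, hu0, map_add, map_smul, map_neg, su, su1, su2, hPu, smul_zero,
        zero_add, neg_zero]
      conv_lhs => rw [hd]
      simp only [map_add, map_smul, map_neg, map_zero, su1, su2, hu1, hu2, hPu, smul_zero, zero_add,
        add_zero, neg_zero, mul_zero, smul_eq_mul, e2, hU.h10, hU.h12, hU.h21]
      field_simp
      rw [htt]
      ring
  obtain ⟨a1, b1⟩ := e s1 h1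
  obtain ⟨a2, b2⟩ := e s2 h2
  have p1 := congrArg (D.f u') (unip_pair h hno hW ⟨k, hk, hkX⟩ hA u)
  have p2 := congrArg (D.f u') (unip_pair h hno hW ⟨k, hk, hkX⟩ hB u)
  simp only [h1, h2, map_zero, sub_zero, map_add, map_smul, smul_eq_mul] at p1 p2
  set N := D.f t t with hNdef
  set β := s * s * D.f u' u' - D.f u u with hβdef
  have q1 : D.g z₁ z₁ * D.f u' (P₁ u') ^ 2 + D.g z₂ z₂ * D.f u' (P₂ u') ^ 2 = 0 := by
    have : (4 * D.f u u * s * β * D.f u'' u'') *
        (D.g z₁ z₁ * D.f u' (P₁ u') ^ 2 + D.g z₂ z₂ * D.f u' (P₂ u') ^ 2) = 0 := by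
      linear_combination (N ^ 2 * D.f u'' u'' * D.f u' u') * (p1 + p2) -
        D.g z₁ z₁ * (a1 + b1) - D.g z₂ z₂ * (a2 + b2)
    refine (mul_eq_zero.1 this).resolve_left (mul_ne_zero (mul_ne_zero (mul_ne_zero (mul_ne_zero ?_
      hU.n0) hs0) hβ) hU.n2)
    rw [show (4 : F) = 2 * 2 by norm_num]
    exact mul_ne_zero D.hf.two D.hf.two
  have q2 : D.g z₁ z₁ * D.f u'' (P₁ u') ^ 2 + D.g z₂ z₂ * D.f u'' (P₂ u') ^ 2 = 0 := by
    have : (4 * D.f u u * s * N * D.f u' u') *
        (D.g z₁ z₁ * D.f u'' (P₁ u') ^ 2 + D.g z₂ z₂ * D.f u'' (P₂ u') ^ 2) = 0 := by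
      linear_combination (N ^ 2 * D.f u'' u'' * D.f u' u') * (p2 - p1) +
        D.g z₁ z₁ * (a1 - b1) + D.g z₂ z₂ * (a2 - b2)
    refine (mul_eq_zero.1 this).resolve_left (mul_ne_zero (mul_ne_zero (mul_ne_zero (mul_ne_zero ?_
      hU.n0) hs0) htt0) hU.n1)
    rw [show (4 : F) = 2 * 2 by norm_num]
    exact mul_ne_zero D.hf.two D.hf.two
  obtain ⟨x1, x2⟩ := hW.aniso (D.f u' (P₁ u')) (D.f u' (P₂ u')) (by linear_combination q1)
  obtain ⟨y1, y2⟩ := hW.aniso (D.f u'' (P₁ u')) (D.f u'' (P₂ u')) (by linear_combination q2)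
  constructor
  · rw [hU.decomp (P₁ u'), ← s1, h1, x1, y1]; simp
  · rw [hU.decomp (P₂ u'), ← s2, h2, x2, y2]; simp

/-- Without root elements, a member of this shape killing an anisotropic vector is trivial. -/
lemma unip_trivial (h : Ctx D M) (hno : NoRoot M) (hW : WFrame D v v' z₁ z₂)
    {P₁ P₂ C : Module.End F (Fin 3 → F)} (hP : D.Mem M (unip D v z₁ z₂ P₁ P₂ C))
    {u : Fin 3 → F} (hu : D.f u u ≠ 0) (h1 : P₁ u = 0) (h2 : P₂ u = 0) :
    unip D v z₁ z₂ P₁ P₂ C = 0 := by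
  haveI := Fintype.ofFinite F
  obtain ⟨p, q, hU⟩ := exists_uframe (D := D) hu
  -- a vector of the plane of the wanted class
  obtain ⟨d, hd⟩ := FiniteField.exists_nonsquare (F := F) (by
    intro hc; exact D.hf.two (by
      haveI := ringChar.charP F
      rw [hc] at this
      exact_mod_cast CharP.cast_eq_zero F 2))
  obtain ⟨a, b, hab⟩ := OrthExt.exists_two_squares D.hf.two hU.n1 hU.n2 (d * D.f u u)
  set w := a • p + b • q with hw
  have hww : D.f w w = d * D.f u u := by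
    simp [hw, hU.h12, hU.h21]
    linear_combination hab
  have hd0 : d ≠ 0 := fun e => hd (e ▸ IsSquare.zero)
  have hns : ¬ IsSquare (D.f u u * D.f w w) := fun ⟨r, hr⟩ => hd ⟨r / D.f u u, by
    rw [hww] at hr
    field_simp
    linear_combination hr⟩
  have huw : D.f u w = 0 := by simp [hw, hU.h01, hU.h02]
  have hw0 : D.f w w ≠ 0 := by rw [hww]; exact mul_ne_zero hd0 hu
  -- the third vector
  set x := (-(b * D.f q q)) • p + (a * D.f p p) • q with hx
  have hux : D.f u x = 0 := by simp [hx, hU.h01, hU.h02]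
  have hwx : D.f w x = 0 := by simp [hw, hx, hU.h12, hU.h21]; ring
  have hxx : D.f x x ≠ 0 := by
    have e : D.f x x = D.f p p * D.f q q * D.f w w := by
      simp [hw, hx, hU.h12, hU.h21]; ring
    rw [e]; exact mul_ne_zero (mul_ne_zero hU.n1 hU.n2) hw0
  have hV : UFrame D u w x := ⟨hu, hw0, hxx, huw, hux, hwx⟩
  obtain ⟨w1, w2⟩ := unip_kill h hno hW hP hV hns h1 h2
  -- a second vector of the same class
  obtain ⟨r, hr0, hr⟩ : ∃ r : F, r ≠ 0 ∧ D.f w w + r * r * D.f x x ≠ 0 := by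
    by_cases e1 : D.f w w + D.f x x = 0
    · classical
      obtain ⟨t, ht0, ht1⟩ : ∃ t : F, t ≠ 0 ∧ t * t ≠ 1 := by
        by_contra hc
        push Not at hc
        have hle : Fintype.card F ≤ 3 := by
          rw [← Finset.card_univ]
          refine le_trans (Finset.card_le_card (t := ({0, 1, -1} : Finset F)) fun t _ => ?_)
            Finset.card_le_three
          rcases eq_or_ne t 0 with rfl | ht
          · simp
          rcases mul_self_eq_one_iff.1 (hc t ht) with rfl | rfl <;> simp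
        have := h.card
        rw [Nat.card_eq_fintype_card] at this
        omega
      refine ⟨t, ht0, fun e => hxx ?_⟩
      have : (t * t - 1) * D.f x x = 0 := by linear_combination e - e1
      exact (mul_eq_zero.1 this).resolve_left (sub_ne_zero.2 ht1)
    · exact ⟨1, one_ne_zero, by simpa using e1⟩
  have hT : (w + r • x) ≠ 0 := fun e => hr (by
    have e' : D.f (w + r • x) (w + r • x) = D.f w w + r * r * D.f x x := by
      simp [hwx, D.hf.symm x w]; ring
    rw [← e', e]; simp)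
  have htt : D.f (w + r • x) (w + r • x) = D.f w w + r * r * D.f x x := by
    simp [hwx, D.hf.symm x w]; ring
  set w' := sigA D (w + r • x) w with hw'
  have hw'0 : D.f w' w' = D.f w w := sigA_isom (by rw [htt]; exact hr) w w
  have huw' : D.f u w' = 0 := by rw [hw', sigA_apply]; simp [huw, hux]
  have hw'x : D.f x w' = 2 * D.f w w * r * D.f x x / (D.f w w + r * r * D.f x x) := by
    rw [hw', sigA_apply, htt]
    simp [hwx, D.hf.symm x w]
    ring
  obtain ⟨x', hV'⟩ : ∃ x', UFrame D u w' x' := by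
    refine ⟨sigA D (w + r • x) x, hu, by rw [hw'0]; exact hw0, ?_, huw', ?_, ?_⟩
    · rw [sigA_isom (by rw [htt]; exact hr)]; exact hxx
    · rw [sigA_apply]; simp [huw, hux]
    · rw [hw', sigA_isom (by rw [htt]; exact hr)]; exact hwx
  obtain ⟨w1', w2'⟩ := unip_kill h hno hW hP hV' (by rwa [hw'0]) h1 h2
  have hxne : D.f x w' ≠ 0 := by
    rw [hw'x]
    exact div_ne_zero (mul_ne_zero (mul_ne_zero (mul_ne_zero D.hf.two hw0) hr0) hxx) hr
  have kill : ∀ P : Module.End F (Fin 3 → F), P u = 0 → P w = 0 → P w' = 0 → P = 0 :=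
    fun P e0 e1 e2 => hV.ext_map (by simp [e0]) (by simp [e1]) (by
      have := congrArg P (hV.decomp w')
      rw [e2, map_add, map_add, map_smul, map_smul, map_smul, e0, e1, smul_zero, smul_zero, zero_add,
        zero_add] at this
      rcases smul_eq_zero.1 this.symm with hh | hh
      · exact absurd hh (div_ne_zero hxne hxx)
      · simp [hh])
  have hP1 := kill P₁ h1 w1 w1'
  have hP2 := kill P₂ h2 w2 w2'
  obtain ⟨k, hk, hkX⟩ := hP
  subst hP1 hP2
  obtain ⟨-, -, hC⟩ := unip_rels hW hkX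
  have e : unip D v z₁ z₂ 0 0 C = D.cr v v C := by simp [unip, TD.cr_zero]
  have hC0 : C = 0 := hno v hW.hyp.1 hW.v_ne C (fun a b => by
    have := hC a b
    simp at this
    linear_combination this) ⟨k, hk, fun X => by rw [hkX, e]⟩
  rw [e, hC0, TD.cr_zero]

/-- Members fixing the tensors of an anisotropic vector and commuting with the Eichler
transformations at `v` act on the first factor. -/
lemma fix_acts (h : Ctx D M) (hno : NoRoot M) (hW : WFrame D v v' z₁ z₂) {u : Fin 3 → F}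
    (hu : D.f u u ≠ 0) {k : OQ D.Q} (hk : k ∈ M) (hfix : ∀ w, k.1 (colMap w u) = colMap w u)
    (hcomm : ∀ y, D.g v y = 0 → D.g v' y = 0 → ∀ X, k.1 (D.sieW v y X) = D.sieW v y (k.1 X)) :
    ∃ A, Acts k.1 A 1 ∧ A u = u := by
  obtain ⟨A, C, P₁, P₂, hv, hv', hz1, hz2⟩ := commutant hW (Z := k.1.toLinearMap) hcomm
  simp only [LinearEquiv.coe_coe] at hv hv' hz1 hz2
  have hAu : A u = u := colMap_injective hW.v_ne ((hv u).symm.trans (hfix v))
  have hAi : ∀ a b, D.f (A a) (A b) = D.f a b := fun a b => by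
    have := OQ_polar k (colMap v' a) (colMap v b)
    rw [hv', hv] at this
    simpa [polar_add_left, TD.polar_col_col, hW.v'v, hW.u1, hW.u2, hW.hyp.1] using this
  obtain ⟨k₀, hk₀⟩ := exists_acts (D := D) hAi (fun p q => rfl) (B := 1)
  have hk₀X : ∀ X, k₀.1 X = leftMap A X := fun X => ext_colMap (φ := k₀.1.toLinearMap) (fun w p => by
    rw [LinearEquiv.coe_coe, hk₀, leftMap_colMap]; rfl) X
  set k₁ := k₀⁻¹ * k with hk₁
  have hk₁' : k = k₀ * k₁ := by rw [hk₁, mul_inv_cancel_left]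
  have happ : ∀ X, k₀.1 (k₁.1 X) = k.1 X := fun X => by
    rw [← LinearEquiv.mul_apply, ← Subgroup.coe_mul, ← hk₁']
  have hcomm₁ : ∀ y, D.g v y = 0 → D.g v' y = 0 → ∀ X,
      k₁.1 (D.sieW v y X) = D.sieW v y (k₁.1 X) := fun y hy hy' X => k₀.1.injective (by
    rw [happ, hcomm y hy hy', ← happ, hk₀X, hk₀X, sieW_apply, sieW_apply]
    simp [TD.row_leftMap, leftMap_colMap, map_sub, map_smul])
  obtain ⟨A₁, C₁, Q₁, Q₂, gv, gv', gz1, gz2⟩ := commutant hW (Z := k₁.1.toLinearMap) hcomm₁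
  simp only [LinearEquiv.coe_coe] at gv gv' gz1 gz2
  have hAinj : Function.Injective A := fun a b e => sub_eq_zero.1 (D.hf.nd _ fun r => by
    rw [← hAi, map_sub, e, sub_self, map_zero, LinearMap.zero_apply])
  have hA₁ : ∀ b, A₁ b = b := fun b => hAinj (colMap_injective hW.v_ne (by
    rw [← leftMap_colMap A v (A₁ b), ← gv, ← hk₀X, happ, hv]))
  have hL : ∀ X, k₁.1 X = X + unip D v z₁ z₂ Q₁ Q₂ C₁ X := fun X =>
    ext_colMap (φ := k₁.1.toLinearMap) (ψ := LinearMap.id + unip D v z₁ z₂ Q₁ Q₂ C₁) (fun w b => by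
      refine LinearMap.congr_fun (hW.ext_map
        (A := { toFun := fun w => k₁.1 (colMap w b)
                map_add' := fun x y => by rw [TD.col_add, map_add]
                map_smul' := fun c x => by rw [colMap_smul_right, map_smul]; rfl })
        (B := { toFun := fun w => colMap w b + unip D v z₁ z₂ Q₁ Q₂ C₁ (colMap w b)
                map_add' := fun x y => by rw [TD.col_add, map_add]; abel
                map_smul' := fun c x => by rw [colMap_smul_right, map_smul, smul_add]; rfl })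
        ?_ ?_ ?_ ?_) w
      all_goals (show k₁.1 (colMap _ b) = colMap _ b + unip D v z₁ z₂ Q₁ Q₂ C₁ (colMap _ b))
      · rw [gv, hA₁, (unip_apply hW Q₁ Q₂ C₁ b).1, add_zero]
      · rw [gv', hA₁, (unip_apply hW Q₁ Q₂ C₁ b).2.1]; abel
      · rw [gz1, hA₁, (unip_apply hW Q₁ Q₂ C₁ b).2.2.1, sub_eq_add_neg]
      · rw [gz2, hA₁, (unip_apply hW Q₁ Q₂ C₁ b).2.2.2, sub_eq_add_neg]) X
  obtain ⟨p, hp, hodd, h3, hchar⟩ := exists_char D
  haveI := hchar
  have hc1 : k₁ ∈ commutator (OQ D.Q) :=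
    mem_commutator_of_pow hodd (pow_char_eq_one hp h3 hL (unip_cube hW _ _ _))
  have hk₀c : k₀ ∈ commutator (OQ D.Q) := by
    have := mul_mem (h.le hk) (inv_mem hc1)
    rwa [hk₁', mul_inv_cancel_right] at this
  have hk₁M : k₁ ∈ M := mul_mem (inv_mem (h.mem_of_acts hk₀ hk₀c)) hk
  have hfix₁ : unip D v z₁ z₂ Q₁ Q₂ C₁ (colMap v' u) = 0 := by
    have h1 : k₁.1 (colMap v' u) = colMap v' u := k₀.1.injective (by
      rw [happ, hfix, hk₀X, leftMap_colMap, hAu])
    rwa [hL, add_eq_left] at h1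
  rw [(unip_apply hW Q₁ Q₂ C₁ u).2.1] at hfix₁
  have r1 : Q₁ u = 0 := by
    have := congrArg (D.row z₁) hfix₁
    simpa [TD.row_col, hW.a1, hW.z21, hW.v1] using this
  have r2 : Q₂ u = 0 := by
    have := congrArg (D.row z₂) hfix₁
    simpa [TD.row_col, hW.a2, hW.z12, hW.v2] using this
  have h0 := unip_trivial h hno hW ⟨k₁, hk₁M, hL⟩ hu r1 r2
  refine ⟨A, fun w b => ?_, hAu⟩
  rw [← happ, hL, h0, LinearMap.zero_apply, add_zero, hk₀X, leftMap_colMap]
  rfl

end Cfsg.Agent.MaxSub.OrthTwelve
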